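import Mathlib

set_option autoImplicit false

/-!
# Transitive groups of degree 11: definitions for the kernel computations (helper70, for S0679)

Permutations of `Fin 11` are coded as natural numbers: `code g = Σ g(i) · 16^i`.  `gt p i` is the digit
`i`, `cmpC` the composition.  `sapp f n = f n` is a strict application: it makes the kernel evaluate `n`
before `f` is applied.  `jw h` is a test which guarantees that some power of the permutation coded by `h`
is a cycle of length 3, 5 or 7 (a "Jordan witness").  `allInv P f k acc` runs through the involutions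
extending the partial table `acc` (of length `k`) and checks `P` on each of them.
-/

namespace Cfsg.Agent.Lib.Helper70.D11

open Equiv

abbrev P11 : Type := Perm (Fin 11)

/-- The cycle `x ↦ x + 1`. -/
def c0 : P11 := ⟨fun x => x + 1, fun x => x - 1, fun x => by simp, fun x => by simp⟩

/-- The map `x ↦ 3 x`. -/
def m3 : P11 := ⟨fun x => 3 * x, fun x => 4 * x, by decide, by decide⟩

/-- The map `x ↦ - x`. -/
def u : P11 := ⟨fun x => -x, fun x => -x, fun x => by simp, fun x => by simp⟩

/-- A Jordan witness: some power of `g` has order `p` and moves exactly `p` points, `p ∈ {3, 5, 7}`. -/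
def JW (g : P11) : Prop :=
  ∃ k p : ℕ, (p = 3 ∨ p = 5 ∨ p = 7) ∧ (g ^ k).support.card = p ∧ (g ^ k) ^ p = 1

/-- Strict application. -/
def sapp {α : Type} (f : ℕ → α) : ℕ → α
  | 0 => f 0
  | m + 1 => f (Nat.succ m)

theorem sapp_eq {α : Type} (f : ℕ → α) (n : ℕ) : sapp f n = f n := by
  cases n <;> rfl

/-- Digit `i` (base 16) of `p`. -/
def gt (p i : ℕ) : ℕ := Nat.mod (Nat.div p (Nat.pow 16 i)) 16

/-- The number with the eleven given digits. -/
def mk (d0 d1 d2 d3 d4 d5 d6 d7 d8 d9 d10 : ℕ) : ℕ :=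
  Nat.add d0 (Nat.mul 16 (Nat.add d1 (Nat.mul 16 (Nat.add d2 (Nat.mul 16 (Nat.add d3 (Nat.mul 16
  (Nat.add d4 (Nat.mul 16 (Nat.add d5 (Nat.mul 16 (Nat.add d6 (Nat.mul 16 (Nat.add d7 (Nat.mul 16
  (Nat.add d8 (Nat.mul 16 (Nat.add d9 (Nat.mul 16 d10)))))))))))))))))))

/-- Composition of codes: `cmpC p q` codes `i ↦ p (q i)`. -/
def cmpC (p q : ℕ) : ℕ :=
  mk (gt p (gt q 0)) (gt p (gt q 1)) (gt p (gt q 2)) (gt p (gt q 3)) (gt p (gt q 4)) (gt p (gt q 5))
    (gt p (gt q 6)) (gt p (gt q 7)) (gt p (gt q 8)) (gt p (gt q 9)) (gt p (gt q 10))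

/-- The code of a permutation. -/
def code (g : P11) : ℕ :=
  mk (g 0) (g 1) (g 2) (g 3) (g 4) (g 5) (g 6) (g 7) (g 8) (g 9) (g 10)

/-- The eleven points. -/
def L11 : List ℕ := [0, 1, 2, 3, 4, 5, 6, 7, 8, 9, 10]

/-- Code of the identity. -/
def idc : ℕ := 0xa9876543210

/-- Code of `c0`. -/
def c0c : ℕ := 0x0a987654321

/-- The three scores of the point `x` under the coded map `h`, packed as
`s3 + 4096 * s5 + 4096^2 * s7`: walk along the cycle of `x`; a cycle of length 3 scores 1 for the prime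
3, a cycle of length 6 or 9 scores 100 for the prime 3, a cycle of length 5 scores 1 for the prime 5, a
cycle of length 10 scores 100 for the prime 5, a cycle of length 7 scores 1 for the prime 7, and a point
which does not come back after 11 steps scores 100 for all three primes. -/
def orb (h x : ℕ) : ℕ :=
  sapp (fun x1 => cond (Nat.beq x1 x) 0 (
  sapp (fun x2 => cond (Nat.beq x2 x) 0 (
  sapp (fun x3 => cond (Nat.beq x3 x) 1 (
  sapp (fun x4 => cond (Nat.beq x4 x) 0 (
  sapp (fun x5 => cond (Nat.beq x5 x) 4096 (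
  sapp (fun x6 => cond (Nat.beq x6 x) 100 (
  sapp (fun x7 => cond (Nat.beq x7 x) 16777216 (
  sapp (fun x8 => cond (Nat.beq x8 x) 0 (
  sapp (fun x9 => cond (Nat.beq x9 x) 100 (
  sapp (fun x10 => cond (Nat.beq x10 x) 409600 (
  sapp (fun x11 => cond (Nat.beq x11 x) 0 1678131300)
  (gt h x10))) (gt h x9))) (gt h x8))) (gt h x7))) (gt h x6))) (gt h x5))) (gt h x4))) (gt h x3)))
  (gt h x2))) (gt h x1))) (gt h x)

/-- The packed total scores. -/
def tot (h : ℕ) : ℕ :=
  Nat.add (orb h 0) (Nat.add (orb h 1) (Nat.add (orb h 2) (Nat.add (orb h 3) (Nat.add (orb h 4)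
  (Nat.add (orb h 5) (Nat.add (orb h 6) (Nat.add (orb h 7) (Nat.add (orb h 8) (Nat.add (orb h 9)
  (orb h 10))))))))))

/-- The test on the packed total scores. -/
def jwT (S : ℕ) : Bool :=
  Nat.beq (Nat.mod S 4096) 3 || Nat.beq (Nat.mod (Nat.div S 4096) 4096) 5 ||
    Nat.beq (Nat.div S 16777216) 7

/-- Does the point 0 fail to come back within 8 steps? (Then no power of `h` is a cycle of length 3, 5
or 7, and the test is abandoned.) -/
def long0 (h : ℕ) : Bool :=
  sapp (fun x1 => cond (Nat.beq x1 0) false (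
  sapp (fun x2 => cond (Nat.beq x2 0) false (
  sapp (fun x3 => cond (Nat.beq x3 0) false (
  sapp (fun x4 => cond (Nat.beq x4 0) false (
  sapp (fun x5 => cond (Nat.beq x5 0) false (
  sapp (fun x6 => cond (Nat.beq x6 0) false (
  sapp (fun x7 => cond (Nat.beq x7 0) false (
  sapp (fun x8 => cond (Nat.beq x8 0) false true)
  (gt h x7))) (gt h x6))) (gt h x5))) (gt h x4))) (gt h x3))) (gt h x2))) (gt h x1))) (gt h 0)

/-- The Jordan witness test for a (literal) code. -/
def jw' (h : ℕ) : Bool := cond (long0 h) false (sapp jwT (tot h))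

/-- The Jordan witness test. -/
def jw (h : ℕ) : Bool := sapp jw' h

/-- Check `P` on all involutions extending the partial table `acc` (unassigned places carry the digit
15; the places `< k` are assigned, together with their images); `f = 11 - k`. -/
def allInv (P : ℕ → Bool) : ℕ → ℕ → ℕ → Bool
  | 0, _, acc => P acc
  | f + 1, k, acc =>
    cond (Nat.beq (gt acc k) 15)
      ((L11.drop k).all fun v => !(Nat.beq (gt acc v) 15) ||
        sapp (fun k' => sapp (fun acc' => allInv P f k' acc')
          (Nat.sub acc (Nat.add (Nat.mul (Nat.sub 15 v) (Nat.pow 16 k))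
            (cond (Nat.beq v k) 0 (Nat.mul (Nat.sub 15 k) (Nat.pow 16 v))))))
          (Nat.succ k))
      (sapp (fun k' => allInv P f k' acc) (Nat.succ k))

/-- The partial table with `0 ↦ 0`, `1 ↦ v`, `v ↦ 1`. -/
def start (v : ℕ) : ℕ :=
  Nat.sub 0xffffffffff0 (Nat.add (Nat.mul (Nat.sub 15 v) 16)
    (cond (Nat.beq v 1) 0 (Nat.mul 14 (Nat.pow 16 v))))

/-- Check `P` on all involutions `t` with `t 0 = 0` and `t 1` in the list `vs`. -/
def top (P : ℕ → Bool) (vs : List ℕ) : Bool :=
  vs.all fun v => sapp (fun acc' => allInv P 9 2 acc') (start v)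

/-- The number of points moved by the coded map `c`. -/
def cnt (c : ℕ) : ℕ :=
  Nat.add (cond (Nat.beq (gt c 0) 0) 0 1) (Nat.add (cond (Nat.beq (gt c 1) 1) 0 1)
  (Nat.add (cond (Nat.beq (gt c 2) 2) 0 1) (Nat.add (cond (Nat.beq (gt c 3) 3) 0 1)
  (Nat.add (cond (Nat.beq (gt c 4) 4) 0 1) (Nat.add (cond (Nat.beq (gt c 5) 5) 0 1)
  (Nat.add (cond (Nat.beq (gt c 6) 6) 0 1) (Nat.add (cond (Nat.beq (gt c 7) 7) 0 1)
  (Nat.add (cond (Nat.beq (gt c 8) 8) 0 1) (Nat.add (cond (Nat.beq (gt c 9) 9) 0 1)
  (cond (Nat.beq (gt c 10) 10) 0 1))))))))))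

/-- The number of moved points is divisible by 4 (an even involution). -/
def evenB (c : ℕ) : Bool := Nat.beq (Nat.mod (cnt c) 4) 0

/-- Value of the table of `t` at `i` (0 outside the range). -/
def tv (t : P11) (i : ℕ) : ℕ := if h : i < 11 then ((t ⟨i, h⟩ : Fin 11) : ℕ) else 0

/-- Digit `j` of the partial table of `t` at stage `k`. -/
def pd (t : P11) (k j : ℕ) : ℕ := if j < k ∨ tv t j < k then tv t j else 15

/-- The partial table of `t` at stage `k`: the places `j < k` and their images are assigned. -/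
def part (t : P11) (k : ℕ) : ℕ :=
  mk (pd t k 0) (pd t k 1) (pd t k 2) (pd t k 3) (pd t k 4) (pd t k 5) (pd t k 6) (pd t k 7) (pd t k 8)
    (pd t k 9) (pd t k 10)

/-- Membership in a list of codes. -/
def memL (c : ℕ) (L : List ℕ) : Bool := L.any (Nat.beq c)

/-- The value of a word (a list of generator indices) in the coded generators `gen`. -/
def evalC (gen : ℕ → ℕ) : List ℕ → ℕ
  | [] => idc
  | [j] => gen j
  | j :: w => sapp (fun p => sapp (fun r => cmpC p r) (evalC gen w)) (gen j)

/-- The product of a word in the permutations `gp`. -/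
def wprod (gp : ℕ → P11) (w : List ℕ) : P11 := (w.map gp).prod

/-- A subgroup without Jordan witnesses. -/
def NoJW (G : Subgroup P11) : Prop := ∀ g ∈ G, ¬ JW g

end Cfsg.Agent.Lib.Helper70.D11
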