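import Mathlib
import Cfsg.Prelude.Def_KGroupFacts
import Cfsg.Agent.Lib.Helper70.StemTools
import Cfsg.Agent.Lib.Helper70.SchurLocal
import Cfsg.Agent.Lib.Helper70.SchurCE2
import Cfsg.Agent.Lib.Helper70.SchurTwoC

set_option autoImplicit false
open scoped commutatorElement

/-!
# Stem extensions with a cyclic kernel: upper bounds from a two-generator abelian subgroup, and
pullbacks of stem extensions of a central quotient (helper70)
-/

namespace Cfsg.Agent.Lib.Helper70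

universe u v w

/-- Pairwise commuting generators: the closure is commutative. -/
theorem comm_of_mem_closure {G : Type u} [Group G] (S : Set G)
    (hS : ∀ a ∈ S, ∀ b ∈ S, a * b = b * a) {x y : G} (hx : x ∈ Subgroup.closure S)
    (hy : y ∈ Subgroup.closure S) : x * y = y * x := by
  have h1 : Subgroup.closure S ≤ Subgroup.centralizer S := by
    rw [Subgroup.closure_le]
    intro z hz
    rw [SetLike.mem_coe, Subgroup.mem_centralizer_iff]
    intro w hw
    exact hS w hw z hz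
  have h2 : Subgroup.closure S ≤ Subgroup.centralizer (Subgroup.closure S : Set G) := by
    rw [Subgroup.closure_le]
    intro z hz
    rw [SetLike.mem_coe, Subgroup.mem_centralizer_iff]
    intro w hw
    exact (Subgroup.mem_centralizer_iff.mp (h1 hw) z hz).symm
  exact Subgroup.mem_centralizer_iff.mp (h2 hy) x hx

/-- In a central extension, the commutator subgroup of the preimage of an abelian subgroup `⟨a, b⟩` is
generated by the commutator of lifts of `a` and `b`. -/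
theorem commutator_comap_closure_pair_le {Γ : Type u} {P : Type v} [Group Γ] [Group P] (σ : Γ →* P)
    (hc : σ.ker ≤ Subgroup.center Γ) {a b : P} {α β : Γ} (hα : σ α = a) (hβ : σ β = b)
    (hab : a * b = b * a) :
    ⁅(Subgroup.closure ({a, b} : Set P)).comap σ, (Subgroup.closure ({a, b} : Set P)).comap σ⁆ ≤
      Subgroup.zpowers ⁅α, β⁆ := by
  have hκ : ⁅α, β⁆ ∈ σ.ker := by
    rw [MonoidHom.mem_ker, map_commutatorElement, hα, hβ, commutatorElement_eq_one_iff_mul_comm]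
    exact hab
  have hZ : Subgroup.zpowers ⁅α, β⁆ ≤ Subgroup.center Γ := by
    rw [Subgroup.zpowers_le]
    exact hc hκ
  have : (Subgroup.zpowers ⁅α, β⁆).Normal := normal_of_le_center _ hZ
  have hq : (QuotientGroup.mk' (Subgroup.zpowers ⁅α, β⁆)) α * (QuotientGroup.mk' (Subgroup.zpowers ⁅α, β⁆)) β =
      (QuotientGroup.mk' (Subgroup.zpowers ⁅α, β⁆)) β * (QuotientGroup.mk' (Subgroup.zpowers ⁅α, β⁆)) α := by
    rw [← commutatorElement_eq_one_iff_mul_comm, ← map_commutatorElement]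
    exact (QuotientGroup.eq_one_iff _).mpr (Subgroup.mem_zpowers _)
  have hcen : ∀ k ∈ σ.ker, ∀ g : Γ,
      (QuotientGroup.mk' (Subgroup.zpowers ⁅α, β⁆)) k * (QuotientGroup.mk' (Subgroup.zpowers ⁅α, β⁆)) g =
        (QuotientGroup.mk' (Subgroup.zpowers ⁅α, β⁆)) g * (QuotientGroup.mk' (Subgroup.zpowers ⁅α, β⁆)) k := by
    intro k hk g
    rw [← map_mul, ← map_mul, Subgroup.mem_center_iff.mp (hc hk) g]
  have hS : ∀ x ∈ (QuotientGroup.mk' (Subgroup.zpowers ⁅α, β⁆)) '' (({α, β} : Set Γ) ∪ (σ.ker : Set Γ)),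
      ∀ y ∈ (QuotientGroup.mk' (Subgroup.zpowers ⁅α, β⁆)) '' (({α, β} : Set Γ) ∪ (σ.ker : Set Γ)),
        x * y = y * x := by
    rintro _ ⟨x, hx, rfl⟩ _ ⟨y, hy, rfl⟩
    rcases hx with hx | hx
    · rcases hy with hy | hy
      · rcases hx with rfl | rfl <;> rcases hy with rfl | rfl
        · rfl
        · exact hq
        · exact hq.symm
        · rfl
      · exact (hcen y hy x).symm
    · exact hcen x hx y
  rw [Subgroup.commutator_le]
  intro g hg h hh
  have hg' := comap_closure_pair_le (σ := σ) hα hβ hg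
  have hh' := comap_closure_pair_le (σ := σ) hα hβ hh
  have hg'' : (QuotientGroup.mk' (Subgroup.zpowers ⁅α, β⁆)) g ∈ Subgroup.closure
      ((QuotientGroup.mk' (Subgroup.zpowers ⁅α, β⁆)) '' (({α, β} : Set Γ) ∪ (σ.ker : Set Γ))) := by
    rw [← MonoidHom.map_closure]
    exact Subgroup.mem_map_of_mem _ hg'
  have hh'' : (QuotientGroup.mk' (Subgroup.zpowers ⁅α, β⁆)) h ∈ Subgroup.closure
      ((QuotientGroup.mk' (Subgroup.zpowers ⁅α, β⁆)) '' (({α, β} : Set Γ) ∪ (σ.ker : Set Γ))) := by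
    rw [← MonoidHom.map_closure]
    exact Subgroup.mem_map_of_mem _ hh'
  have hcomm := comm_of_mem_closure _ hS hg'' hh''
  rw [← commutatorElement_eq_one_iff_mul_comm, ← map_commutatorElement] at hcomm
  exact (QuotientGroup.eq_one_iff _).mp hcomm

/-- Local criterion for a cyclic multiplier: if the commutator subgroup of the preimage of `U` lies in
`⟨κ⟩`, and the primes dividing the index of `U` are handled by subgroups whose preimages have commutator
subgroups avoiding the kernel, then the kernel lies in `⟨κ⟩`. -/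
theorem ker_le_zpowers_of_local {Γ : Type u} {G : Type v} [Group Γ] [Group G] [Finite G]
    (σ : Γ →* G) (hσ : Cfsg.IsStemExtension σ) (U : Subgroup G) (κ : Γ)
    (hU : ⁅U.comap σ, U.comap σ⁆ ≤ Subgroup.zpowers κ)
    (hloc : ∀ ℓ : ℕ, ℓ.Prime → ℓ ∣ U.index → ∃ R : Subgroup G, ¬ ℓ ∣ R.index ∧
      ∀ a ∈ ⁅R.comap σ, R.comap σ⁆, a ∈ σ.ker → a = 1) :
    σ.ker ≤ Subgroup.zpowers κ := by
  intro z hz
  have h1 : z ^ U.index ∈ Subgroup.zpowers κ :=
    hU (pow_index_mem_commutator_comap σ hσ.1 hσ.2.1 hσ.2.2 U hz)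
  have hcop : Nat.Coprime U.index (orderOf z) := by
    apply Nat.coprime_of_dvd
    intro ℓ hℓ hdvd hdvd'
    obtain ⟨R, hR, hR'⟩ := hloc ℓ hℓ hdvd
    have h2 := pow_index_mem_commutator_comap σ hσ.1 hσ.2.1 hσ.2.2 R hz
    have h3 : z ^ R.index = 1 := hR' _ h2 (Subgroup.pow_mem _ hz _)
    exact hR (hdvd'.trans (orderOf_dvd_of_pow_eq_one h3))
  obtain ⟨m, hm⟩ := exists_pow_eq_self_of_coprime hcop
  rw [← hm]
  exact Subgroup.pow_mem _ h1 m

/-! ### Pullbacks along a central quotient -/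

section PB

variable {S : Type u} {Q : Type v} {Γ₀ : Type w} [Group S] [Group Q] [Group Γ₀] (ξ : S →* Q) (σ₀ : Γ₀ →* Q)

/-- The kernel of the first projection of a pullback is the kernel of the second map. -/
def pb.kerFstEquiv : (pb.fst ξ σ₀).ker ≃ σ₀.ker where
  toFun y := ⟨((y : pb ξ σ₀) : S × Γ₀).2, by
    have h1 : ((y : pb ξ σ₀) : S × Γ₀).1 = 1 := y.2
    rw [MonoidHom.mem_ker, ← pb.comm_apply, h1, map_one]⟩
  invFun k := ⟨⟨(1, (k : Γ₀)), by
    show ξ 1 = σ₀ (k : Γ₀)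
    rw [map_one, MonoidHom.mem_ker.mp k.2]⟩, rfl⟩
  left_inv y := by
    have h1 : ((y : pb ξ σ₀) : S × Γ₀).1 = 1 := y.2
    apply Subtype.ext
    apply Subtype.ext
    apply Prod.ext
    · exact h1.symm
    · rfl
  right_inv k := rfl

/-- The pullback of a stem extension with cyclic kernel `⟨c⟩` along a surjection `ξ` is a stem extension,
if some power map kills the kernel of `ξ` and fixes `c`. -/
theorem isStemExtension_pb_fst (hξ : Function.Surjective ξ) (hσ₀ : Cfsg.IsStemExtension σ₀) (c : Γ₀)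
    (hker : σ₀.ker = Subgroup.zpowers c) (t : ℕ) (hε : ∀ ε ∈ ξ.ker, ε ^ t = 1) (hc : c ^ t = c) :
    Cfsg.IsStemExtension (pb.fst ξ σ₀) := by
  refine ⟨pb.fst_surjective ξ σ₀ hσ₀.1, pb.ker_fst_le_center ξ σ₀ hσ₀.2.1, ?_⟩
  have hcker : c ∈ σ₀.ker := by
    rw [hker]
    exact Subgroup.mem_zpowers c
  have hc_comm : c ∈ commutator Γ₀ := hσ₀.2.2 hcker
  rw [← map_commutator_of_surjective (pb.snd ξ σ₀) (pb.snd_surjective ξ σ₀ hξ)] at hc_comm
  obtain ⟨w, hw, hwc⟩ := hc_comm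
  have hwc' : ((w : pb ξ σ₀) : S × Γ₀).2 = c := hwc
  have hw1 : ((w : pb ξ σ₀) : S × Γ₀).1 ∈ ξ.ker := by
    rw [MonoidHom.mem_ker, pb.comm_apply, hwc']
    exact MonoidHom.mem_ker.mp hcker
  have hwt1 : (((w ^ t : pb ξ σ₀) : pb ξ σ₀) : S × Γ₀).1 = 1 := by
    rw [Subgroup.coe_pow, Prod.pow_fst]
    exact hε _ hw1
  have hwt2 : (((w ^ t : pb ξ σ₀) : pb ξ σ₀) : S × Γ₀).2 = c := by
    rw [Subgroup.coe_pow, Prod.pow_snd, hwc', hc]
  intro y hy
  have h1 : ((y : pb ξ σ₀) : S × Γ₀).1 = 1 := hy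
  have h2 : ((y : pb ξ σ₀) : S × Γ₀).2 ∈ σ₀.ker := by
    rw [MonoidHom.mem_ker, ← pb.comm_apply, h1, map_one]
  rw [hker] at h2
  obtain ⟨j, hj⟩ := Subgroup.mem_zpowers_iff.mp h2
  have hy' : y = (w ^ t) ^ j := by
    apply Subtype.ext
    apply Prod.ext
    · rw [h1, Subgroup.coe_zpow, Prod.pow_fst, hwt1, one_zpow]
    · rw [← hj, Subgroup.coe_zpow, Prod.pow_snd, hwt2]
  rw [hy']
  exact Subgroup.zpow_mem _ (Subgroup.pow_mem _ hw t) j

end PB

end Cfsg.Agent.Lib.Helper70
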