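import Mathlib
import Cfsg.Agent.Lib.Helper70.TabLocal
import Cfsg.Agent.Lib.Helper70.SchurTwoD

set_option autoImplicit false

/-!
# Local analysis of central extensions of permutation groups on the 24 points, on tables, II (helper70)

Aligned conjugation checks (`conjPairs`), the prime 3 for extraspecial groups of order 27 on tables
(`TabExt.three_extraspecial`), and the parity of the index of `V ⊔ D` (`not_two_dvd_index_tab`).
-/

namespace Cfsg.Agent.Lib.Helper70

open Cfsg Cfsg.Agent.Lib.Helper9 Cfsg.Agent.Lib.Helper95 Cfsg.Agent.Lib.Helper89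

open scoped commutatorElement

/-- The `i`-th table of `L` is the identity or conjugate, by the `i`-th table of `K` (which passes `inH`),
to a table of `X`. -/
def conjPairs (inH : List ℕ → Bool) (X : List (List ℕ)) : List (List ℕ) → List (List ℕ) → Bool
  | [], _ => true
  | _ :: _, [] => false
  | a :: L, k :: K =>
    (a == idT || (X.any (fun x => conjT k x == a) && inH k)) && conjPairs inH X L K

theorem conjPairs_spec {inH : List ℕ → Bool} {X : List (List ℕ)} :
    ∀ (L K : List (List ℕ)), conjPairs inH X L K = true →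
      ∀ a ∈ L, a = idT ∨ ∃ k, inH k = true ∧ ∃ x ∈ X, conjT k x = a
  | [], _, _, a, ha => absurd ha List.not_mem_nil
  | _ :: _, [], h, _, _ => by simp [conjPairs] at h
  | b :: L, k :: K, h, a, ha => by
    rw [conjPairs, Bool.and_eq_true] at h
    rcases List.mem_cons.mp ha with rfl | ha'
    · have h1 := h.1
      rw [Bool.or_eq_true] at h1
      rcases h1 with h1 | h1
      · left
        exact beq_iff_eq.mp h1
      · right
        rw [Bool.and_eq_true] at h1
        obtain ⟨x, hx, hxa⟩ := List.any_eq_true.mp h1.1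
        exact ⟨k, h1.2, x, hx, beq_iff_eq.mp hxa⟩
    · exact conjPairs_spec L K h.2 a ha'

/-- The table of the commutator `a * b * a⁻¹ * b⁻¹`. -/
def commT (a b : List ℕ) : List ℕ := compT (compT (compT a b) (invT a)) (invT b)

theorem permOK_commT {a b : List ℕ} (ha : permOK a = true) (hb : permOK b = true) :
    permOK (commT a b) = true :=
  permOK_compT (permOK_compT (permOK_compT ha hb) (permOK_invT ha)) (permOK_invT hb)

theorem tperm_commT {a b : List ℕ} (ha : permOK a = true) (hb : permOK b = true) :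
    tperm (commT a b) = ⁅tperm a, tperm b⁆ := by
  unfold commT
  rw [commutatorElement_def, ← tperm_mul (permOK_compT (permOK_compT ha hb) (permOK_invT ha))
    (permOK_invT hb), ← tperm_mul (permOK_compT ha hb) (permOK_invT ha), ← tperm_mul ha hb,
    tperm_inv ha, tperm_inv hb]

/-! ### Table hypotheses as group hypotheses -/

section conv

variable {gV gD LV LD : List (List ℕ)} {yT : List ℕ}

theorem tab_y3 (hyok : permOK yT = true) (hy3 : compT yT (compT yT yT) = idT) :
    tperm yT * tperm yT * tperm yT = 1 := by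
  rw [mul_assoc, tperm_mul hyok hyok, tperm_mul hyok (permOK_compT hyok hyok), hy3, tperm_idT]

theorem tab_yV (DV : TgData gV LV) (hyok : permOK yT = true)
    (hyV : LV.all (fun a => LV.contains (conjT yT a)) = true) :
    ∀ v ∈ tgGrp gV, tperm yT * v * (tperm yT)⁻¹ ∈ tgGrp gV := by
  intro v hv
  obtain ⟨a, ha, rfl⟩ := DV.exists_elem hv
  rw [← tperm_conjT hyok (DV.ok a ha)]
  have h1 := List.all_eq_true.mp hyV a ha
  exact DV.mem_grp (List.contains_iff_mem.mp h1)

theorem tab_fix (DV : TgData gV LV) (hyok : permOK yT = true)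
    (hfix : LV.all (fun a => a == idT || conjT yT a != a) = true) :
    ∀ v ∈ tgGrp gV, tperm yT * v * (tperm yT)⁻¹ = v → v = 1 := by
  intro v hv hvy
  obtain ⟨a, ha, rfl⟩ := DV.exists_elem hv
  rw [← tperm_conjT hyok (DV.ok a ha)] at hvy
  have h1 := List.all_eq_true.mp hfix a ha
  rw [Bool.or_eq_true] at h1
  rcases h1 with h1 | h1
  · rw [beq_iff_eq] at h1
    rw [h1, tperm_idT]
  · exfalso
    have h3 := tg_tperm_inj (permOK_conjT hyok (DV.ok a ha)) (DV.ok a ha) hvy
    rw [bne_iff_ne] at h1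
    exact h1 h3

theorem tab_DV (DV : TgData gV LV) (DD : TgData gD LD)
    (hDV : LD.all (fun d => LV.all (fun a => LV.contains (conjT d a))) = true) :
    ∀ d ∈ tgGrp gD, ∀ v ∈ tgGrp gV, d * v * d⁻¹ ∈ tgGrp gV := by
  intro d hd v hv
  obtain ⟨b, hb, rfl⟩ := DD.exists_elem hd
  obtain ⟨a, ha, rfl⟩ := DV.exists_elem hv
  rw [← tperm_conjT (DD.ok b hb) (DV.ok a ha)]
  have h1 := List.all_eq_true.mp (List.all_eq_true.mp hDV b hb) a ha
  exact DV.mem_grp (List.contains_iff_mem.mp h1)

theorem tab_Dy (DD : TgData gD LD) (hyok : permOK yT = true)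
    (hDy : LD.all (fun d => conjT d yT == yT || conjT d yT == invT yT) = true) :
    ∀ d ∈ tgGrp gD, d * tperm yT * d⁻¹ = tperm yT ∨ d * tperm yT * d⁻¹ = (tperm yT)⁻¹ := by
  intro d hd
  obtain ⟨b, hb, rfl⟩ := DD.exists_elem hd
  rw [← tperm_conjT (DD.ok b hb) hyok]
  have h1 := List.all_eq_true.mp hDy b hb
  rw [Bool.or_eq_true, beq_iff_eq, beq_iff_eq] at h1
  rcases h1 with h1 | h1
  · left; rw [h1]
  · right; rw [h1, tperm_inv hyok]

/-- The index of `V ⊔ D` is odd, on tables. -/
theorem not_two_dvd_index_tab {H : Subgroup (Equiv.Perm GolayPt)} [Finite H] (DV : TgData gV LV)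
    (DD : TgData gD LD) (hndV : LV.Nodup) (hndD : LD.Nodup) (a b : ℕ) (hlV : LV.length = 2 ^ a)
    (hlD : LD.length = 2 ^ b) (hle : tgGrp (gV ++ gD) ≤ H) (hyok : permOK yT = true)
    (hy3 : compT yT (compT yT yT) = idT)
    (hyV : LV.all (fun a => LV.contains (conjT yT a)) = true)
    (hfix : LV.all (fun a => a == idT || conjT yT a != a) = true)
    (hDV : LD.all (fun d => LV.all (fun a => LV.contains (conjT d a))) = true)
    (hDy : LD.all (fun d => conjT d yT == yT || conjT d yT == invT yT) = true)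
    (hH : ¬ 2 ^ (a + b + 1) ∣ Nat.card H) : ¬ 2 ∣ ((tgGrp (gV ++ gD)).subgroupOf H).index := by
  rw [tgGrp_append] at hle ⊢
  have hDV' := tab_DV DV DD hDV
  apply not_two_dvd_index_of_split H (tgGrp gV) (tgGrp gD) hle a b (by rw [DV.card hndV, hlV])
    (by rw [DD.card hndD, hlD]) ?_ ?_ hH
  · intro d hd
    rw [Subgroup.mem_normalizer_iff]
    intro v
    constructor
    · exact hDV' d hd v
    · intro h
      have := hDV' d⁻¹ (Subgroup.inv_mem _ hd) _ h
      have e : d⁻¹ * (d * v * d⁻¹) * d⁻¹⁻¹ = v := by group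
      rwa [e] at this
  · exact disjoint_of_fpf (tgGrp gV) (tgGrp gD) (tperm yT) (tab_y3 hyok hy3) (tab_yV DV hyok hyV)
      (tab_fix DV hyok hfix) (tab_Dy DD hyok hDy)

end conv

section

variable {Γ : Type*} [Group Γ] {σ : Γ →* Equiv.Perm GolayPt} {inH : List ℕ → Bool}

theorem TabExt.qOne_of_pairs (C : TabExt σ inH) (h2 : ∀ ζ ∈ σ.ker, ζ * ζ = 1)
    {X K L : List (List ℕ)}
    (hX : ∀ x ∈ X, inH x = true ∧ compT x x = idT ∧ QOne σ (tperm x))
    (h : conjPairs inH X L K = true) : ∀ a ∈ L, QOne σ (tperm a) := by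
  intro a ha
  rcases conjPairs_spec L K h a ha with h1 | ⟨k, hk1, x, hx, hxa⟩
  · rw [h1, tperm_idT]
    exact qOne_one h2
  · obtain ⟨hxin, hxsq, hxq⟩ := hX x hx
    obtain ⟨hkok, hkr⟩ := C.range k hk1
    obtain ⟨hxok, hxr⟩ := C.range x hxin
    rw [← hxa, tperm_conjT hkok hxok]
    exact qOne_conj C.central h2 (tperm_sq hxok hxsq) hxq hxr hkr

/-- The prime 3 for an extraspecial group of order 27 and exponent 3, on tables. -/
theorem TabExt.three_extraspecial (C : TabExt σ inH) {aT bT tT : List ℕ} (ha : inH aT = true)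
    (hb : inH bT = true) (ht : inH tT = true) (ha3 : compT aT (compT aT aT) = idT)
    (hb3 : compT bT (compT bT bT) = idT)
    (hca : compT (commT aT bT) aT = compT aT (commT aT bT))
    (hcb : compT (commT aT bT) bT = compT bT (commT aT bT))
    (hc1 : commT aT bT ≠ idT) (hta : conjT tT aT = invT aT) (htb : conjT tT bT = invT bT) :
    ∀ x ∈ ⁅(tgGrp [aT, bT]).comap σ, (tgGrp [aT, bT]).comap σ⁆, x ∈ σ.ker → x = 1 := by
  obtain ⟨haok, har⟩ := C.range aT ha
  obtain ⟨hbok, hbr⟩ := C.range bT hb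
  obtain ⟨htok, htr⟩ := C.range tT ht
  have hcok := permOK_commT haok hbok
  rw [tgGrp_pair]
  apply three_local_extraspecial C.central har hbr htr
  · exact tab_y3 haok ha3
  · exact tab_y3 hbok hb3
  · rw [← tperm_commT haok hbok, tperm_mul hcok haok, hca, ← tperm_mul haok hcok]
  · rw [← tperm_commT haok hbok, tperm_mul hcok hbok, hcb, ← tperm_mul hbok hcok]
  · rw [← tperm_commT haok hbok, ← tperm_idT]
    intro h
    exact hc1 (tg_tperm_inj hcok permOK_idT h)
  · rw [← tperm_conjT htok haok, hta, tperm_inv haok]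
  · rw [← tperm_conjT htok hbok, htb, tperm_inv hbok]

end

/-- Transfer of the local condition to a subgroup of the permutation group, from the index. -/
theorem local_of_index {H : Subgroup (Equiv.Perm GolayPt)} (U' : Subgroup (Equiv.Perm GolayPt)) (ℓ : ℕ)
    (hidx : ¬ ℓ ∣ (U'.subgroupOf H).index) {Γ : Type*} [Group Γ] (τ : Γ →* ↥H)
    (h : ∀ a ∈ ⁅U'.comap (H.subtype.comp τ), U'.comap (H.subtype.comp τ)⁆,
      a ∈ (H.subtype.comp τ).ker → a = 1) :
    ∃ U : Subgroup ↥H, ¬ ℓ ∣ U.index ∧ ∀ a ∈ ⁅U.comap τ, U.comap τ⁆, a ∈ τ.ker → a = 1 := by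
  refine ⟨U'.subgroupOf H, hidx, ?_⟩
  intro a ha hak
  apply h a ha
  rw [MonoidHom.mem_ker] at hak ⊢
  show ((τ a : ↥H) : Equiv.Perm GolayPt) = 1
  rw [hak]; rfl

end Cfsg.Agent.Lib.Helper70
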