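import Mathlib
import Cfsg.Agent.S5600
import Cfsg.Agent.Lib.Helper70.TabLocal2

set_option autoImplicit false

/-!
# A triple cover of the alternating group of degree 6 (helper70)

The centraliser in `M₂₄` of an element `y` of order 3 with six fixed points acts on the six fixed points
as the alternating group, with kernel `⟨y⟩` (helper94, S5600: every permutation of six points is induced
by `M₂₄`, and the pointwise stabiliser of six points not in an octad has order 3), and `y` is a
commutator of two elements of order 3 of its centraliser: this is a stem extension of the alternating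
group of degree 6 with kernel of order 3 (`exists_a6_cover`).
-/

namespace Cfsg.Agent.Lib.Helper70

open Cfsg Cfsg.Agent.Lib.Helper9 Cfsg.Agent.Lib.Helper95 Cfsg.Agent.Lib.Helper89
open Cfsg.Agent.Lib.Helper94

open scoped Pointwise commutatorElement

/-- A homomorphism to the group of signs is trivial on elements of odd order. -/
theorem units_hom_of_odd {G : Type*} [Group G] (ε : G →* ℤˣ) (x : G) (k : ℕ)
    (hx : x ^ (2 * k + 1) = 1) : ε x = 1 := by
  have h1 : ε x ^ (2 * k + 1) = 1 := by rw [← map_pow, hx, map_one]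
  have h2 : ε x ^ 2 = 1 := Int.units_sq (ε x)
  rw [pow_succ, pow_mul, h2, one_pow, one_mul] at h1
  exact h1

/-- The mask of the six fixed points of `y6`. -/
def hexMask : ℕ := 5866496

/-- The six fixed points of `y6`. -/
def hexF : Finset GolayPt := support₂ (dec hexMask)

theorem card_hexF : hexF.card = 6 := by
  unfold hexF
  rw [card_support₂, hammingNorm_dec]
  decide

theorem mem_hexF (p : GolayPt) : p ∈ hexF ↔ hexMask.testBit (idx p) = true :=
  mem_support₂_dec hexMask p

/-- An element of order 3 of `M₂₄` with six fixed points. -/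
def y6 : List ℕ := [7, 11, 14, 21, 13, 3, 18, 23, 2, 4, 10, 17, 6, 9, 8, 15, 16, 1, 12, 19, 20, 5, 22, 0]

/-- Two elements of order 3 commuting with `y6`, with commutator `y6`. -/
def c6a : List ℕ := [13, 2, 5, 11, 6, 1, 23, 9, 21, 12, 19, 14, 7, 18, 3, 10, 20, 8, 0, 15, 22, 17, 16, 4]

def c6b : List ℕ := [23, 2, 21, 17, 13, 11, 6, 0, 3, 4, 10, 14, 12, 9, 5, 15, 20, 8, 18, 19, 22, 1, 16, 7]

theorem y6_in : inM24 y6 = true := by decide +kernel

theorem c6a_in : inM24 c6a = true := by decide +kernel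

theorem c6b_in : inM24 c6b = true := by decide +kernel

theorem y6_ok : permOK y6 = true := (inM24_sound y6 y6_in).1

theorem c6a_ok : permOK c6a = true := (inM24_sound c6a c6a_in).1

theorem c6b_ok : permOK c6b = true := (inM24_sound c6b c6b_in).1

theorem y6_fix {p : GolayPt} (hp : p ∈ hexF) : tperm y6 p = p := by
  rw [mem_hexF] at hp
  have key : ∀ n, n < 24 → hexMask.testBit n = true → y6.getD n 0 = n := by decide
  rw [tperm_apply y6_ok, key (idx p) (idx_lt p) hp, pt_idx]

theorem tperm_cube {c : List ℕ} (hc : permOK c = true) (h : compT (compT c c) c = idT) :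
    tperm c ^ 3 = 1 := by
  rw [pow_succ, pow_two, tperm_mul hc hc, tperm_mul (permOK_compT hc hc) hc, h, tperm_idT]

theorem y6_cube : tperm y6 ^ 3 = 1 := tperm_cube y6_ok (by decide +kernel)

theorem y6_ne_one : tperm y6 ≠ 1 := by
  intro h
  rw [← tperm_idT] at h
  exact absurd (tg_tperm_inj y6_ok permOK_idT h) (by decide)

theorem y6_inv : (tperm y6)⁻¹ = tperm y6 * tperm y6 := by
  apply inv_eq_of_mul_eq_one_right
  have := y6_cube
  rw [pow_succ, pow_two] at this
  rw [← mul_assoc]
  exact this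

/-- The stabiliser of the six points in `M₂₄`. -/
def N6 : Subgroup (Equiv.Perm GolayPt) := M24 ⊓ MulAction.stabilizer (Equiv.Perm GolayPt) hexF

/-- The pointwise stabiliser of the six points in `M₂₄`. -/
def K6 : Subgroup (Equiv.Perm GolayPt) where
  carrier := {g | g ∈ M24 ∧ ∀ p ∈ hexF, g p = p}
  one_mem' := ⟨one_mem _, fun _ _ => rfl⟩
  mul_mem' := by
    rintro a b ⟨ha, ha'⟩ ⟨hb, hb'⟩
    exact ⟨mul_mem ha hb, fun p hp => by rw [Equiv.Perm.mul_apply, hb' p hp, ha' p hp]⟩
  inv_mem' := by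
    rintro a ⟨ha, ha'⟩
    exact ⟨inv_mem ha, fun p hp => by rw [Equiv.Perm.inv_eq_iff_eq, ha' p hp]⟩

theorem y6_mem_K6 : tperm y6 ∈ K6 := ⟨(inM24_sound y6 y6_in).2, fun _ hp => y6_fix hp⟩

theorem card_K6 : Nat.card K6 = 3 := by
  have h := (Cfsg.Agent.S5600.result hexF card_hexF).2
  by_cases ho : ∃ o ∈ Cfsg.octads, hexF ⊆ o
  · exfalso
    have h16 : Nat.card K6 = 16 := h.1 ho
    have hy : (⟨tperm y6, y6_mem_K6⟩ : K6) ^ 16 = 1 := by
      rw [← h16]
      exact pow_card_eq_one'
    have hy3 : (⟨tperm y6, y6_mem_K6⟩ : K6) ^ 3 = 1 := Subtype.ext y6_cube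
    have hy1 : (⟨tperm y6, y6_mem_K6⟩ : K6) = 1 := by
      have := pow_gcd_eq_one.mpr ⟨hy, hy3⟩
      rwa [show Nat.gcd 16 3 = 1 from rfl, pow_one] at this
    exact y6_ne_one (congrArg Subtype.val hy1)
  · exact (h.2 ho).1

theorem mem_K6_cases {g : Equiv.Perm GolayPt} (hg : g ∈ K6) :
    g = 1 ∨ g = tperm y6 ∨ g = (tperm y6)⁻¹ := by
  have ho : orderOf (⟨tperm y6, y6_mem_K6⟩ : K6) = 3 :=
    orderOf_eq_prime (Subtype.ext y6_cube) (fun h => y6_ne_one (congrArg Subtype.val h))
  have htop : Subgroup.zpowers (⟨tperm y6, y6_mem_K6⟩ : K6) = ⊤ := by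
    apply Subgroup.eq_top_of_card_eq
    rw [Nat.card_zpowers, ho, card_K6]
  have hmem : (⟨g, hg⟩ : K6) ∈ Subgroup.zpowers (⟨tperm y6, y6_mem_K6⟩ : K6) := by
    rw [htop]
    exact Subgroup.mem_top _
  obtain ⟨k, hk⟩ := Subgroup.mem_zpowers_iff.mp hmem
  have hk' : tperm y6 ^ k = g := by
    have := congrArg Subtype.val hk
    simpa using this
  have ho' : orderOf (tperm y6) = 3 := orderOf_eq_prime y6_cube y6_ne_one
  have hmod : tperm y6 ^ (k % 3) = g := by
    rw [← hk']
    have := zpow_mod_orderOf (tperm y6) k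
    rw [ho'] at this
    exact this
  have h0 : 0 ≤ k % 3 := Int.emod_nonneg k (by norm_num)
  have h3 : k % 3 < 3 := Int.emod_lt_of_pos k (by norm_num)
  generalize k % 3 = r at hmod h0 h3
  interval_cases r
  · left
    rw [← hmod, zpow_zero]
  · right; left
    rw [← hmod, zpow_one]
  · right; right
    rw [← hmod, y6_inv]
    exact zpow_two _

theorem mem_N6 {g : Equiv.Perm GolayPt} : g ∈ N6 ↔ g ∈ M24 ∧ g • hexF = hexF := Iff.rfl

theorem y6_mem_N6 : tperm y6 ∈ N6 :=
  ⟨(inM24_sound y6 y6_in).2, smul_eq_of_fix (fun _ hp => y6_fix hp)⟩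

theorem conj_y6 (g : N6) :
    (g : Equiv.Perm GolayPt) * tperm y6 * (g : Equiv.Perm GolayPt)⁻¹ = tperm y6 ∨
      (g : Equiv.Perm GolayPt) * tperm y6 * (g : Equiv.Perm GolayPt)⁻¹ = (tperm y6)⁻¹ := by
  have hmem : (g : Equiv.Perm GolayPt) * tperm y6 * (g : Equiv.Perm GolayPt)⁻¹ ∈ K6 := by
    refine ⟨mul_mem (mul_mem g.2.1 (inM24_sound y6 y6_in).2) (inv_mem g.2.1), fun p hp => ?_⟩
    have hp' : (g : Equiv.Perm GolayPt)⁻¹ p ∈ hexF := by
      have := mem_iff_of_smul_eq g.2.2 ((g : Equiv.Perm GolayPt)⁻¹ p)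
      rw [app_inv'] at this
      exact this.mp hp
    rw [Equiv.Perm.mul_apply, Equiv.Perm.mul_apply, y6_fix hp', app_inv']
  rcases mem_K6_cases hmem with h | h | h
  · exfalso
    apply y6_ne_one
    have : tperm y6 = (g : Equiv.Perm GolayPt)⁻¹ *
        ((g : Equiv.Perm GolayPt) * tperm y6 * (g : Equiv.Perm GolayPt)⁻¹) *
        (g : Equiv.Perm GolayPt) := by group
    rw [this, h]
    group
  · left; exact h
  · right; exact h

theorem sq_comm_y6 (g : N6) :
    tperm y6 * ((g : Equiv.Perm GolayPt) * (g : Equiv.Perm GolayPt)) =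
      (g : Equiv.Perm GolayPt) * (g : Equiv.Perm GolayPt) * tperm y6 := by
  have h := conj_y6 g
  generalize (g : Equiv.Perm GolayPt) = γ at h
  generalize tperm y6 = y at h
  rcases h with h | h
  · have h1 : γ * y = y * γ := by
      calc γ * y = γ * y * γ⁻¹ * γ := by group
        _ = y * γ := by rw [h]
    rw [← mul_assoc, ← h1, mul_assoc, ← h1, ← mul_assoc]
  · have h1 : γ * y = y⁻¹ * γ := by
      calc γ * y = γ * y * γ⁻¹ * γ := by group
        _ = y⁻¹ * γ := by rw [h]
    have h2 : γ * y⁻¹ = y * γ := by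
      have : γ * y⁻¹ * γ⁻¹ = y := by
        calc γ * y⁻¹ * γ⁻¹ = (γ * y * γ⁻¹)⁻¹ := by group
          _ = y := by rw [h, inv_inv]
      calc γ * y⁻¹ = γ * y⁻¹ * γ⁻¹ * γ := by group
        _ = y * γ := by rw [this]
    rw [← mul_assoc, ← h2, mul_assoc, ← h1, ← mul_assoc]

/-! ### The action on the six points -/

/-- The action of `N6` on the six points. -/
def rho6 : N6 →* Equiv.Perm hexF where
  toFun g := Equiv.Perm.subtypePerm (g : Equiv.Perm GolayPt) (fun x => mem_iff_of_smul_eq g.2.2 x)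
  map_one' := by
    ext x
    rfl
  map_mul' := fun a b => by
    ext x
    rfl

theorem rho6_apply (g : N6) (x : hexF) : ((rho6 g x : hexF) : GolayPt) = (g : Equiv.Perm GolayPt) x := rfl

theorem rho6_surjective : Function.Surjective rho6 := by
  intro σ
  obtain ⟨g, hg, hgσ⟩ := (Cfsg.Agent.S5600.result hexF card_hexF).1 σ
  have hst : g • hexF = hexF := smul_eq_of_maps (fun p hp => by
    have := hgσ ⟨p, hp⟩
    rw [this]
    exact (σ ⟨p, hp⟩).2)
  refine ⟨⟨g, hg, hst⟩, ?_⟩
  apply Equiv.ext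
  intro x
  apply Subtype.ext
  exact hgσ x

theorem mem_K6_of_rho6 {g : N6} (h : rho6 g = 1) : (g : Equiv.Perm GolayPt) ∈ K6 := by
  refine ⟨g.2.1, fun p hp => ?_⟩
  have := congrArg (fun τ : Equiv.Perm hexF => ((τ ⟨p, hp⟩ : hexF) : GolayPt)) h
  exact this

/-- `y6` as an element of `N6`. -/
def y6N : N6 := ⟨tperm y6, y6_mem_N6⟩

theorem rho6_y6N : rho6 y6N = 1 := by
  apply Equiv.ext
  intro x
  apply Subtype.ext
  exact y6_fix x.2

/-- The six points, numbered. -/
noncomputable def e6 : hexF ≃ Fin 6 :=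
  Fintype.equivFinOfCardEq (by rw [Fintype.card_coe]; exact card_hexF)

/-- The action on the six numbered points. -/
noncomputable def rho6' : N6 →* Equiv.Perm (Fin 6) := (e6.permCongrHom : _ ≃* _).toMonoidHom.comp rho6

theorem rho6'_surjective : Function.Surjective rho6' :=
  (e6.permCongrHom : _ ≃* _).surjective.comp rho6_surjective

theorem rho6'_eq_one {g : N6} (h : rho6' g = 1) : rho6 g = 1 := by
  have : (e6.permCongrHom : _ ≃* _) (rho6 g) = (e6.permCongrHom : _ ≃* _) 1 := by
    rw [map_one]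
    exact h
  exact (e6.permCongrHom : _ ≃* _).injective this

/-- The even part of the centraliser of `y6` in `N6`. -/
noncomputable def G6 : Subgroup N6 := (Equiv.Perm.sign.comp rho6').ker ⊓ Subgroup.centralizer {y6N}

theorem mem_G6 {g : N6} : g ∈ G6 ↔ Equiv.Perm.sign (rho6' g) = 1 ∧ g * y6N = y6N * g := by
  unfold G6
  rw [Subgroup.mem_inf, MonoidHom.mem_ker, Subgroup.mem_centralizer_iff]
  constructor
  · rintro ⟨h1, h2⟩
    exact ⟨h1, (h2 y6N rfl).symm⟩
  · rintro ⟨h1, h2⟩
    refine ⟨h1, fun h hh => ?_⟩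
    rw [Set.mem_singleton_iff.mp hh]
    exact h2.symm

/-- The projection to the alternating group of degree 6. -/
noncomputable def sig6 : G6 →* alternatingGroup (Fin 6) :=
  MonoidHom.codRestrict (rho6'.comp G6.subtype) (alternatingGroup (Fin 6)) (fun g => by
    rw [Equiv.Perm.mem_alternatingGroup]
    exact (mem_G6.mp g.2).1)

theorem sig6_apply (g : G6) : ((sig6 g : alternatingGroup (Fin 6)) : Equiv.Perm (Fin 6)) = rho6' g := rfl

theorem sq_mem_G6 (g : N6) : g * g ∈ G6 := by
  rw [mem_G6]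
  constructor
  · rw [map_mul, map_mul, Int.units_mul_self]
  · apply Subtype.ext
    exact (sq_comm_y6 g).symm

theorem sig6_surjective : Function.Surjective sig6 := by
  have key : ∀ τ : Equiv.Perm (Fin 6), τ ∈ alternatingGroup (Fin 6) →
      ∃ g : G6, ((sig6 g : alternatingGroup (Fin 6)) : Equiv.Perm (Fin 6)) = τ := by
    intro τ hτ
    rw [← Equiv.Perm.closure_three_cycles_eq_alternating] at hτ
    induction hτ using Subgroup.closure_induction with
    | mem τ hτ =>
      obtain ⟨g, hg⟩ := rho6'_surjective τ⁻¹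
      refine ⟨⟨g * g, sq_mem_G6 g⟩, ?_⟩
      rw [sig6_apply]
      show rho6' (g * g) = τ
      rw [map_mul, hg]
      have h3 : τ ^ 3 = 1 := by
        have := Equiv.Perm.IsThreeCycle.orderOf hτ
        rw [← this]
        exact pow_orderOf_eq_one τ
      calc τ⁻¹ * τ⁻¹ = τ⁻¹ * τ⁻¹ * τ ^ 3 := by rw [h3, mul_one]
        _ = τ := by group
    | one => exact ⟨1, by rw [map_one]; rfl⟩
    | mul a b _ _ ha hb =>
      obtain ⟨x, hx⟩ := ha
      obtain ⟨y, hy⟩ := hb
      exact ⟨x * y, by rw [map_mul, Subgroup.coe_mul, hx, hy]⟩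
    | inv a _ ha =>
      obtain ⟨x, hx⟩ := ha
      exact ⟨x⁻¹, by rw [map_inv, Subgroup.coe_inv, hx]⟩
  intro a
  obtain ⟨g, hg⟩ := key a.1 a.2
  exact ⟨g, Subtype.ext hg⟩

theorem y6N_mem_G6 : y6N ∈ G6 := by
  rw [mem_G6]
  refine ⟨?_, rfl⟩
  have : rho6' y6N = 1 := by
    show (e6.permCongrHom : _ ≃* _) (rho6 y6N) = 1
    rw [rho6_y6N, map_one]
  rw [this, map_one]

/-- `y6` as an element of `G6`. -/
noncomputable def y6G : G6 := ⟨y6N, y6N_mem_G6⟩

theorem y6G_mem_center : y6G ∈ Subgroup.center G6 := by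
  rw [Subgroup.mem_center_iff]
  intro g
  apply Subtype.ext
  exact (mem_G6.mp g.2).2

theorem y6G_cube : y6G ^ 3 = 1 := by
  apply Subtype.ext
  apply Subtype.ext
  exact y6_cube

theorem y6G_ne_one : y6G ≠ 1 := by
  intro h
  exact y6_ne_one (congrArg (fun g : G6 => ((g : N6) : Equiv.Perm GolayPt)) h)

theorem orderOf_y6G : orderOf y6G = 3 := orderOf_eq_prime y6G_cube y6G_ne_one

theorem ker_sig6 : sig6.ker = Subgroup.zpowers y6G := by
  apply le_antisymm
  · intro g hg
    have h1 : rho6' (g : N6) = 1 := by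
      have := congrArg (fun a : alternatingGroup (Fin 6) => (a : Equiv.Perm (Fin 6))) (MonoidHom.mem_ker.mp hg)
      exact this
    have h2 := mem_K6_of_rho6 (rho6'_eq_one h1)
    rcases mem_K6_cases h2 with h | h | h
    · have : g = 1 := by
        apply Subtype.ext
        apply Subtype.ext
        exact h
      rw [this]
      exact one_mem _
    · have : g = y6G := by
        apply Subtype.ext
        apply Subtype.ext
        exact h
      rw [this]
      exact Subgroup.mem_zpowers _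
    · have : g = y6G⁻¹ := by
        apply Subtype.ext
        apply Subtype.ext
        exact h
      rw [this]
      exact inv_mem (Subgroup.mem_zpowers _)
  · rw [Subgroup.zpowers_le, MonoidHom.mem_ker]
    apply Subtype.ext
    show rho6' y6N = 1
    show (e6.permCongrHom : _ ≃* _) (rho6 y6N) = 1
    rw [rho6_y6N, map_one]

/-! ### `y6` is a commutator -/

theorem tab_mem_G6 {c : List ℕ} (hin : inM24 c = true) (hst : push c hexMask = hexMask)
    (h3 : compT (compT c c) c = idT) (hcomm : compT c y6 = compT y6 c) :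
    ∃ g : G6, ((g : N6) : Equiv.Perm GolayPt) = tperm c := by
  have hok : permOK c = true := (inM24_sound c hin).1
  have hN : tperm c ∈ N6 := by
    refine ⟨(inM24_sound c hin).2, ?_⟩
    show tperm c • hexF = hexF
    unfold hexF
    rw [smul_support₂_dec (hasTable_tperm hok), hst]
  have hG : (⟨tperm c, hN⟩ : N6) ∈ G6 := by
    rw [mem_G6]
    constructor
    · apply units_hom_of_odd (Equiv.Perm.sign.comp rho6') (⟨tperm c, hN⟩ : N6) 1
      apply Subtype.ext
      exact tperm_cube hok h3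
    · apply Subtype.ext
      show tperm c * tperm y6 = tperm y6 * tperm c
      rw [tperm_mul hok y6_ok, tperm_mul y6_ok hok, hcomm]
  exact ⟨⟨⟨tperm c, hN⟩, hG⟩, rfl⟩

theorem y6G_mem_commutator : y6G ∈ commutator G6 := by
  obtain ⟨a, ha⟩ := tab_mem_G6 c6a_in (by decide +kernel) (by decide +kernel) (by decide +kernel)
  obtain ⟨b, hb⟩ := tab_mem_G6 c6b_in (by decide +kernel) (by decide +kernel) (by decide +kernel)
  have h : y6G = ⁅a, b⁆ := by
    apply Subtype.ext
    apply Subtype.ext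
    show tperm y6 = ⁅((a : N6) : Equiv.Perm GolayPt), ((b : N6) : Equiv.Perm GolayPt)⁆
    rw [ha, hb, ← tperm_commT c6a_ok c6b_ok]
    congr 1
  rw [h]
  exact Subgroup.commutator_mem_commutator (Subgroup.mem_top a) (Subgroup.mem_top b)

/-- A stem extension of the alternating group of degree 6 with kernel of order 3. -/
theorem exists_a6_cover : ∃ (Γ : Type) (_ : Group Γ) (_ : Finite Γ) (σ : Γ →* alternatingGroup (Fin 6))
    (c : Γ), Cfsg.IsStemExtension σ ∧ σ.ker = Subgroup.zpowers c ∧ orderOf c = 3 := by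
  refine ⟨G6, inferInstance, inferInstance, sig6, y6G, ⟨sig6_surjective, ?_, ?_⟩, ker_sig6, orderOf_y6G⟩
  · rw [ker_sig6, Subgroup.zpowers_le]
    exact y6G_mem_center
  · rw [ker_sig6, Subgroup.zpowers_le]
    exact y6G_mem_commutator

end Cfsg.Agent.Lib.Helper70
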