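import Mathlib
import Cfsg.Prelude.Def_KGroupFacts

set_option autoImplicit false

/-!
# A triple cover of the alternating group of degree 7 (helper70)

The group `G7` is generated by 70 pairs `(g, c)`: `c` runs over the 3-cycles of seven points and `g` is a
permutation of 63 points (the cosets of a subgroup `S₅` in the triple cover, found by coset enumeration).
The 63 points lie three by three above the 21 pairs of the seven points (`blk`), compatibly with the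
action, and carry an invariant graph of valency 10 (`E7`) which is a connected cover of the graph of
disjoint pairs: so an element of `G7` that acts trivially on the seven points and fixes one of the 63
points is trivial (`eq_one_of_cover`), and the kernel of `G7 → A₇` has at most three elements.  It is
generated by a commutator of two generators which is central: `exists_a7_cover`.
-/

namespace Cfsg.Agent.Lib.Helper70

open Equiv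
open scoped commutatorElement

/-! ### Covering graphs -/

theorem perm_app_inv {V : Type*} (g : Equiv.Perm V) (x : V) : g (g⁻¹ x) = x := g.apply_symm_apply x

theorem perm_inv_app {V : Type*} (g : Equiv.Perm V) (x : V) : g⁻¹ (g x) = x := g.symm_apply_apply x

/-- A permutation that preserves a connected graph, fixes every fibre of a locally injective map and fixes
the root is trivial. -/
theorem eq_one_of_cover {V B : Type*} (E : V → V → Prop) (blk : V → B) (parent : V → V) (rank : V → ℕ)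
    (root : V) (hpar : ∀ v, v ≠ root → E (parent v) v ∧ rank (parent v) < rank v)
    (hinj : ∀ u v w, E u v → E u w → blk v = blk w → v = w)
    (g : Equiv.Perm V) (hE : ∀ u v, E u v → E (g u) (g v)) (hb : ∀ v, blk (g v) = blk v)
    (hroot : g root = root) : g = 1 := by
  have key : ∀ k : ℕ, ∀ v, rank v ≤ k → g v = v := by
    intro k
    induction k with
    | zero =>
      intro v hv
      by_cases h : v = root
      · rw [h]; exact hroot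
      · exfalso
        have := (hpar v h).2
        omega
    | succ k ih =>
      intro v hv
      by_cases h : v = root
      · rw [h]; exact hroot
      · obtain ⟨h1, h2⟩ := hpar v h
        have h3 : g (parent v) = parent v := ih _ (by omega)
        have h4 := hE _ _ h1
        rw [h3] at h4
        exact hinj _ _ _ h4 h1 (hb v)
  apply Equiv.ext
  intro v
  exact key (rank v) v le_rfl

/-- On a finite set, the inverse of a permutation preserving a relation preserves it. -/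
theorem rel_inv_of_rel {V : Type*} [Finite V] (E : V → V → Prop) (g : Equiv.Perm V)
    (h : ∀ u v, E u v → E (g u) (g v)) : ∀ u v, E u v → E (g⁻¹ u) (g⁻¹ v) := by
  let φ : {p : V × V // E p.1 p.2} → {p : V × V // E p.1 p.2} :=
    fun p => ⟨(g p.1.1, g p.1.2), h _ _ p.2⟩
  have hinj : Function.Injective φ := by
    intro p q hpq
    have h1 : (g p.1.1, g p.1.2) = (g q.1.1, g q.1.2) := congrArg Subtype.val hpq
    apply Subtype.ext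
    apply Prod.ext
    · exact g.injective (congrArg Prod.fst h1)
    · exact g.injective (congrArg Prod.snd h1)
  have hsurj := Finite.injective_iff_surjective.mp hinj
  intro u v huv
  obtain ⟨p, hp⟩ := hsurj ⟨(u, v), huv⟩
  have h1 : (g p.1.1, g p.1.2) = (u, v) := congrArg Subtype.val hp
  have h2 : g p.1.1 = u := congrArg Prod.fst h1
  have h3 : g p.1.2 = v := congrArg Prod.snd h1
  rw [← h2, ← h3, perm_inv_app, perm_inv_app]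
  exact p.2

/-! ### The data -/

/-- Lifts of the 3-cycles `swap x y * swap x z` (`x < y`, `x < z`) to the triple cover, on 63 points. -/
def gens3 : List (ℕ × ℕ × ℕ × List ℕ) := [
  (0, 1, 2, [0, 6, 2, 1, 4, 5, 3, 7, 8, 10, 23, 36, 11, 14, 15, 13, 44, 16, 19, 20, 18, 27, 21, 9, 30, 26, 47, 22, 29, 57, 31, 24, 35, 34, 61, 51, 12, 42, 39, 48, 41, 62, 43, 37, 17, 46, 56, 25, 38, 50, 58, 32, 53, 59, 55, 60, 45, 28, 49, 52, 54, 33, 40]),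
  (0, 1, 3, [7, 1, 38, 3, 0, 45, 6, 4, 33, 9, 13, 22, 37, 49, 14, 18, 12, 25, 58, 19, 23, 17, 24, 50, 11, 21, 27, 31, 29, 54, 36, 26, 35, 46, 2, 60, 43, 16, 34, 5, 41, 55, 44, 30, 47, 39, 8, 42, 61, 10, 20, 57, 53, 59, 28, 40, 48, 62, 15, 52, 32, 56, 51]),
  (0, 1, 4, [0, 28, 30, 40, 4, 42, 32, 7, 26, 19, 13, 12, 48, 53, 9, 18, 17, 56, 59, 14, 23, 22, 61, 52, 24, 25, 47, 34, 35, 3, 31, 2, 41, 27, 33, 1, 39, 37, 36, 38, 29, 6, 43, 5, 46, 44, 45, 8, 11, 58, 49, 57, 20, 10, 60, 54, 16, 62, 50, 15, 55, 21, 51]),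
  (0, 1, 5, [10, 38, 2, 45, 15, 5, 33, 20, 8, 9, 23, 12, 57, 4, 14, 13, 17, 62, 7, 19, 18, 22, 51, 0, 25, 37, 31, 35, 36, 28, 43, 60, 27, 46, 1, 32, 29, 24, 34, 3, 44, 40, 47, 54, 41, 39, 6, 55, 56, 58, 49, 21, 59, 52, 30, 42, 61, 11, 50, 53, 26, 48, 16]),
  (0, 1, 6, [28, 1, 8, 3, 40, 2, 6, 32, 5, 11, 36, 22, 14, 10, 16, 44, 12, 19, 15, 21, 27, 17, 9, 20, 24, 25, 31, 23, 35, 4, 43, 50, 41, 34, 52, 0, 13, 37, 39, 53, 29, 7, 47, 49, 18, 46, 59, 58, 56, 30, 26, 62, 33, 38, 55, 60, 61, 51, 42, 45, 54, 48, 57]),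
  (0, 2, 1, [0, 3, 2, 6, 4, 5, 1, 7, 8, 23, 9, 12, 36, 15, 13, 14, 17, 44, 20, 18, 19, 22, 27, 10, 31, 47, 25, 21, 57, 28, 24, 30, 51, 61, 33, 32, 11, 43, 48, 38, 62, 40, 37, 42, 16, 56, 45, 26, 39, 58, 49, 35, 59, 52, 60, 54, 46, 29, 50, 53, 55, 34, 41]),
  (0, 2, 3, [7, 3, 48, 6, 0, 56, 1, 4, 61, 23, 15, 27, 43, 58, 13, 20, 36, 47, 50, 18, 10, 44, 31, 49, 12, 22, 21, 30, 28, 60, 11, 25, 32, 45, 2, 55, 42, 17, 33, 5, 40, 54, 16, 24, 26, 38, 8, 37, 34, 9, 19, 29, 52, 53, 57, 62, 39, 41, 14, 59, 51, 46, 35]),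
  (0, 2, 4, [0, 57, 24, 62, 4, 37, 51, 7, 25, 18, 15, 36, 39, 52, 23, 20, 44, 46, 53, 13, 10, 27, 34, 59, 31, 47, 26, 33, 32, 6, 30, 2, 40, 21, 61, 3, 38, 43, 11, 48, 28, 1, 42, 5, 45, 16, 56, 8, 12, 50, 58, 29, 19, 9, 55, 60, 17, 41, 49, 14, 54, 22, 35]),
  (0, 2, 5, [9, 48, 2, 56, 14, 5, 61, 19, 8, 23, 10, 36, 29, 4, 13, 15, 44, 41, 7, 18, 20, 27, 35, 0, 47, 43, 30, 32, 11, 57, 42, 55, 21, 45, 3, 51, 28, 31, 33, 6, 16, 62, 26, 60, 40, 38, 1, 54, 46, 50, 58, 22, 53, 59, 24, 37, 34, 12, 49, 52, 25, 39, 17]),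
  (0, 2, 6, [57, 3, 8, 6, 62, 2, 1, 51, 5, 12, 11, 27, 13, 9, 17, 16, 36, 18, 14, 22, 21, 44, 23, 19, 31, 47, 30, 10, 32, 4, 42, 49, 40, 33, 59, 0, 15, 43, 38, 52, 28, 7, 26, 58, 20, 45, 53, 50, 46, 24, 25, 41, 61, 48, 54, 55, 34, 35, 37, 56, 60, 39, 29]),
  (0, 3, 1, [4, 1, 34, 3, 7, 39, 6, 0, 46, 9, 49, 24, 16, 10, 14, 58, 37, 21, 15, 19, 50, 25, 11, 20, 22, 17, 31, 26, 54, 28, 43, 27, 60, 8, 38, 32, 30, 12, 2, 45, 55, 40, 47, 36, 42, 5, 33, 44, 56, 13, 23, 62, 59, 52, 29, 41, 61, 51, 18, 53, 35, 48, 57]),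
  (0, 3, 2, [4, 6, 34, 1, 7, 39, 3, 0, 46, 49, 20, 30, 24, 14, 58, 10, 42, 37, 19, 50, 15, 26, 25, 9, 43, 31, 44, 11, 28, 51, 27, 22, 32, 38, 48, 62, 16, 47, 45, 56, 40, 57, 36, 12, 21, 33, 61, 17, 2, 23, 18, 60, 52, 53, 41, 35, 5, 54, 13, 59, 29, 8, 55]),
  (0, 3, 4, [4, 54, 43, 55, 7, 47, 60, 0, 31, 19, 10, 16, 56, 52, 9, 15, 21, 61, 53, 14, 20, 11, 48, 59, 22, 17, 44, 38, 32, 3, 27, 34, 40, 26, 8, 1, 45, 12, 30, 2, 28, 6, 36, 39, 33, 42, 5, 46, 24, 18, 13, 51, 50, 49, 35, 29, 37, 57, 23, 58, 41, 25, 62]),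
  (0, 3, 5, [49, 2, 34, 5, 58, 39, 8, 50, 46, 9, 20, 16, 51, 7, 14, 10, 21, 57, 0, 19, 15, 11, 62, 4, 17, 12, 27, 32, 30, 54, 36, 35, 26, 33, 1, 60, 28, 22, 38, 3, 42, 55, 44, 29, 40, 45, 6, 41, 61, 18, 13, 25, 53, 59, 43, 47, 48, 24, 23, 52, 31, 56, 37]),
  (0, 3, 6, [54, 1, 46, 3, 55, 34, 6, 60, 39, 24, 30, 11, 14, 49, 37, 42, 16, 19, 58, 25, 26, 21, 9, 50, 22, 17, 27, 20, 32, 7, 36, 23, 40, 38, 59, 4, 10, 12, 45, 52, 28, 0, 44, 13, 15, 33, 53, 18, 61, 43, 31, 57, 8, 2, 41, 35, 48, 62, 47, 5, 29, 56, 51]),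
  (0, 4, 1, [0, 35, 31, 29, 4, 43, 41, 7, 47, 14, 53, 48, 11, 10, 19, 59, 56, 16, 15, 9, 52, 61, 21, 20, 24, 25, 8, 33, 1, 40, 2, 30, 6, 34, 27, 28, 38, 37, 39, 36, 3, 32, 5, 42, 45, 46, 44, 26, 12, 50, 58, 62, 23, 13, 55, 60, 17, 51, 49, 18, 54, 22, 57]),
  (0, 4, 2, [0, 41, 31, 35, 4, 43, 29, 7, 47, 53, 20, 38, 48, 19, 59, 10, 45, 56, 9, 52, 15, 33, 61, 14, 2, 8, 26, 21, 40, 51, 30, 24, 28, 27, 22, 62, 11, 5, 36, 12, 32, 57, 42, 37, 16, 44, 17, 25, 39, 58, 49, 6, 13, 18, 60, 54, 46, 1, 50, 23, 55, 34, 3]),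
  (0, 4, 3, [7, 35, 39, 29, 0, 46, 41, 4, 34, 14, 10, 21, 37, 50, 19, 15, 11, 25, 49, 9, 20, 16, 24, 58, 48, 61, 33, 30, 40, 55, 38, 8, 28, 44, 31, 54, 42, 56, 27, 43, 32, 60, 45, 2, 26, 36, 47, 5, 22, 53, 52, 51, 13, 18, 1, 3, 12, 57, 59, 23, 6, 17, 62]),
  (0, 4, 5, [53, 39, 31, 46, 59, 43, 34, 52, 47, 14, 20, 11, 51, 4, 19, 10, 16, 57, 7, 9, 15, 21, 62, 0, 25, 37, 30, 28, 38, 1, 42, 54, 33, 44, 35, 6, 40, 24, 27, 29, 45, 3, 26, 55, 32, 36, 41, 60, 17, 49, 50, 61, 18, 23, 2, 5, 22, 48, 58, 13, 8, 12, 56]),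
  (0, 4, 6, [1, 35, 47, 29, 3, 31, 41, 6, 43, 48, 38, 21, 19, 53, 56, 45, 11, 9, 59, 61, 33, 16, 14, 52, 24, 25, 30, 20, 28, 4, 42, 58, 32, 27, 23, 0, 10, 37, 36, 13, 40, 7, 26, 50, 15, 44, 18, 49, 17, 2, 8, 57, 34, 39, 60, 54, 22, 62, 5, 46, 55, 12, 51]),
  (0, 5, 1, [23, 34, 2, 39, 13, 5, 46, 18, 8, 9, 0, 57, 11, 15, 14, 4, 62, 16, 20, 19, 7, 51, 21, 10, 37, 24, 60, 32, 29, 36, 54, 26, 35, 6, 38, 27, 28, 25, 1, 45, 41, 44, 55, 30, 40, 3, 33, 42, 61, 50, 58, 22, 53, 59, 43, 47, 48, 12, 49, 52, 31, 56, 17]),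
  (0, 5, 2, [23, 46, 2, 34, 13, 5, 39, 18, 8, 0, 10, 28, 57, 14, 4, 15, 40, 62, 19, 7, 20, 32, 51, 9, 54, 60, 42, 21, 36, 12, 26, 37, 27, 38, 56, 22, 11, 55, 45, 61, 44, 17, 30, 25, 16, 33, 48, 24, 1, 58, 49, 35, 59, 52, 47, 31, 3, 29, 50, 53, 43, 6, 41]),
  (0, 5, 3, [18, 34, 1, 39, 23, 3, 46, 13, 6, 9, 15, 21, 25, 50, 14, 20, 11, 24, 49, 19, 10, 16, 37, 58, 57, 51, 32, 26, 36, 43, 28, 60, 27, 33, 2, 31, 30, 62, 38, 5, 44, 47, 40, 54, 42, 45, 8, 55, 56, 0, 7, 12, 59, 52, 29, 41, 61, 17, 4, 53, 35, 48, 22]),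
  (0, 5, 4, [23, 29, 54, 41, 13, 55, 35, 18, 60, 19, 15, 11, 61, 59, 9, 20, 16, 48, 52, 14, 10, 21, 56, 53, 37, 24, 42, 38, 27, 39, 26, 2, 44, 32, 6, 34, 45, 25, 28, 1, 36, 46, 30, 5, 33, 40, 3, 8, 57, 49, 50, 12, 7, 0, 31, 43, 62, 17, 58, 4, 47, 51, 22]),
  (0, 5, 6, [29, 34, 8, 39, 41, 2, 46, 35, 5, 57, 28, 21, 14, 0, 62, 40, 11, 19, 4, 51, 32, 16, 9, 7, 37, 24, 26, 10, 27, 13, 30, 58, 44, 38, 53, 23, 15, 25, 45, 59, 36, 18, 42, 50, 20, 33, 52, 49, 48, 54, 60, 17, 6, 1, 47, 31, 56, 22, 55, 3, 43, 61, 12]),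
  (0, 6, 1, [35, 1, 5, 3, 29, 8, 6, 41, 2, 22, 13, 9, 16, 36, 12, 18, 14, 21, 44, 17, 23, 19, 11, 27, 24, 25, 50, 20, 0, 40, 49, 26, 7, 52, 33, 28, 10, 37, 53, 38, 4, 32, 58, 30, 15, 59, 45, 42, 61, 43, 31, 57, 34, 39, 60, 54, 48, 62, 47, 46, 55, 56, 51]),
  (0, 6, 2, [35, 6, 5, 1, 29, 8, 3, 41, 2, 13, 27, 10, 9, 12, 18, 36, 15, 14, 17, 23, 44, 20, 19, 22, 49, 50, 42, 11, 40, 62, 26, 24, 28, 33, 56, 57, 16, 58, 38, 61, 32, 51, 30, 37, 21, 45, 48, 25, 53, 31, 47, 7, 39, 46, 54, 55, 59, 0, 43, 34, 60, 52, 4]),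
  (0, 6, 3, [41, 1, 53, 3, 35, 59, 6, 29, 52, 22, 36, 11, 37, 43, 12, 44, 16, 25, 47, 17, 27, 21, 24, 31, 9, 19, 20, 26, 40, 60, 10, 50, 28, 45, 5, 55, 30, 14, 33, 8, 32, 54, 15, 49, 42, 38, 2, 58, 56, 13, 23, 62, 39, 46, 0, 4, 61, 51, 18, 34, 7, 48, 57]),
  (0, 6, 4, [35, 0, 49, 4, 29, 58, 7, 41, 50, 17, 36, 16, 61, 39, 22, 44, 21, 48, 46, 12, 27, 11, 56, 34, 24, 25, 42, 33, 28, 3, 26, 5, 32, 20, 52, 1, 38, 37, 10, 53, 40, 6, 30, 8, 45, 15, 59, 2, 9, 47, 43, 62, 23, 13, 55, 60, 14, 51, 31, 18, 54, 19, 57]),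
  (0, 6, 5, [13, 53, 5, 59, 18, 8, 52, 23, 2, 22, 27, 16, 62, 29, 12, 36, 21, 51, 41, 17, 44, 11, 57, 35, 25, 37, 26, 28, 10, 0, 30, 55, 20, 45, 1, 7, 40, 24, 33, 3, 15, 4, 42, 60, 32, 38, 6, 54, 48, 47, 43, 19, 46, 34, 49, 58, 56, 9, 31, 39, 50, 61, 14]),
  (1, 2, 3, [4, 6, 61, 1, 7, 48, 3, 0, 56, 10, 50, 30, 44, 23, 15, 49, 42, 27, 13, 20, 58, 26, 36, 18, 21, 16, 24, 47, 55, 29, 37, 22, 54, 8, 39, 35, 31, 11, 2, 46, 60, 41, 25, 12, 43, 5, 34, 17, 45, 14, 9, 40, 52, 53, 57, 62, 33, 32, 19, 59, 51, 38, 28]),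
  (1, 2, 4, [0, 51, 24, 57, 4, 37, 62, 7, 25, 15, 59, 38, 36, 23, 20, 52, 45, 44, 13, 10, 53, 33, 27, 18, 30, 26, 8, 34, 6, 41, 2, 31, 3, 61, 22, 29, 39, 42, 48, 12, 1, 35, 5, 43, 46, 56, 17, 47, 11, 58, 49, 40, 9, 14, 60, 54, 16, 32, 50, 19, 55, 21, 28]),
  (1, 2, 5, [9, 61, 2, 48, 14, 5, 56, 19, 8, 10, 0, 28, 36, 13, 15, 4, 40, 44, 18, 20, 7, 32, 27, 23, 42, 30, 54, 35, 57, 12, 55, 47, 51, 3, 39, 22, 29, 26, 6, 46, 62, 17, 60, 31, 41, 1, 34, 43, 33, 58, 49, 21, 59, 52, 37, 25, 38, 11, 50, 53, 24, 45, 16]),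
  (1, 2, 6, [51, 6, 5, 1, 57, 8, 3, 62, 2, 21, 14, 10, 44, 12, 11, 19, 15, 27, 17, 16, 9, 20, 36, 22, 30, 26, 58, 18, 0, 41, 50, 47, 7, 53, 34, 29, 23, 42, 59, 39, 4, 35, 49, 31, 13, 52, 46, 43, 33, 37, 24, 28, 61, 48, 54, 55, 38, 40, 25, 56, 60, 45, 32]),
  (1, 3, 2, [7, 3, 38, 6, 0, 45, 1, 4, 33, 50, 9, 37, 43, 18, 49, 14, 25, 47, 23, 58, 19, 24, 31, 13, 26, 42, 21, 17, 62, 29, 11, 36, 57, 56, 46, 35, 22, 30, 61, 34, 51, 41, 16, 44, 12, 48, 39, 27, 5, 15, 10, 60, 52, 53, 32, 28, 8, 54, 20, 59, 40, 2, 55]),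
  (1, 3, 4, [7, 60, 26, 54, 0, 30, 55, 4, 42, 14, 59, 61, 22, 13, 19, 52, 48, 12, 18, 9, 53, 56, 17, 23, 11, 21, 33, 46, 1, 41, 38, 36, 6, 2, 31, 29, 34, 16, 5, 43, 3, 35, 45, 44, 39, 8, 47, 27, 37, 20, 15, 51, 50, 49, 40, 32, 25, 57, 10, 58, 28, 24, 62]),
  (1, 3, 5, [50, 2, 38, 5, 49, 45, 8, 58, 33, 9, 7, 62, 22, 18, 14, 0, 51, 12, 23, 19, 4, 57, 17, 13, 16, 11, 32, 35, 54, 43, 28, 27, 60, 6, 34, 31, 29, 21, 1, 39, 55, 47, 40, 36, 41, 3, 46, 44, 56, 20, 15, 24, 59, 52, 30, 42, 61, 37, 10, 53, 26, 48, 25]),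
  (1, 3, 6, [60, 1, 45, 3, 54, 33, 6, 55, 38, 24, 49, 9, 12, 43, 37, 58, 14, 17, 47, 25, 50, 19, 22, 31, 11, 21, 20, 23, 7, 41, 10, 27, 4, 53, 46, 29, 13, 16, 59, 34, 0, 35, 15, 36, 18, 52, 39, 44, 56, 30, 26, 62, 2, 5, 32, 28, 61, 51, 42, 8, 40, 48, 57]),
  (1, 4, 2, [0, 40, 30, 32, 4, 42, 28, 7, 26, 52, 19, 48, 39, 18, 53, 9, 56, 46, 23, 59, 14, 61, 34, 13, 2, 8, 25, 22, 62, 35, 24, 31, 57, 21, 27, 41, 12, 5, 11, 36, 51, 29, 37, 43, 17, 16, 44, 47, 38, 50, 58, 1, 15, 20, 55, 60, 45, 3, 49, 10, 54, 33, 6]),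
  (1, 4, 3, [4, 28, 33, 40, 7, 38, 32, 0, 45, 19, 58, 24, 17, 13, 9, 50, 37, 22, 18, 14, 49, 25, 12, 23, 61, 56, 2, 47, 60, 35, 5, 34, 55, 26, 36, 41, 31, 48, 30, 44, 54, 29, 8, 39, 43, 42, 27, 46, 16, 53, 52, 51, 15, 20, 3, 6, 21, 57, 59, 10, 1, 11, 62]),
  (1, 4, 5, [52, 33, 30, 38, 53, 42, 45, 59, 26, 19, 0, 62, 12, 18, 9, 4, 51, 17, 23, 14, 7, 57, 22, 13, 37, 24, 55, 41, 3, 39, 60, 47, 1, 32, 36, 34, 35, 25, 28, 44, 6, 46, 54, 31, 29, 40, 27, 43, 21, 49, 50, 61, 10, 15, 5, 8, 11, 48, 58, 20, 2, 16, 56]),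
  (1, 4, 6, [1, 28, 42, 40, 3, 26, 32, 6, 30, 61, 53, 19, 17, 39, 48, 59, 9, 22, 46, 56, 52, 14, 12, 34, 24, 25, 49, 23, 0, 29, 58, 47, 7, 20, 27, 35, 13, 37, 10, 36, 4, 41, 50, 31, 18, 15, 44, 43, 21, 5, 2, 62, 33, 38, 55, 60, 11, 51, 8, 45, 54, 16, 57]),
  (1, 5, 2, [10, 45, 2, 33, 15, 5, 38, 20, 8, 0, 9, 57, 29, 13, 4, 14, 62, 41, 18, 7, 19, 51, 35, 23, 60, 55, 37, 22, 11, 36, 25, 43, 21, 48, 46, 27, 12, 54, 56, 34, 16, 44, 24, 47, 17, 61, 39, 31, 3, 50, 58, 32, 53, 59, 26, 30, 6, 28, 49, 52, 42, 1, 40]),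
  (1, 5, 3, [15, 38, 1, 45, 20, 3, 33, 10, 6, 9, 58, 25, 17, 23, 14, 50, 24, 22, 13, 19, 49, 37, 12, 18, 51, 62, 60, 31, 30, 36, 54, 35, 26, 8, 34, 27, 43, 57, 2, 39, 42, 44, 55, 29, 47, 5, 46, 41, 61, 4, 0, 16, 53, 59, 28, 40, 48, 21, 7, 52, 32, 56, 11]),
  (1, 5, 4, [10, 32, 60, 28, 15, 54, 40, 20, 55, 14, 52, 56, 12, 23, 19, 53, 61, 17, 13, 9, 59, 48, 22, 18, 25, 37, 8, 46, 38, 44, 2, 43, 33, 1, 35, 36, 34, 24, 3, 29, 45, 27, 5, 47, 39, 6, 41, 31, 57, 49, 50, 16, 0, 4, 42, 26, 62, 21, 58, 7, 30, 51, 11]),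
  (1, 5, 6, [32, 38, 5, 45, 28, 8, 33, 40, 2, 51, 4, 9, 17, 29, 57, 7, 14, 22, 41, 62, 0, 19, 12, 35, 25, 37, 49, 18, 10, 44, 58, 31, 20, 59, 46, 36, 23, 24, 52, 34, 15, 27, 50, 43, 13, 53, 39, 47, 48, 54, 60, 11, 1, 3, 26, 30, 56, 16, 55, 6, 42, 61, 21]),
  (1, 6, 2, [28, 3, 8, 6, 40, 2, 1, 32, 5, 20, 11, 14, 13, 44, 10, 16, 19, 18, 27, 15, 21, 9, 23, 36, 50, 58, 25, 17, 51, 35, 24, 43, 62, 48, 34, 41, 22, 49, 56, 39, 57, 29, 37, 47, 12, 61, 46, 31, 53, 42, 30, 0, 45, 33, 54, 55, 59, 4, 26, 38, 60, 52, 7]),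
  (1, 6, 3, [40, 1, 52, 3, 32, 53, 6, 28, 59, 11, 30, 24, 12, 36, 16, 42, 37, 17, 44, 21, 26, 25, 22, 27, 9, 19, 50, 31, 55, 35, 49, 23, 54, 5, 39, 41, 43, 14, 8, 46, 60, 29, 58, 13, 47, 2, 34, 18, 61, 10, 20, 57, 45, 33, 4, 7, 48, 62, 15, 38, 0, 56, 51]),
  (1, 6, 4, [28, 0, 50, 4, 40, 49, 7, 32, 58, 16, 38, 56, 22, 36, 21, 45, 61, 12, 44, 11, 33, 48, 17, 27, 24, 25, 5, 34, 1, 29, 8, 43, 6, 52, 23, 35, 39, 37, 53, 13, 3, 41, 2, 47, 46, 59, 18, 31, 14, 26, 42, 57, 20, 10, 60, 54, 19, 62, 30, 15, 55, 9, 51]),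
  (1, 6, 5, [20, 52, 8, 53, 10, 2, 59, 15, 5, 11, 28, 51, 22, 44, 16, 40, 57, 12, 27, 21, 32, 62, 17, 36, 37, 24, 54, 41, 4, 13, 55, 31, 0, 6, 39, 23, 35, 25, 1, 46, 7, 18, 60, 43, 29, 3, 34, 47, 48, 26, 42, 9, 38, 45, 49, 58, 56, 14, 30, 33, 50, 61, 19]),
  (2, 3, 4, [7, 54, 25, 55, 0, 24, 60, 4, 37, 53, 10, 33, 34, 18, 59, 15, 38, 39, 23, 52, 20, 45, 46, 13, 48, 61, 21, 44, 40, 29, 11, 12, 28, 30, 31, 35, 27, 56, 42, 43, 32, 41, 16, 17, 36, 26, 47, 22, 5, 14, 9, 1, 58, 50, 51, 57, 8, 3, 19, 49, 62, 2, 6]),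
  (2, 3, 5, [49, 8, 48, 2, 58, 56, 5, 50, 61, 7, 15, 28, 41, 13, 0, 20, 40, 35, 18, 4, 10, 32, 29, 23, 57, 51, 16, 44, 42, 43, 21, 17, 30, 33, 39, 31, 27, 62, 38, 46, 26, 47, 11, 22, 36, 45, 34, 12, 3, 14, 9, 55, 59, 52, 37, 25, 6, 60, 19, 53, 24, 1, 54]),
  (2, 3, 6, [55, 1, 56, 3, 60, 61, 6, 54, 48, 58, 30, 15, 23, 43, 50, 42, 20, 13, 47, 49, 26, 10, 18, 31, 9, 19, 16, 27, 40, 35, 21, 12, 28, 45, 39, 41, 36, 14, 33, 46, 32, 29, 11, 17, 44, 38, 34, 22, 53, 25, 37, 4, 5, 8, 57, 62, 59, 7, 24, 2, 51, 52, 0]),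
  (2, 4, 3, [4, 51, 61, 57, 7, 48, 62, 0, 56, 50, 10, 30, 31, 23, 49, 15, 42, 43, 13, 58, 20, 26, 47, 18, 5, 2, 45, 36, 32, 29, 33, 34, 40, 11, 12, 35, 44, 8, 16, 17, 28, 41, 38, 39, 27, 21, 22, 46, 24, 59, 53, 54, 19, 9, 1, 3, 37, 55, 52, 14, 6, 25, 60]),
  (2, 4, 5, [59, 56, 24, 61, 52, 37, 48, 53, 25, 0, 15, 32, 41, 23, 4, 20, 28, 35, 13, 7, 10, 40, 29, 18, 55, 54, 42, 27, 38, 39, 26, 43, 33, 11, 17, 34, 36, 60, 16, 22, 45, 46, 30, 47, 44, 21, 12, 31, 57, 49, 50, 3, 14, 19, 8, 2, 62, 6, 58, 9, 5, 51, 1]),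
  (2, 4, 6, [3, 51, 37, 57, 6, 25, 62, 1, 24, 52, 33, 15, 18, 39, 53, 38, 20, 23, 46, 59, 45, 10, 13, 34, 50, 58, 42, 36, 28, 35, 26, 31, 32, 21, 17, 41, 44, 49, 11, 22, 40, 29, 30, 43, 27, 16, 12, 47, 9, 2, 8, 7, 48, 56, 55, 60, 14, 0, 5, 61, 54, 19, 4]),
  (2, 5, 3, [14, 61, 3, 48, 19, 6, 56, 9, 1, 50, 20, 42, 47, 13, 49, 10, 26, 31, 18, 58, 15, 30, 43, 23, 60, 55, 40, 36, 11, 22, 32, 35, 21, 33, 46, 17, 44, 54, 38, 34, 16, 12, 28, 29, 27, 45, 39, 41, 2, 0, 7, 25, 53, 59, 62, 51, 5, 24, 4, 52, 57, 8, 37]),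
  (2, 5, 4, [9, 62, 55, 51, 14, 60, 57, 19, 54, 59, 20, 33, 46, 18, 52, 10, 38, 34, 23, 53, 15, 45, 39, 13, 2, 8, 30, 27, 16, 22, 42, 47, 11, 32, 35, 17, 36, 5, 28, 29, 21, 12, 26, 31, 44, 40, 41, 43, 6, 49, 50, 61, 4, 7, 25, 24, 1, 48, 58, 0, 37, 3, 56]),
  (2, 5, 6, [51, 61, 5, 48, 57, 8, 56, 62, 2, 4, 32, 10, 23, 29, 7, 28, 15, 13, 41, 0, 40, 20, 18, 35, 50, 58, 26, 36, 16, 17, 30, 47, 11, 45, 34, 12, 44, 49, 33, 39, 21, 22, 42, 31, 27, 38, 46, 43, 59, 55, 54, 19, 6, 1, 24, 37, 52, 9, 60, 3, 25, 53, 14]),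
  (2, 6, 3, [62, 1, 59, 3, 51, 52, 6, 57, 53, 24, 21, 42, 31, 17, 37, 11, 26, 43, 22, 25, 16, 30, 47, 12, 58, 49, 20, 27, 32, 41, 10, 23, 40, 38, 46, 29, 36, 50, 45, 34, 28, 35, 15, 13, 44, 33, 39, 18, 8, 19, 14, 60, 61, 48, 7, 0, 2, 54, 9, 56, 4, 5, 55]),
  (2, 6, 4, [57, 7, 49, 0, 62, 58, 4, 51, 50, 48, 21, 38, 46, 22, 56, 11, 45, 34, 12, 61, 16, 33, 39, 17, 8, 5, 30, 44, 28, 41, 42, 31, 32, 10, 23, 29, 27, 2, 15, 13, 40, 35, 26, 43, 36, 20, 18, 47, 52, 37, 24, 1, 9, 14, 60, 54, 53, 3, 25, 19, 55, 59, 6]),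
  (2, 6, 5, [19, 53, 8, 59, 9, 2, 52, 14, 5, 57, 11, 32, 35, 17, 62, 16, 28, 29, 22, 51, 21, 40, 41, 12, 54, 60, 26, 44, 15, 13, 30, 43, 10, 38, 34, 23, 27, 55, 45, 39, 20, 18, 42, 47, 36, 33, 46, 31, 3, 37, 24, 0, 56, 61, 50, 49, 6, 4, 25, 48, 58, 1, 7]),
  (3, 4, 5, [53, 8, 54, 2, 59, 55, 5, 52, 60, 19, 15, 11, 17, 13, 9, 20, 16, 22, 18, 14, 10, 21, 12, 23, 57, 51, 40, 44, 45, 39, 32, 41, 38, 26, 43, 34, 27, 62, 30, 47, 33, 46, 28, 35, 36, 42, 31, 29, 37, 4, 0, 56, 58, 50, 3, 6, 25, 61, 7, 49, 1, 24, 48]),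
  (3, 4, 6, [3, 60, 50, 54, 6, 49, 55, 1, 58, 61, 38, 11, 22, 34, 48, 45, 16, 12, 39, 56, 33, 21, 17, 46, 14, 9, 15, 36, 32, 29, 20, 23, 40, 30, 43, 35, 44, 19, 42, 47, 28, 41, 10, 13, 27, 26, 31, 18, 24, 59, 53, 57, 8, 2, 0, 4, 37, 62, 52, 5, 7, 25, 51]),
  (3, 5, 4, [58, 55, 1, 60, 50, 3, 54, 49, 6, 9, 15, 21, 17, 23, 14, 20, 11, 22, 13, 19, 10, 16, 12, 18, 56, 48, 45, 27, 30, 43, 33, 39, 26, 28, 41, 31, 36, 61, 40, 35, 42, 47, 38, 46, 44, 32, 29, 34, 57, 53, 52, 37, 4, 7, 8, 2, 62, 25, 59, 0, 5, 51, 24]),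
  (3, 5, 6, [55, 2, 59, 5, 60, 52, 8, 54, 53, 62, 28, 16, 22, 29, 51, 40, 21, 12, 41, 57, 32, 11, 17, 35, 9, 19, 15, 27, 42, 31, 20, 13, 30, 45, 39, 47, 36, 14, 33, 46, 26, 43, 10, 18, 44, 38, 34, 23, 48, 7, 4, 37, 3, 6, 49, 58, 56, 25, 0, 1, 50, 61, 24]),
  (3, 6, 4, [55, 0, 59, 4, 60, 52, 7, 54, 53, 24, 26, 16, 22, 47, 37, 30, 21, 12, 31, 25, 42, 11, 17, 43, 56, 48, 33, 27, 32, 41, 38, 34, 40, 10, 18, 29, 36, 61, 15, 23, 28, 35, 45, 39, 44, 20, 13, 46, 19, 8, 5, 51, 50, 49, 6, 1, 9, 57, 2, 58, 3, 14, 62]),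
  (3, 6, 5, [50, 52, 3, 53, 49, 6, 59, 58, 1, 37, 26, 11, 22, 43, 25, 30, 16, 12, 47, 24, 42, 21, 17, 31, 51, 62, 32, 36, 15, 18, 28, 41, 10, 45, 34, 13, 44, 57, 33, 39, 20, 23, 40, 35, 27, 38, 46, 29, 56, 55, 54, 19, 8, 2, 0, 4, 61, 9, 60, 5, 7, 48, 14]),
  (4, 5, 6, [1, 59, 58, 52, 3, 50, 53, 6, 49, 62, 32, 21, 17, 41, 51, 28, 11, 22, 35, 57, 40, 16, 12, 29, 24, 25, 30, 27, 45, 34, 42, 47, 38, 20, 23, 46, 36, 37, 10, 13, 33, 39, 26, 31, 44, 15, 18, 43, 19, 54, 60, 61, 4, 7, 8, 2, 9, 48, 55, 0, 5, 14, 56]),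
  (4, 6, 5, [53, 7, 54, 0, 59, 55, 4, 52, 60, 48, 33, 11, 17, 34, 56, 38, 16, 22, 39, 61, 45, 21, 12, 46, 25, 37, 30, 44, 10, 18, 42, 31, 20, 28, 35, 13, 27, 24, 40, 29, 15, 23, 26, 43, 36, 32, 41, 47, 51, 5, 2, 9, 1, 3, 50, 49, 57, 14, 8, 6, 58, 62, 19])]

def a7X : List ℕ := [0, 3, 2, 6, 4, 5, 1, 7, 8, 23, 9, 12, 36, 15, 13, 14, 17, 44, 20, 18, 19, 22, 27, 10, 31, 47, 25, 21, 57, 28, 24, 30, 51, 61, 33, 32, 11, 43, 48, 38, 62, 40, 37, 42, 16, 56, 45, 26, 39, 58, 49, 35, 59, 52, 60, 54, 46, 29, 50, 53, 55, 34, 41]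

def a7Y : List ℕ := [58, 55, 1, 60, 50, 3, 54, 49, 6, 9, 15, 21, 17, 23, 14, 20, 11, 22, 13, 19, 10, 16, 12, 18, 56, 48, 45, 27, 30, 43, 33, 39, 26, 28, 41, 31, 36, 61, 40, 35, 42, 47, 38, 46, 44, 32, 29, 34, 57, 53, 52, 37, 4, 7, 8, 2, 62, 25, 59, 0, 5, 51, 24]

def a7Z : List ℕ := [4, 3, 5, 6, 7, 8, 1, 0, 2, 14, 15, 16, 17, 18, 19, 20, 21, 22, 23, 9, 10, 11, 12, 13, 37, 24, 30, 36, 40, 41, 42, 43, 28, 38, 39, 29, 44, 25, 45, 46, 32, 35, 26, 47, 27, 33, 34, 31, 56, 58, 49, 57, 53, 59, 55, 60, 61, 62, 50, 52, 54, 48, 51]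

/-- The two points of `{0, …, 6}` below each of the 63 points. -/
def bpT : List ℕ := [5, 4, 3, 4, 5, 3, 4, 5, 3, 2, 1, 1, 0, 0, 2, 1, 1, 0, 0, 2, 1, 1, 0, 0, 2, 2, 1, 0, 1, 0, 1, 0, 1, 1, 0, 0, 0, 2, 1, 0, 1, 0, 1, 0, 0, 1, 0, 0, 2, 3, 3, 2, 4, 4, 3, 3, 2, 2, 3, 4, 3, 2, 2]

def bqT : List ℕ := [6, 5, 4, 5, 6, 4, 5, 6, 4, 6, 6, 2, 2, 6, 6, 6, 2, 2, 6, 6, 6, 2, 2, 6, 3, 3, 3, 1, 5, 5, 3, 3, 5, 4, 4, 5, 1, 3, 4, 4, 5, 5, 3, 3, 1, 4, 4, 3, 4, 6, 6, 5, 6, 6, 5, 5, 4, 5, 6, 6, 5, 4, 5]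

/-- The neighbours in the covering graph. -/
def nbT : List (List ℕ) := [
  [2, 16, 17, 24, 30, 31, 44, 45, 46, 56],
  [9, 11, 15, 18, 22, 24, 42, 44, 47, 58],
  [0, 9, 10, 16, 17, 23, 40, 41, 44, 62],
  [12, 14, 16, 20, 23, 26, 27, 31, 37, 50],
  [5, 21, 22, 27, 33, 34, 37, 42, 43, 61],
  [4, 13, 14, 15, 21, 22, 27, 32, 35, 51],
  [10, 13, 17, 19, 21, 25, 30, 36, 43, 49],
  [8, 11, 12, 25, 26, 36, 38, 39, 47, 48],
  [7, 11, 12, 18, 19, 20, 28, 29, 36, 57],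
  [1, 2, 34, 38, 40, 41, 42, 44, 47, 55],
  [2, 6, 17, 25, 39, 41, 43, 60, 61, 62],
  [1, 7, 8, 18, 29, 39, 47, 52, 58, 60],
  [3, 7, 8, 20, 26, 28, 38, 50, 55, 59],
  [5, 6, 21, 25, 30, 32, 38, 51, 55, 56],
  [3, 5, 26, 27, 31, 32, 35, 39, 45, 60],
  [1, 5, 22, 24, 35, 46, 47, 48, 51, 54],
  [0, 2, 3, 23, 31, 41, 46, 50, 53, 54],
  [0, 2, 6, 10, 30, 40, 45, 49, 52, 60],
  [1, 8, 11, 24, 28, 42, 45, 57, 60, 61],
  [6, 8, 28, 29, 30, 33, 36, 43, 46, 54],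
  [3, 8, 12, 29, 31, 34, 37, 55, 56, 57],
  [4, 5, 6, 13, 34, 35, 43, 49, 55, 59],
  [1, 4, 5, 15, 32, 33, 42, 53, 54, 58],
  [2, 3, 16, 26, 33, 37, 40, 48, 54, 62],
  [0, 1, 15, 18, 28, 35, 44, 45, 46, 59],
  [6, 7, 10, 13, 32, 36, 38, 39, 41, 53],
  [3, 7, 12, 14, 23, 35, 39, 48, 59, 62],
  [3, 4, 5, 14, 37, 50, 51, 52, 60, 61],
  [8, 12, 18, 19, 24, 43, 46, 50, 59, 61],
  [8, 11, 19, 20, 30, 33, 37, 52, 56, 58],
  [0, 6, 13, 17, 19, 29, 46, 51, 52, 56],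
  [0, 3, 14, 16, 20, 32, 45, 53, 56, 57],
  [5, 13, 14, 22, 25, 31, 39, 53, 56, 58],
  [4, 19, 22, 23, 29, 37, 43, 54, 58, 62],
  [4, 9, 20, 21, 37, 40, 42, 49, 55, 57],
  [5, 14, 15, 21, 24, 26, 45, 48, 49, 59],
  [6, 7, 8, 19, 25, 48, 49, 53, 54, 57],
  [3, 4, 20, 23, 27, 29, 33, 34, 40, 52],
  [7, 9, 12, 13, 25, 41, 47, 50, 51, 55],
  [7, 10, 11, 14, 25, 26, 32, 58, 60, 62],
  [2, 9, 17, 23, 34, 37, 47, 48, 49, 52],
  [2, 9, 10, 16, 25, 38, 42, 50, 53, 61],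
  [1, 4, 9, 18, 22, 34, 41, 53, 57, 61],
  [4, 6, 10, 19, 21, 28, 33, 59, 61, 62],
  [0, 1, 2, 9, 24, 55, 56, 58, 59, 62],
  [0, 14, 17, 18, 24, 31, 35, 49, 57, 60],
  [0, 15, 16, 19, 24, 28, 30, 50, 51, 54],
  [1, 7, 9, 11, 15, 38, 40, 48, 51, 52],
  [7, 15, 23, 26, 35, 36, 40, 47, 49, 54],
  [6, 17, 21, 34, 35, 36, 40, 45, 48, 57],
  [3, 12, 16, 27, 28, 38, 41, 46, 51, 61],
  [5, 13, 15, 27, 30, 38, 46, 47, 50, 52],
  [11, 17, 27, 29, 30, 37, 40, 47, 51, 60],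
  [16, 22, 25, 31, 32, 36, 41, 42, 54, 57],
  [15, 16, 19, 22, 23, 33, 36, 46, 48, 53],
  [9, 12, 13, 20, 21, 34, 38, 44, 56, 59],
  [0, 13, 20, 29, 30, 31, 32, 44, 55, 58],
  [8, 18, 20, 31, 34, 36, 42, 45, 49, 53],
  [1, 11, 22, 29, 32, 33, 39, 44, 56, 62],
  [12, 21, 24, 26, 28, 35, 43, 44, 55, 62],
  [10, 11, 14, 17, 18, 27, 39, 45, 52, 61],
  [4, 10, 18, 27, 28, 41, 42, 43, 50, 60],
  [2, 10, 23, 26, 33, 39, 43, 44, 58, 59]]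

def parT : List ℕ := [0, 24, 0, 16, 34, 15, 17, 38, 18, 2, 2, 52, 3, 30, 31, 24, 0, 0, 24, 30, 31, 6, 53, 2, 0, 10, 23, 3, 24, 30, 0, 0, 31, 23, 9, 24, 53, 23, 9, 10, 2, 2, 9, 10, 0, 0, 0, 9, 23, 17, 16, 30, 17, 16, 16, 44, 0, 31, 44, 24, 17, 10, 2]

def rkT : List ℕ := [0, 2, 1, 2, 4, 3, 2, 4, 3, 2, 2, 3, 3, 2, 2, 2, 1, 1, 2, 2, 2, 3, 3, 2, 1, 3, 3, 3, 2, 2, 1, 1, 2, 3, 3, 2, 3, 3, 3, 3, 2, 2, 3, 3, 1, 1, 1, 3, 3, 2, 2, 2, 2, 2, 2, 2, 1, 2, 2, 2, 2, 3, 2]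


/-! ### Permutations of the 63 points given by tables -/

/-- The value of the table `T` at `i`. -/
def tf (T : List ℕ) (i : ℕ) : ℕ := T.getD i 0 % 63

def tfun (T : List ℕ) (i : Fin 63) : Fin 63 := ⟨tf T i.val, Nat.mod_lt _ (by norm_num)⟩

/-- The table has order dividing 3. -/
def cube3 (T : List ℕ) : Bool := (List.range 63).all (fun i => tf T (tf T (tf T i)) == i)

theorem tfun_cube {T : List ℕ} (h : cube3 T = true) (i : Fin 63) : tfun T (tfun T (tfun T i)) = i := by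
  apply Fin.ext
  have := List.all_eq_true.mp h i.val (List.mem_range.mpr i.isLt)
  exact beq_iff_eq.mp this

/-- The permutation with table `T` (the identity if the table does not have order dividing 3). -/
def tp (T : List ℕ) : Equiv.Perm (Fin 63) :=
  if h : cube3 T = true then
    { toFun := tfun T
      invFun := fun i => tfun T (tfun T i)
      left_inv := fun i => tfun_cube h i
      right_inv := fun i => tfun_cube h i }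
  else 1

theorem tp_apply {T : List ℕ} (h : cube3 T = true) (i : Fin 63) : tp T i = tfun T i := by
  unfold tp
  rw [dif_pos h]
  rfl

/-! ### The group -/

def f7 (k : ℕ) : Fin 7 := ⟨k % 7, Nat.mod_lt _ (by norm_num)⟩

/-- The 3-cycle of an entry. -/
def cyc3 (e : ℕ × ℕ × ℕ × List ℕ) : Equiv.Perm (Fin 7) :=
  swap (f7 e.1) (f7 e.2.1) * swap (f7 e.1) (f7 e.2.2.1)

/-- The generator of an entry. -/
def gen7 (e : ℕ × ℕ × ℕ × List ℕ) : Equiv.Perm (Fin 63) × Equiv.Perm (Fin 7) := (tp e.2.2.2, cyc3 e)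

/-- The triple cover of the alternating group of degree 7. -/
def G7 : Subgroup (Equiv.Perm (Fin 63) × Equiv.Perm (Fin 7)) :=
  Subgroup.closure {p | ∃ e ∈ gens3, gen7 e = p}

def bp (i : Fin 63) : Fin 7 := f7 (bpT.getD i.val 0)

def bq (i : Fin 63) : Fin 7 := f7 (bqT.getD i.val 0)

/-- The pair below a point. -/
def blk (i : Fin 63) : Sym2 (Fin 7) := s(bp i, bq i)

/-- The covering graph. -/
def E7 (i j : Fin 63) : Prop := j.val ∈ nbT.getD i.val []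

instance : DecidableRel E7 := fun i j => by
  unfold E7
  infer_instance

def par7 (v : Fin 63) : Fin 63 := ⟨parT.getD v.val 0 % 63, Nat.mod_lt _ (by norm_num)⟩

def rk7 (v : Fin 63) : ℕ := rkT.getD v.val 0

/-! ### The checks -/

theorem gens_cube : ∀ e ∈ gens3, cube3 e.2.2.2 = true := by decide +kernel

theorem gens_ne : ∀ e ∈ gens3, f7 e.1 ≠ f7 e.2.1 ∧ f7 e.1 ≠ f7 e.2.2.1 := by decide +kernel

theorem gens_blk : ∀ e ∈ gens3, ∀ i : Fin 63,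
    (cyc3 e (bp i) = bp (tfun e.2.2.2 i) ∧ cyc3 e (bq i) = bq (tfun e.2.2.2 i)) ∨
      (cyc3 e (bp i) = bq (tfun e.2.2.2 i) ∧ cyc3 e (bq i) = bp (tfun e.2.2.2 i)) := by
  decide +kernel

theorem gens_edge : (gens3.all fun e => (List.range 63).all fun i => (nbT.getD i []).all fun j =>
    (nbT.getD (tf e.2.2.2 i) []).contains (tf e.2.2.2 j)) = true := by decide +kernel

theorem gens_comm : ∀ e ∈ gens3, ∀ i : Fin 63,
    tfun e.2.2.2 (tfun a7Z i) = tfun a7Z (tfun e.2.2.2 i) := by decide +kernel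

theorem gens_cover : ∀ x y z : Fin 7, x ≠ y → x ≠ z → y ≠ z →
    ∃ e ∈ gens3, ∀ i : Fin 7, cyc3 e i = (swap x y * swap x z) i := by decide +kernel

theorem nb_inj : ((List.range 63).all fun u => (nbT.getD u []).all fun v => (nbT.getD u []).all fun w =>
    !((bpT.getD v 0 % 7 == bpT.getD w 0 % 7 && bqT.getD v 0 % 7 == bqT.getD w 0 % 7) ||
      (bpT.getD v 0 % 7 == bqT.getD w 0 % 7 && bqT.getD v 0 % 7 == bpT.getD w 0 % 7)) || v == w) = true := by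
  decide +kernel

theorem par_ok : ∀ v : Fin 63, v ≠ 0 → E7 (par7 v) v ∧ rk7 (par7 v) < rk7 v := by decide +kernel

theorem fiber0 : ∀ j : Fin 63, (bp j = bp 0 ∧ bq j = bq 0 ∨ bp j = bq 0 ∧ bq j = bp 0) →
    j = 0 ∨ j = 4 ∨ j = 7 := by decide +kernel

theorem a7X_cube : cube3 a7X = true := by decide +kernel

theorem a7Y_cube : cube3 a7Y = true := by decide +kernel

theorem a7Z_cube : cube3 a7Z = true := by decide +kernel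

theorem a7X_mem : (0, 2, 1, a7X) ∈ gens3 := by decide +kernel

theorem a7Y_mem : (3, 5, 4, a7Y) ∈ gens3 := by decide +kernel

theorem a7Z_rel : ∀ i : Fin 63, tfun a7Z (tfun a7Y (tfun a7X i)) = tfun a7X (tfun a7Y i) := by
  decide +kernel

theorem a7Z_ne : tfun a7Z 0 ≠ 0 := by decide +kernel

theorem cyc_comm : cyc3 (0, 2, 1, a7X) * cyc3 (3, 5, 4, a7Y) = cyc3 (3, 5, 4, a7Y) * cyc3 (0, 2, 1, a7X) := by
  apply Equiv.ext
  decide +kernel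

/-! ### The invariants -/

theorem gens_E {e : ℕ × ℕ × ℕ × List ℕ} (he : e ∈ gens3) (i j : Fin 63) (h : E7 i j) :
    E7 (tfun e.2.2.2 i) (tfun e.2.2.2 j) := by
  have h1 := List.all_eq_true.mp gens_edge e he
  have h2 := List.all_eq_true.mp h1 i.val (List.mem_range.mpr i.isLt)
  have h3 := List.all_eq_true.mp h2 j.val h
  exact List.contains_iff_mem.mp h3

/-- The pairs compatible with the blocks and the graph. -/
def Inv7 : Subgroup (Equiv.Perm (Fin 63) × Equiv.Perm (Fin 7)) where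
  carrier := {p | (∀ i, blk (p.1 i) = Sym2.map p.2 (blk i)) ∧ ∀ i j, E7 i j → E7 (p.1 i) (p.1 j)}
  one_mem' := by
    refine ⟨fun i => ?_, fun i j h => h⟩
    show blk i = Sym2.map (⇑(1 : Equiv.Perm (Fin 7))) (blk i)
    rw [Equiv.Perm.coe_one, Sym2.map_id]
    rfl
  mul_mem' := by
    rintro a b ⟨ha1, ha2⟩ ⟨hb1, hb2⟩
    refine ⟨fun i => ?_, fun i j h => ha2 _ _ (hb2 _ _ h)⟩
    show blk (a.1 (b.1 i)) = Sym2.map (⇑(a.2 * b.2)) (blk i)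
    rw [ha1, hb1, Sym2.map_map]
    rfl
  inv_mem' := by
    rintro a ⟨ha1, ha2⟩
    refine ⟨fun i => ?_, rel_inv_of_rel E7 a.1 ha2⟩
    show blk (a.1⁻¹ i) = Sym2.map (⇑(a.2⁻¹)) (blk i)
    have h := ha1 (a.1⁻¹ i)
    rw [perm_app_inv] at h
    rw [h, Sym2.map_map]
    have : (⇑(a.2⁻¹) ∘ ⇑a.2) = id := by
      funext x
      exact perm_inv_app a.2 x
    rw [this, Sym2.map_id]
    rfl

theorem gen7_mem_Inv7 {e : ℕ × ℕ × ℕ × List ℕ} (he : e ∈ gens3) : gen7 e ∈ Inv7 := by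
  have hc := gens_cube e he
  refine ⟨fun i => ?_, fun i j h => ?_⟩
  · show blk (tp e.2.2.2 i) = Sym2.map (⇑(cyc3 e)) (blk i)
    rw [tp_apply hc]
    unfold blk
    rw [Sym2.map_mk, Sym2.eq_iff]
    rcases gens_blk e he i with h | h
    · left; exact ⟨h.1.symm, h.2.symm⟩
    · right; exact ⟨h.2.symm, h.1.symm⟩
  · show E7 (tp e.2.2.2 i) (tp e.2.2.2 j)
    rw [tp_apply hc, tp_apply hc]
    exact gens_E he i j h

theorem G7_le_Inv7 : G7 ≤ Inv7 := by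
  unfold G7
  rw [Subgroup.closure_le]
  rintro _ ⟨e, he, rfl⟩
  exact gen7_mem_Inv7 he

theorem E7_inj (u v w : Fin 63) (h1 : E7 u v) (h2 : E7 u w) (h : blk v = blk w) : v = w := by
  have c1 := List.all_eq_true.mp nb_inj u.val (List.mem_range.mpr u.isLt)
  have c2 := List.all_eq_true.mp c1 v.val h1
  have c3 := List.all_eq_true.mp c2 w.val h2
  unfold blk at h
  rw [Sym2.eq_iff] at h
  apply Fin.ext
  by_contra hne
  have h4 : (v.val == w.val) = false := by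
    rw [beq_eq_false_iff_ne]
    exact hne
  rw [h4, Bool.or_false, Bool.not_eq_true'] at c3
  rw [Bool.or_eq_false_iff, Bool.and_eq_false_iff, Bool.and_eq_false_iff] at c3
  rcases h with ⟨e1, e2⟩ | ⟨e1, e2⟩
  · have e1' : bpT.getD v.val 0 % 7 = bpT.getD w.val 0 % 7 := congrArg Fin.val e1
    have e2' : bqT.getD v.val 0 % 7 = bqT.getD w.val 0 % 7 := congrArg Fin.val e2
    rcases c3.1 with c | c
    · exact (beq_eq_false_iff_ne.mp c) e1'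
    · exact (beq_eq_false_iff_ne.mp c) e2'
  · have e1' : bpT.getD v.val 0 % 7 = bqT.getD w.val 0 % 7 := congrArg Fin.val e1
    have e2' : bqT.getD v.val 0 % 7 = bpT.getD w.val 0 % 7 := congrArg Fin.val e2
    rcases c3.2 with c | c
    · exact (beq_eq_false_iff_ne.mp c) e1'
    · exact (beq_eq_false_iff_ne.mp c) e2'

/-- An element of `G7` acting trivially on the seven points and fixing the point 0 is trivial. -/
theorem G7_fix_eq_one {x : Equiv.Perm (Fin 63) × Equiv.Perm (Fin 7)} (hx : x ∈ G7) (h2 : x.2 = 1)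
    (h0 : x.1 0 = 0) : x = 1 := by
  obtain ⟨hb, hE⟩ := G7_le_Inv7 hx
  apply Prod.ext
  · apply eq_one_of_cover E7 blk par7 rk7 0 par_ok E7_inj x.1 hE _ h0
    intro v
    rw [hb v, h2, Equiv.Perm.coe_one, Sym2.map_id]
    rfl
  · exact h2

theorem G7_blk0 {x : Equiv.Perm (Fin 63) × Equiv.Perm (Fin 7)} (hx : x ∈ G7) (h2 : x.2 = 1) :
    x.1 0 = 0 ∨ x.1 0 = 4 ∨ x.1 0 = 7 := by
  obtain ⟨hb, -⟩ := G7_le_Inv7 hx
  have h := hb 0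
  rw [h2, Equiv.Perm.coe_one, Sym2.map_id] at h
  have h' : blk (x.1 0) = blk 0 := h
  unfold blk at h'
  rw [Sym2.eq_iff] at h'
  exact fiber0 _ h'

/-! ### The projection -/

theorem G7_snd_mem {x : Equiv.Perm (Fin 63) × Equiv.Perm (Fin 7)} (hx : x ∈ G7) :
    x.2 ∈ alternatingGroup (Fin 7) := by
  have hle : G7 ≤ (alternatingGroup (Fin 7)).comap (MonoidHom.snd _ _) := by
    unfold G7
    rw [Subgroup.closure_le]
    rintro _ ⟨e, he, rfl⟩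
    show cyc3 e ∈ alternatingGroup (Fin 7)
    rw [Equiv.Perm.mem_alternatingGroup]
    unfold cyc3
    rw [map_mul, Equiv.Perm.sign_swap (gens_ne e he).1, Equiv.Perm.sign_swap (gens_ne e he).2]
    rfl
  exact hle hx

/-- The projection to the alternating group of degree 7. -/
def sig7 : G7 →* alternatingGroup (Fin 7) :=
  MonoidHom.codRestrict ((MonoidHom.snd _ _).comp G7.subtype) (alternatingGroup (Fin 7))
    (fun x => G7_snd_mem x.2)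

theorem sig7_apply (x : G7) : ((sig7 x : alternatingGroup (Fin 7)) : Equiv.Perm (Fin 7)) = x.1.2 := rfl

theorem sig7_surjective : Function.Surjective sig7 := by
  have key : ∀ τ : Equiv.Perm (Fin 7), τ ∈ alternatingGroup (Fin 7) →
      ∃ g : G7, ((sig7 g : alternatingGroup (Fin 7)) : Equiv.Perm (Fin 7)) = τ := by
    intro τ hτ
    rw [← Equiv.Perm.closure_three_cycles_eq_alternating] at hτ
    induction hτ using Subgroup.closure_induction with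
    | mem τ hτ =>
      have hpos : 0 < τ.support.card := by
        rw [hτ.card_support]
        norm_num
      obtain ⟨a, ha⟩ := Finset.card_pos.mp hpos
      have hnd := hτ.nodup_iff_mem_support.mpr ha
      have heq := hτ.eq_swap_mul_swap_iff_mem_support.mpr ha
      rw [List.nodup_cons, List.nodup_cons] at hnd
      have hab : τ a ≠ a := fun h => hnd.1 (by rw [h]; exact List.mem_cons_self)
      have hac : a ≠ τ (τ a) := fun h => hnd.1 (by rw [← h]; simp)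
      have hbc : τ a ≠ τ (τ a) := fun h => hnd.2.1 (by rw [← h]; simp)
      obtain ⟨e, he, hc⟩ := gens_cover (τ a) a (τ (τ a)) hab hbc hac
      refine ⟨⟨gen7 e, Subgroup.subset_closure ⟨e, he, rfl⟩⟩, ?_⟩
      rw [sig7_apply]
      have h1 : cyc3 e = swap (τ a) a * swap (τ a) (τ (τ a)) := Equiv.ext hc
      rw [Equiv.swap_comm (τ a) a] at h1
      exact h1.trans heq.symm
    | one => exact ⟨1, by rw [map_one]; rfl⟩
    | mul a b _ _ ha hb =>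
      obtain ⟨x, hx⟩ := ha
      obtain ⟨y, hy⟩ := hb
      exact ⟨x * y, by rw [map_mul, Subgroup.coe_mul, hx, hy]⟩
    | inv a _ ha =>
      obtain ⟨x, hx⟩ := ha
      exact ⟨x⁻¹, by rw [map_inv, Subgroup.coe_inv, hx]⟩
  intro a
  obtain ⟨g, hg⟩ := key a.1 a.2
  exact ⟨g, Subtype.ext hg⟩

theorem mem_ker_sig7 (x : G7) : x ∈ sig7.ker ↔ x.1.2 = 1 := by
  rw [MonoidHom.mem_ker]
  constructor
  · intro h
    exact congrArg Subtype.val h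
  · intro h
    exact Subtype.ext h

/-! ### The central element -/

/-- The generator of the kernel. -/
def z7 : Equiv.Perm (Fin 63) × Equiv.Perm (Fin 7) := (tp a7Z, 1)

theorem z7_eq_comm : z7 = ⁅gen7 (0, 2, 1, a7X), gen7 (3, 5, 4, a7Y)⁆ := by
  have key : z7 * gen7 (3, 5, 4, a7Y) * gen7 (0, 2, 1, a7X) =
      gen7 (0, 2, 1, a7X) * gen7 (3, 5, 4, a7Y) := by
    apply Prod.ext
    · apply Equiv.ext
      intro i
      show tp a7Z (tp a7Y (tp a7X i)) = tp a7X (tp a7Y i)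
      rw [tp_apply a7X_cube, tp_apply a7Y_cube, tp_apply a7Z_cube, tp_apply a7Y_cube, tp_apply a7X_cube]
      exact a7Z_rel i
    · show 1 * cyc3 (3, 5, 4, a7Y) * cyc3 (0, 2, 1, a7X) = cyc3 (0, 2, 1, a7X) * cyc3 (3, 5, 4, a7Y)
      rw [one_mul, cyc_comm]
  rw [commutatorElement_def, ← key]
  group

theorem z7_mem : z7 ∈ G7 := by
  rw [z7_eq_comm, commutatorElement_def]
  have hX : gen7 (0, 2, 1, a7X) ∈ G7 := Subgroup.subset_closure ⟨_, a7X_mem, rfl⟩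
  have hY : gen7 (3, 5, 4, a7Y) ∈ G7 := Subgroup.subset_closure ⟨_, a7Y_mem, rfl⟩
  exact G7.mul_mem (G7.mul_mem (G7.mul_mem hX hY) (G7.inv_mem hX)) (G7.inv_mem hY)

theorem z7_comm {x : Equiv.Perm (Fin 63) × Equiv.Perm (Fin 7)} (hx : x ∈ G7) : x * z7 = z7 * x := by
  have hle : G7 ≤ Subgroup.centralizer {z7} := by
    unfold G7
    rw [Subgroup.closure_le]
    rintro _ ⟨e, he, rfl⟩
    rw [SetLike.mem_coe, Subgroup.mem_centralizer_iff]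
    intro h hh
    rw [Set.mem_singleton_iff.mp hh]
    apply Prod.ext
    · apply Equiv.ext
      intro i
      show tp a7Z (tp e.2.2.2 i) = tp e.2.2.2 (tp a7Z i)
      rw [tp_apply (gens_cube e he), tp_apply a7Z_cube, tp_apply a7Z_cube, tp_apply (gens_cube e he)]
      exact (gens_comm e he i).symm
    · show 1 * cyc3 e = cyc3 e * 1
      rw [one_mul, mul_one]
  exact (Subgroup.mem_centralizer_iff.mp (hle hx) z7 rfl).symm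

theorem z7_ne_one : z7 ≠ 1 := by
  intro h
  have h1 : tp a7Z 0 = 0 := by
    have := congrArg (fun p : Equiv.Perm (Fin 63) × Equiv.Perm (Fin 7) => p.1 0) h
    exact this
  rw [tp_apply a7Z_cube] at h1
  exact a7Z_ne h1

theorem z7_cube : z7 ^ 3 = 1 := by
  apply Prod.ext
  · apply Equiv.ext
    intro i
    show (tp a7Z ^ 3) i = i
    rw [pow_succ, pow_two]
    show tp a7Z (tp a7Z (tp a7Z i)) = i
    rw [tp_apply a7Z_cube, tp_apply a7Z_cube, tp_apply a7Z_cube]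
    exact tfun_cube a7Z_cube i
  · show (1 : Equiv.Perm (Fin 7)) ^ 3 = 1
    rw [one_pow]

/-- The generator of the kernel, in `G7`. -/
def z7G : G7 := ⟨z7, z7_mem⟩

theorem z7G_mem_center : z7G ∈ Subgroup.center G7 := by
  rw [Subgroup.mem_center_iff]
  intro g
  apply Subtype.ext
  exact z7_comm g.2

theorem orderOf_z7G : orderOf z7G = 3 :=
  orderOf_eq_prime (Subtype.ext z7_cube) (fun h => z7_ne_one (congrArg Subtype.val h))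

theorem z7G_mem_ker : z7G ∈ sig7.ker := (mem_ker_sig7 z7G).mpr rfl

theorem card_ker_sig7_le : Nat.card sig7.ker ≤ 3 := by
  have hmem : ∀ x : sig7.ker, (x : G7).1.1 0 ∈ ({0, 4, 7} : Finset (Fin 63)) := by
    intro x
    have h2 := (mem_ker_sig7 x.1).mp x.2
    rcases G7_blk0 x.1.2 h2 with h | h | h <;> rw [h] <;> decide
  let f : sig7.ker → ({0, 4, 7} : Finset (Fin 63)) := fun x => ⟨(x : G7).1.1 0, hmem x⟩
  have hf : Function.Injective f := by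
    intro x y hxy
    have h1 : (x : G7).1.1 0 = (y : G7).1.1 0 := congrArg Subtype.val hxy
    have h2 : ((x : G7).1)⁻¹ * (y : G7).1 = 1 := by
      apply G7_fix_eq_one (G7.mul_mem (G7.inv_mem x.1.2) y.1.2)
      · show ((x : G7).1.2)⁻¹ * (y : G7).1.2 = 1
        rw [(mem_ker_sig7 x.1).mp x.2, (mem_ker_sig7 y.1).mp y.2, inv_one, one_mul]
      · show ((x : G7).1.1)⁻¹ ((y : G7).1.1 0) = 0
        rw [← h1, perm_inv_app]
    apply Subtype.ext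
    apply Subtype.ext
    exact inv_mul_eq_one.mp h2
  have h3 : Nat.card ({0, 4, 7} : Finset (Fin 63)) = 3 := by
    rw [Nat.card_eq_fintype_card, Fintype.card_coe]
    rfl
  have := Nat.card_le_card_of_injective f hf
  rw [h3] at this
  exact this

theorem ker_sig7 : sig7.ker = Subgroup.zpowers z7G := by
  symm
  apply Subgroup.eq_of_le_of_card_ge
  · rw [Subgroup.zpowers_le]
    exact z7G_mem_ker
  · rw [Nat.card_zpowers, orderOf_z7G]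
    exact card_ker_sig7_le

theorem z7G_mem_commutator : z7G ∈ commutator G7 := by
  have h : z7G = ⁅(⟨gen7 (0, 2, 1, a7X), Subgroup.subset_closure ⟨_, a7X_mem, rfl⟩⟩ : G7),
      (⟨gen7 (3, 5, 4, a7Y), Subgroup.subset_closure ⟨_, a7Y_mem, rfl⟩⟩ : G7)⁆ := by
    apply Subtype.ext
    exact z7_eq_comm
  rw [h]
  exact Subgroup.commutator_mem_commutator (Subgroup.mem_top _) (Subgroup.mem_top _)

/-- A stem extension of the alternating group of degree 7 with kernel of order 3. -/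
theorem exists_a7_cover : ∃ (Γ : Type) (_ : Group Γ) (_ : Finite Γ) (σ : Γ →* alternatingGroup (Fin 7))
    (c : Γ), Cfsg.IsStemExtension σ ∧ σ.ker = Subgroup.zpowers c ∧ orderOf c = 3 := by
  refine ⟨G7, inferInstance, inferInstance, sig7, z7G, ⟨sig7_surjective, ?_, ?_⟩, ker_sig7, orderOf_z7G⟩
  · rw [ker_sig7, Subgroup.zpowers_le]
    exact z7G_mem_center
  · rw [ker_sig7, Subgroup.zpowers_le]
    exact z7G_mem_commutator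

end Cfsg.Agent.Lib.Helper70
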