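import Cfsg.Agent.Lib.Helper70.D11Data

set_option autoImplicit false

/-!
# Transitive groups of degree 11: the kernel computations (helper70, for S0679)
-/

namespace Cfsg.Agent.Lib.Helper70.D11

theorem chkE1a : top P1 [1] = true := by decide +kernel

theorem chkE1b : top P1 [2, 3, 4] = true := by decide +kernel

theorem chkE1c : top P1 [5, 6, 7] = true := by decide +kernel

theorem chkE1d : top P1 [8, 9, 10] = true := by decide +kernel

theorem chkE2a : (I1ra.all fun t => I2c.all fun s => P2 t s) = true := by decide +kernel

theorem chkE2b : (I1rb.all fun t => I2c.all fun s => P2 t s) = true := by decide +kernel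

theorem chkE2c : (I1rc.all fun t => I2c.all fun s => P2 t s) = true := by decide +kernel

theorem chkHit : (I1c.all fun t => hit 11 t) = true := by decide +kernel

theorem chkConjI1 : (I1c.all fun t => memL (conjC c0c c0ic t) I1c) = true := by decide +kernel

theorem chkConjI2 : (I2c.all fun t => memL (conjC c0c c0ic t) I2c) = true := by decide +kernel

theorem chkU12 : (I1c.all fun t => memL (conjC uc uc t) I2c) = true := by decide +kernel

theorem chkU21 : (I2c.all fun t => memL (conjC uc uc t) I1c) = true := by decide +kernel

theorem chkWI1 : lbeq (WI1.map (evalC (gen3 t1c))) I1c = true := by decide +kernel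

theorem chkWI2 : lbeq (WI2.map (evalC (gen3 t2c))) I2c = true := by decide +kernel

theorem chkWF : lbeq (WF.map (evalC (gen3 idc))) FLc = true := by decide +kernel

theorem chkF : (FLc.all fun f => [c0c, m3c, c0ic, m3ic].all fun s => memL (cmpC f s) FLc) = true := by
  decide +kernel

theorem chkR1 : chkR R1c [c0c, m3c, t1c, c0ic, m3ic] = true := by decide +kernel

theorem chkR2 : chkR R2c [c0c, m3c, t2c, c0ic, m3ic] = true := by decide +kernel

theorem chkT11 : lbeq (T11w.map (evalC (gen3 t1c))) T11c = true := by decide +kernel

theorem chkT12 : lbeq (T12w.map (evalC (gen3 t1c))) T12c = true := by decide +kernel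

theorem chkT13 : lbeq (T13w.map (evalC (gen3 t1c))) T13c = true := by decide +kernel

theorem chkT14 : lbeq (T14w.map (evalC (gen3 t1c))) T14c = true := by decide +kernel

theorem chkT21 : lbeq (T21w.map (evalC (gen3 t2c))) T21c = true := by decide +kernel

theorem chkT22 : lbeq (T22w.map (evalC (gen3 t2c))) T22c = true := by decide +kernel

theorem chkT23 : lbeq (T23w.map (evalC (gen3 t2c))) T23c = true := by decide +kernel

theorem chkT24 : lbeq (T24w.map (evalC (gen3 t2c))) T24c = true := by decide +kernel

theorem chk4_1 : chk4 T11c T12c T13c T14c = true := by decide +kernel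

theorem chk4_2 : chk4 T21c T22c T23c T24c = true := by decide +kernel

end Cfsg.Agent.Lib.Helper70.D11
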