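import Mathlib
import Cfsg.Agent.Lib.Helper70.D11Defs
import Cfsg.Agent.Lib.Helper66.D11TWO

/-!
# S0679 piece RED (fallback copy): reduction to involutions fixing the point `0`
-/

set_option autoImplicit false

namespace Cfsg.Agent.Lib.Helper70.D11

open Equiv
open Fin.NatCast Fin.CommRing

theorem red_fix0_fb (I1 I2 : Set P11)
    (hI1 : ∀ s ∈ I1, c0 * s * c0⁻¹ ∈ I1) (hI2 : ∀ s ∈ I2, c0 * s * c0⁻¹ ∈ I2)
    (h : ∀ t : P11, t * t = 1 → Perm.sign t = 1 → t 0 = 0 →
      t = 1 ∨ (∃ g ∈ Subgroup.closure ({c0, m3, t} : Set P11), JW g) ∨ t ∈ I1 ∨ t ∈ I2)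
    (t : P11) (ht : t * t = 1) (hs : Perm.sign t = 1) :
    t = 1 ∨ (∃ g ∈ Subgroup.closure ({c0, m3, t} : Set P11), JW g) ∨ t ∈ I1 ∨ t ∈ I2 := by
  classical
  -- a fixed point of `t`
  obtain ⟨x, hx⟩ : ∃ x : Fin 11, t x = x := by
    haveI : Fact (Nat.Prime 2) := ⟨Nat.prime_two⟩
    refine Equiv.Perm.exists_fixed_point_of_prime (p := 2) (n := 1) (by decide) ?_
    rw [pow_one, pow_two]; exact ht
  -- conjugation by powers of `c0` preserves `I1`, `I2`
  have hpow : ∀ (I : Set P11), (∀ s ∈ I, c0 * s * c0⁻¹ ∈ I) →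
      ∀ (k : ℕ) (s : P11), s ∈ I → c0 ^ k * s * (c0 ^ k)⁻¹ ∈ I := by
    intro I hI k
    induction k with
    | zero => intro s hs; simpa using hs
    | succ k ih =>
      intro s hs
      have h1 := hI _ (ih s hs)
      have h2 : c0 ^ (k + 1) * s * (c0 ^ (k + 1))⁻¹ = c0 * (c0 ^ k * s * (c0 ^ k)⁻¹) * c0⁻¹ := by
        rw [pow_succ']; group
      rw [h2]; exact h1
  set k : ℕ := (x : ℕ) with hk
  set t' : P11 := (c0 ^ k)⁻¹ * t * c0 ^ k with ht'
  have hck : (c0 ^ k) 0 = x := by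
    rw [Cfsg.Agent.Lib.Helper66.D11.c0_pow_apply, hk, Fin.cast_val_eq_self]; simp
  have ht0 : t' 0 = 0 := by
    rw [ht', Perm.mul_apply, Perm.mul_apply, hck, hx, ← hck]
    exact Equiv.symm_apply_apply (c0 ^ k) 0
  have ht2 : t' * t' = 1 := by
    rw [ht']
    calc (c0 ^ k)⁻¹ * t * c0 ^ k * ((c0 ^ k)⁻¹ * t * c0 ^ k)
        = (c0 ^ k)⁻¹ * (t * t) * c0 ^ k := by group
      _ = 1 := by rw [ht]; group
  have hts : Perm.sign t' = 1 := by
    rw [ht']; simp [hs]
  have htt : t = c0 ^ k * t' * (c0 ^ k)⁻¹ := by rw [ht']; group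
  have hmem : t' ∈ Subgroup.closure ({c0, m3, t} : Set P11) := by
    have hc : c0 ∈ Subgroup.closure ({c0, m3, t} : Set P11) :=
      Subgroup.subset_closure (by simp)
    have htm : t ∈ Subgroup.closure ({c0, m3, t} : Set P11) :=
      Subgroup.subset_closure (by simp)
    rw [ht']
    exact Subgroup.mul_mem _ (Subgroup.mul_mem _ (Subgroup.inv_mem _ (Subgroup.pow_mem _ hc k)) htm)
      (Subgroup.pow_mem _ hc k)
  rcases h t' ht2 hts ht0 with h1 | ⟨g, hg, hJ⟩ | h1 | h1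
  · left; rw [htt, h1]; group
  · right; left
    refine ⟨g, ?_, hJ⟩
    have hle : Subgroup.closure ({c0, m3, t'} : Set P11) ≤ Subgroup.closure ({c0, m3, t} : Set P11) := by
      rw [Subgroup.closure_le]
      intro y hy
      rcases hy with rfl | rfl | rfl
      · exact Subgroup.subset_closure (by simp)
      · exact Subgroup.subset_closure (by simp)
      · exact hmem
    exact hle hg
  · right; right; left; rw [htt]; exact hpow I1 hI1 k t' h1
  · right; right; right; rw [htt]; exact hpow I2 hI2 k t' h1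

end Cfsg.Agent.Lib.Helper70.D11
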