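import Cfsg.Agent.Lib.Helper70.D11Chk
import Cfsg.Agent.Lib.Helper56.D11DIG
import Cfsg.Agent.Lib.Helper29.D11ENUM
import Cfsg.Agent.Lib.Helper16.D11SIGN
import Cfsg.Agent.Lib.Helper68.D11JWS
import Cfsg.Agent.Lib.Helper55.D11CARDM

set_option autoImplicit false

/-!
# Transitive groups of degree 11: what the kernel computations say about permutations
(helper70, for S0679)
-/

namespace Cfsg.Agent.Lib.Helper70.D11

open Equiv
open Cfsg.Agent.Lib.Helper56.D11 (gt_code code_mul code_injective code_one code_wprod wprod_mem memL_iff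
  card_le_of_code)
open Cfsg.Agent.Lib.Helper29.D11 (top_sound)
open Cfsg.Agent.Lib.Helper16.D11 (evenB_of_sign)
open Cfsg.Agent.Lib.Helper68.D11 (jw_sound)
open Cfsg.Agent.Lib.Helper55.D11 (closure_sub card_le_of_cosets)

theorem code_c0 : code c0 = c0c := by decide

theorem code_m3 : code m3 = m3c := by decide

theorem code_u : code u = uc := by decide

theorem code_c0i : code c0⁻¹ = c0ic := by decide

theorem code_m3i : code m3⁻¹ = m3ic := by decide

theorem u_inv : u⁻¹ = u := by decide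

theorem c0_pow : c0 ^ 11 = 1 := by decide

theorem m3_pow : m3 ^ 5 = 1 := by decide

def t1f : Fin 11 → Fin 11 := ![0, 1, 2, 9, 7, 6, 5, 4, 10, 3, 8]

/-- The involution `t1`. -/
def t1 : P11 := ⟨t1f, t1f, by decide, by decide⟩

def t2f : Fin 11 → Fin 11 := ![0, 3, 8, 1, 7, 6, 5, 4, 2, 9, 10]

/-- The involution `t2 = u t1 u`. -/
def t2 : P11 := ⟨t2f, t2f, by decide, by decide⟩

theorem code_t1 : code t1 = t1c := by decide

theorem code_t2 : code t2 = t2c := by decide

theorem t1_inv : t1⁻¹ = t1 := by decide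

theorem t2_inv : t2⁻¹ = t2 := by decide

/-- The group `⟨c0, m3⟩` of order 55. -/
def Fs : Subgroup P11 := Subgroup.closure ({c0, m3} : Set P11)

/-- The first copy of the Mathieu group. -/
def M1 : Subgroup P11 := Subgroup.closure ({c0, m3, t1} : Set P11)

/-- The second copy of the Mathieu group. -/
def M2 : Subgroup P11 := Subgroup.closure ({c0, m3, t2} : Set P11)

/-- The generators `c0, m3, t`. -/
def gp3 (t : P11) : ℕ → P11
  | 0 => c0
  | 1 => m3
  | _ => t

/-- The generators `c0, m3, t, s`. -/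
def gp4 (t s : P11) : ℕ → P11
  | 0 => c0
  | 1 => m3
  | 2 => t
  | _ => s

theorem gen3_code (t : P11) : (fun j => code (gp3 t j)) = gen3 (code t) := by
  funext j
  match j with
  | 0 => exact code_c0
  | 1 => exact code_m3
  | (n + 2) => rfl

theorem gen4_code (t s : P11) : (fun j => code (gp4 t s j)) = gen4 (code t) (code s) := by
  funext j
  match j with
  | 0 => exact code_c0
  | 1 => exact code_m3
  | 2 => rfl
  | (n + 3) => rfl

theorem gp3_mem (t : P11) (j : ℕ) : gp3 t j ∈ Subgroup.closure ({c0, m3, t} : Set P11) := by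
  match j with
  | 0 => exact Subgroup.subset_closure (by simp [gp3])
  | 1 => exact Subgroup.subset_closure (by simp [gp3])
  | (n + 2) => exact Subgroup.subset_closure (by simp [gp3])

theorem gp4_mem (t s : P11) (j : ℕ) :
    gp4 t s j ∈ Subgroup.closure ({c0, m3, t, s} : Set P11) := by
  match j with
  | 0 => exact Subgroup.subset_closure (by simp [gp4])
  | 1 => exact Subgroup.subset_closure (by simp [gp4])
  | 2 => exact Subgroup.subset_closure (by simp [gp4])
  | (n + 3) => exact Subgroup.subset_closure (by simp [gp4])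

theorem lbeq_eq : ∀ (l m : List ℕ), lbeq l m = true → l = m
  | [], [], _ => rfl
  | [], _ :: _, h => by simp [lbeq] at h
  | _ :: _, [], h => by simp [lbeq] at h
  | a :: l, b :: m, h => by
    unfold lbeq at h
    rw [Bool.and_eq_true] at h
    rw [Nat.eq_of_beq_eq_true h.1, lbeq_eq l m h.2]

theorem mem_L11 (a : Fin 11) : (a : ℕ) ∈ L11 := by
  revert a
  decide

/-! ### Involutions fixing 0 -/

theorem E1_fix0 (t : P11) (ht : t * t = 1) (hs : Perm.sign t = 1) (h0 : t 0 = 0) :
    t = 1 ∨ (∃ g ∈ Subgroup.closure ({c0, m3, t} : Set P11), JW g) ∨ code t ∈ I1c ∨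
      code t ∈ I2c := by
  have hne : t 1 ≠ 0 := by
    intro h
    have h2 := t.injective (h.trans h0.symm)
    exact absurd h2 (by decide)
  have h1 : ((t 1 : Fin 11) : ℕ) ∈ [1] ∨ ((t 1 : Fin 11) : ℕ) ∈ [2, 3, 4] ∨
      ((t 1 : Fin 11) : ℕ) ∈ [5, 6, 7] ∨ ((t 1 : Fin 11) : ℕ) ∈ [8, 9, 10] := by
    revert hne
    generalize t 1 = v
    revert v
    decide
  have hP : P1 (code t) = true := by
    rcases h1 with h | h | h | h
    · exact top_sound P1 _ t ht h0 h chkE1a
    · exact top_sound P1 _ t ht h0 h chkE1b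
    · exact top_sound P1 _ t ht h0 h chkE1c
    · exact top_sound P1 _ t ht h0 h chkE1d
  unfold P1 at hP
  simp only [Bool.or_eq_true] at hP
  rcases hP with (((hP | hP) | hP) | hP) | hP
  · have h3 := evenB_of_sign gt_code t ht hs
    rw [h3] at hP
    exact absurd hP (by decide)
  · left
    apply code_injective
    rw [code_one]
    exact Nat.eq_of_beq_eq_true hP
  · right; left
    rw [List.any_eq_true] at hP
    obtain ⟨w, -, hw⟩ := hP
    have e := code_wprod (gp3 t) w
    rw [gen3_code] at e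
    rw [← e] at hw
    exact ⟨wprod (gp3 t) w, wprod_mem _ _ (gp3_mem t) w, jw_sound gt_code _ hw⟩
  · right; right; left
    exact (memL_iff _ _).mp hP
  · right; right; right
    exact (memL_iff _ _).mp hP

/-! ### Conjugation -/

theorem code_conj (c t : P11) : conjC (code c) (code c⁻¹) (code t) = code (c * t * c⁻¹) := by
  unfold conjC
  rw [sapp_eq, ← code_mul, ← code_mul, mul_assoc]

theorem conjI1 (s : P11) (h : code s ∈ I1c) : code (c0 * s * c0⁻¹) ∈ I1c := by
  have h1 := chkConjI1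
  rw [List.all_eq_true] at h1
  have h2 := h1 _ h
  rw [← code_c0, ← code_c0i, code_conj] at h2
  exact (memL_iff _ _).mp h2

theorem conjI2 (s : P11) (h : code s ∈ I2c) : code (c0 * s * c0⁻¹) ∈ I2c := by
  have h1 := chkConjI2
  rw [List.all_eq_true] at h1
  have h2 := h1 _ h
  rw [← code_c0, ← code_c0i, code_conj] at h2
  exact (memL_iff _ _).mp h2

theorem conj_succ (k : ℕ) (s : P11) :
    c0 ^ (k + 1) * s * (c0 ^ (k + 1))⁻¹ = c0 ^ k * (c0 * s * c0⁻¹) * (c0 ^ k)⁻¹ := by
  rw [pow_succ]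
  group

theorem conjI2_pow (k : ℕ) (s : P11) (h : code s ∈ I2c) :
    code (c0 ^ k * s * (c0 ^ k)⁻¹) ∈ I2c := by
  induction k generalizing s with
  | zero => simpa using h
  | succ k ih =>
    rw [conj_succ]
    exact ih _ (conjI2 s h)

theorem conjU12 (t : P11) (h : code t ∈ I1c) : code (u * t * u) ∈ I2c := by
  have h1 := chkU12
  rw [List.all_eq_true] at h1
  have h2 := h1 _ h
  have h3 := code_conj u t
  rw [u_inv, code_u] at h3
  rw [h3] at h2
  exact (memL_iff _ _).mp h2

theorem conjU21 (t : P11) (h : code t ∈ I2c) : code (u * t * u) ∈ I1c := by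
  have h1 := chkU21
  rw [List.all_eq_true] at h1
  have h2 := h1 _ h
  have h3 := code_conj u t
  rw [u_inv, code_u] at h3
  rw [h3] at h2
  exact (memL_iff _ _).mp h2

theorem hit_zero (c : ℕ) : hit 0 c = false := rfl

theorem hit_succ (n c : ℕ) : hit (n + 1) c = (memL c I1r || hit n (conjC c0c c0ic c)) := by
  rw [hit, sapp_eq]

theorem hit_sound (n : ℕ) : ∀ t : P11, hit n (code t) = true →
    ∃ k : ℕ, code (c0 ^ k * t * (c0 ^ k)⁻¹) ∈ I1r := by
  induction n with
  | zero =>
    intro t h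
    rw [hit_zero] at h
    exact absurd h (by decide)
  | succ n ih =>
    intro t h
    rw [hit_succ, Bool.or_eq_true] at h
    rcases h with h | h
    · refine ⟨0, ?_⟩
      have e : c0 ^ 0 * t * (c0 ^ 0)⁻¹ = t := by simp
      rw [e]
      exact (memL_iff _ _).mp h
    · rw [← code_c0, ← code_c0i, code_conj] at h
      obtain ⟨k, hk⟩ := ih _ h
      exact ⟨k + 1, by rw [conj_succ]; exact hk⟩

/-! ### Pairs of involutions -/

theorem E2r (t s : P11) (ht : code t ∈ I1r) (hs : code s ∈ I2c) :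
    ∃ g ∈ Subgroup.closure ({c0, m3, t, s} : Set P11), JW g := by
  have hP : P2 (code t) (code s) = true := by
    unfold I1r at ht
    rw [List.mem_append, List.mem_append] at ht
    rcases ht with h | h | h
    · have h1 := chkE2a
      rw [List.all_eq_true] at h1
      have h2 := h1 _ h
      rw [List.all_eq_true] at h2
      exact h2 _ hs
    · have h1 := chkE2b
      rw [List.all_eq_true] at h1
      have h2 := h1 _ h
      rw [List.all_eq_true] at h2
      exact h2 _ hs
    · have h1 := chkE2c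
      rw [List.all_eq_true] at h1
      have h2 := h1 _ h
      rw [List.all_eq_true] at h2
      exact h2 _ hs
  unfold P2 at hP
  rw [List.any_eq_true] at hP
  obtain ⟨w, -, hw⟩ := hP
  have e := code_wprod (gp4 t s) w
  rw [gen4_code] at e
  rw [← e] at hw
  exact ⟨wprod (gp4 t s) w, wprod_mem _ _ (gp4_mem t s) w, jw_sound gt_code _ hw⟩

theorem E2 (t s : P11) (ht : code t ∈ I1c) (hs : code s ∈ I2c) :
    ∃ g ∈ Subgroup.closure ({c0, m3, t, s} : Set P11), JW g := by
  have hh := chkHit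
  rw [List.all_eq_true] at hh
  obtain ⟨k, hk⟩ := hit_sound 11 t (hh _ ht)
  obtain ⟨g, hg, hjw⟩ := E2r _ _ hk (conjI2_pow k s hs)
  refine ⟨g, ?_, hjw⟩
  have hc : c0 ∈ Subgroup.closure ({c0, m3, t, s} : Set P11) := Subgroup.subset_closure (by simp)
  have hsub : Subgroup.closure ({c0, m3, c0 ^ k * t * (c0 ^ k)⁻¹, c0 ^ k * s * (c0 ^ k)⁻¹} : Set P11) ≤
      Subgroup.closure ({c0, m3, t, s} : Set P11) := by
    rw [Subgroup.closure_le]
    intro x hx
    simp only [Set.mem_insert_iff, Set.mem_singleton_iff] at hx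
    rcases hx with rfl | rfl | rfl | rfl
    · exact hc
    · exact Subgroup.subset_closure (by simp)
    · exact mul_mem (mul_mem (pow_mem hc k) (Subgroup.subset_closure (by simp))) (inv_mem (pow_mem hc k))
    · exact mul_mem (mul_mem (pow_mem hc k) (Subgroup.subset_closure (by simp))) (inv_mem (pow_mem hc k))
  exact hsub hg

/-! ### The involutions of the two lists lie in the two groups -/

theorem mem_of_words (t : P11) (tc : ℕ) (htc : code t = tc) (Tw : List (List ℕ)) (Tc : List ℕ)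
    (h : lbeq (Tw.map (evalC (gen3 tc))) Tc = true) (x : ℕ) (hx : x ∈ Tc) :
    ∃ g ∈ Subgroup.closure ({c0, m3, t} : Set P11), code g = x := by
  rw [← lbeq_eq _ _ h, List.mem_map] at hx
  obtain ⟨w, -, hw⟩ := hx
  have e := code_wprod (gp3 t) w
  rw [gen3_code, htc] at e
  exact ⟨wprod (gp3 t) w, wprod_mem _ _ (gp3_mem t) w, e.trans hw⟩

theorem I1_sub (t : P11) (h : code t ∈ I1c) : t ∈ M1 := by
  obtain ⟨g, hg, hgc⟩ := mem_of_words t1 t1c code_t1 WI1 I1c chkWI1 _ h
  rw [← code_injective hgc]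
  exact hg

theorem I2_sub (t : P11) (h : code t ∈ I2c) : t ∈ M2 := by
  obtain ⟨g, hg, hgc⟩ := mem_of_words t2 t2c code_t2 WI2 I2c chkWI2 _ h
  rw [← code_injective hgc]
  exact hg

/-! ### The group of order 55 -/

theorem F_of_code (c : ℕ) (h : c ∈ FLc) : ∃ f ∈ Fs, code f = c := by
  have h2 := chkWF
  rw [← lbeq_eq _ _ h2, List.mem_map] at h
  obtain ⟨w, -, hw⟩ := h
  have e := code_wprod (gp3 1) w
  rw [gen3_code, code_one] at e
  refine ⟨wprod (gp3 1) w, wprod_mem _ _ ?_ w, e.trans hw⟩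
  intro j
  match j with
  | 0 => exact Subgroup.subset_closure (by simp [gp3])
  | 1 => exact Subgroup.subset_closure (by simp [gp3])
  | (n + 2) => exact one_mem _

theorem code_mem_FL (f : P11) (hf : f ∈ Fs) : code f ∈ FLc := by
  have hchk := chkF
  rw [List.all_eq_true] at hchk
  have key : ∀ r : P11, code r ∈ FLc → ∀ sc ∈ [c0c, m3c, c0ic, m3ic], ∀ s' : P11, code s' = sc →
      ∃ f ∈ (⊥ : Subgroup P11), code (f * (r * s')) ∈ FLc := by
    intro r hr sc hsc s' hs'
    have h1 := hchk _ hr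
    rw [List.all_eq_true] at h1
    have h2 := h1 _ hsc
    refine ⟨1, one_mem _, ?_⟩
    rw [one_mul, code_mul, hs']
    exact (memL_iff _ _).mp h2
  have h := closure_sub (⊥ : Subgroup P11) FLc ({c0, m3} : Set P11)
    ⟨1, one_mem _, by rw [mul_one, code_one]; exact (memL_iff _ _).mp (by decide +kernel)⟩ (by
      intro r hr s hs
      simp only [Set.mem_insert_iff, Set.mem_singleton_iff] at hs
      rcases hs with rfl | rfl
      · exact ⟨key r hr c0c (by simp) _ code_c0, key r hr c0ic (by simp) _ code_c0i⟩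
      · exact ⟨key r hr m3c (by simp) _ code_m3, key r hr m3ic (by simp) _ code_m3i⟩) f hf
  obtain ⟨f', hf', h3⟩ := h
  rw [Subgroup.mem_bot] at hf'
  rw [hf', one_mul] at h3
  exact h3

theorem card_Fs : Nat.card Fs = 55 := by
  have hle : Nat.card Fs ≤ 55 := by
    have h := card_le_of_code (Fs : Set P11) FLc (fun g hg => code_mem_FL g hg)
    exact h
  haveI : Fact (Nat.Prime 11) := ⟨by norm_num⟩
  haveI : Fact (Nat.Prime 5) := ⟨by norm_num⟩
  have h11 : orderOf c0 = 11 := orderOf_eq_prime c0_pow (by decide)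
  have h5 : orderOf m3 = 5 := orderOf_eq_prime m3_pow (by decide)
  have hc : c0 ∈ Fs := Subgroup.subset_closure (by simp)
  have hm : m3 ∈ Fs := Subgroup.subset_closure (by simp)
  have d11 : orderOf c0 ∣ Nat.card Fs := Subgroup.orderOf_dvd_natCard Fs hc
  have d5 : orderOf m3 ∣ Nat.card Fs := Subgroup.orderOf_dvd_natCard Fs hm
  rw [h11] at d11
  rw [h5] at d5
  have d55 : 55 ∣ Nat.card Fs := Nat.Coprime.mul_dvd_of_dvd_of_dvd (by decide) d11 d5
  have hpos : 0 < Nat.card Fs := Nat.card_pos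
  exact Nat.le_antisymm hle (Nat.le_of_dvd hpos d55)

/-! ### The order of the two groups -/

theorem card_M_le (t : P11) (tc : ℕ) (htc : code t = tc) (hinv : t⁻¹ = t) (Rc : List ℕ)
    (hid : memL idc Rc = true) (hchk : chkR Rc [c0c, m3c, tc, c0ic, m3ic] = true)
    (hlen : Rc.length = 144) :
    Nat.card (Subgroup.closure ({c0, m3, t} : Set P11)) ≤ 7920 := by
  have hsub := closure_sub Fs Rc ({c0, m3, t} : Set P11)
    ⟨1, one_mem _, by rw [mul_one, code_one]; exact (memL_iff _ _).mp hid⟩ (by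
      intro r hr s hs
      have key : ∀ sc ∈ [c0c, m3c, tc, c0ic, m3ic], ∀ s' : P11, code s' = sc →
          ∃ f ∈ Fs, code (f * (r * s')) ∈ Rc := by
        intro sc hsc s' hs'
        unfold chkR at hchk
        rw [List.all_eq_true] at hchk
        have h1 := hchk _ hr
        rw [List.all_eq_true] at h1
        have h2 := h1 _ hsc
        simp only [sapp_eq, Bool.and_eq_true] at h2
        obtain ⟨hf, hq⟩ := h2
        obtain ⟨f, hfF, hfc⟩ := F_of_code _ ((memL_iff _ _).mp hf)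
        refine ⟨f, hfF, ?_⟩
        rw [code_mul, code_mul, hfc, hs']
        exact (memL_iff _ _).mp hq
      simp only [Set.mem_insert_iff, Set.mem_singleton_iff] at hs
      rcases hs with rfl | rfl | rfl
      · exact ⟨key c0c (by simp) _ code_c0, key c0ic (by simp) _ code_c0i⟩
      · exact ⟨key m3c (by simp) _ code_m3, key m3ic (by simp) _ code_m3i⟩
      · exact ⟨key tc (by simp) _ htc, key tc (by simp) _ (by rw [hinv]; exact htc)⟩)
  have h := card_le_of_cosets Fs (Subgroup.closure ({c0, m3, t} : Set P11)) Rc hsub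
  rw [card_Fs, hlen] at h
  exact h

theorem card_M1_le : Nat.card M1 ≤ 7920 :=
  card_M_le t1 t1c code_t1 t1_inv R1c (by decide +kernel) chkR1 (by decide +kernel)

theorem card_M2_le : Nat.card M2 ≤ 7920 :=
  card_M_le t2 t2c code_t2 t2_inv R2c (by decide +kernel) chkR2 (by decide +kernel)

/-! ### Four-fold transitivity of the two groups -/

theorem chain_of_chk (t : P11) (tc : ℕ) (htc : code t = tc) (T1w T2w T3w T4w : List (List ℕ))
    (T1c T2c T3c T4c : List ℕ) (h1 : lbeq (T1w.map (evalC (gen3 tc))) T1c = true)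
    (h2 : lbeq (T2w.map (evalC (gen3 tc))) T2c = true)
    (h3 : lbeq (T3w.map (evalC (gen3 tc))) T3c = true)
    (h4 : lbeq (T4w.map (evalC (gen3 tc))) T4c = true) (hchk : chk4 T1c T2c T3c T4c = true)
    (a b c d : Fin 11) (hab : a ≠ b) (hac : a ≠ c) (had : a ≠ d) (hbc : b ≠ c) (hbd : b ≠ d)
    (hcd : c ≠ d) :
    ∃ g ∈ Subgroup.closure ({c0, m3, t} : Set P11), g 0 = a ∧ g 1 = b ∧ g 2 = c ∧ g 3 = d := by
  unfold chk4 at hchk
  rw [List.all_eq_true] at hchk
  have ha := hchk (a : ℕ) (mem_L11 a)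
  rw [List.any_eq_true] at ha
  obtain ⟨g1, hg1, ha⟩ := ha
  rw [Bool.and_eq_true] at ha
  obtain ⟨-, ha⟩ := ha
  rw [List.all_eq_true] at ha
  have hb := ha (b : ℕ) (mem_L11 b)
  rw [Bool.or_eq_true] at hb
  rcases hb with hb | hb
  · exact absurd (Fin.ext (Nat.eq_of_beq_eq_true hb)) (Ne.symm hab)
  rw [List.any_eq_true] at hb
  obtain ⟨g2, hg2, hb⟩ := hb
  rw [Bool.and_eq_true, sapp_eq] at hb
  obtain ⟨-, hb⟩ := hb
  rw [List.all_eq_true] at hb
  have hc := hb (c : ℕ) (mem_L11 c)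
  simp only [Bool.or_eq_true] at hc
  rcases hc with (hc | hc) | hc
  · exact absurd (Fin.ext (Nat.eq_of_beq_eq_true hc)) (Ne.symm hac)
  · exact absurd (Fin.ext (Nat.eq_of_beq_eq_true hc)) (Ne.symm hbc)
  rw [List.any_eq_true] at hc
  obtain ⟨g3, hg3, hc⟩ := hc
  rw [Bool.and_eq_true, sapp_eq] at hc
  obtain ⟨-, hc⟩ := hc
  rw [List.all_eq_true] at hc
  have hd := hc (d : ℕ) (mem_L11 d)
  simp only [Bool.or_eq_true] at hd
  rcases hd with ((hd | hd) | hd) | hd
  · exact absurd (Fin.ext (Nat.eq_of_beq_eq_true hd)) (Ne.symm had)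
  · exact absurd (Fin.ext (Nat.eq_of_beq_eq_true hd)) (Ne.symm hbd)
  · exact absurd (Fin.ext (Nat.eq_of_beq_eq_true hd)) (Ne.symm hcd)
  rw [List.any_eq_true] at hd
  obtain ⟨g4, hg4, hd⟩ := hd
  simp only [Bool.and_eq_true, sapp_eq] at hd
  obtain ⟨-, ⟨⟨⟨e0, e1⟩, e2⟩, e3⟩⟩ := hd
  obtain ⟨p1, hp1, rfl⟩ := mem_of_words t tc htc T1w T1c h1 g1 hg1
  obtain ⟨p2, hp2, rfl⟩ := mem_of_words t tc htc T2w T2c h2 g2 hg2
  obtain ⟨p3, hp3, rfl⟩ := mem_of_words t tc htc T3w T3c h3 g3 hg3
  obtain ⟨p4, hp4, rfl⟩ := mem_of_words t tc htc T4w T4c h4 g4 hg4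
  rw [← code_mul, ← code_mul, ← code_mul] at e0 e1 e2 e3
  refine ⟨p1 * p2 * p3 * p4, mul_mem (mul_mem (mul_mem hp1 hp2) hp3) hp4, ?_, ?_, ?_, ?_⟩
  · apply Fin.ext
    have h := gt_code (p1 * p2 * p3 * p4) 0
    exact h.symm.trans (Nat.eq_of_beq_eq_true e0)
  · apply Fin.ext
    have h := gt_code (p1 * p2 * p3 * p4) 1
    exact h.symm.trans (Nat.eq_of_beq_eq_true e1)
  · apply Fin.ext
    have h := gt_code (p1 * p2 * p3 * p4) 2
    exact h.symm.trans (Nat.eq_of_beq_eq_true e2)
  · apply Fin.ext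
    have h := gt_code (p1 * p2 * p3 * p4) 3
    exact h.symm.trans (Nat.eq_of_beq_eq_true e3)

theorem chain_M1 (a b c d : Fin 11) (hab : a ≠ b) (hac : a ≠ c) (had : a ≠ d) (hbc : b ≠ c)
    (hbd : b ≠ d) (hcd : c ≠ d) : ∃ g ∈ M1, g 0 = a ∧ g 1 = b ∧ g 2 = c ∧ g 3 = d :=
  chain_of_chk t1 t1c code_t1 T11w T12w T13w T14w T11c T12c T13c T14c chkT11 chkT12 chkT13 chkT14
    chk4_1 a b c d hab hac had hbc hbd hcd

theorem chain_M2 (a b c d : Fin 11) (hab : a ≠ b) (hac : a ≠ c) (had : a ≠ d) (hbc : b ≠ c)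
    (hbd : b ≠ d) (hcd : c ≠ d) : ∃ g ∈ M2, g 0 = a ∧ g 1 = b ∧ g 2 = c ∧ g 3 = d :=
  chain_of_chk t2 t2c code_t2 T21w T22w T23w T24w T21c T22c T23c T24c chkT21 chkT22 chkT23 chkT24
    chk4_2 a b c d hab hac had hbc hbd hcd

end Cfsg.Agent.Lib.Helper70.D11
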