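import Mathlib
import Cfsg.Agent.Lib.Helper70.SuzukiExt

/-!
# Central extensions of the Frobenius group `2^3 : 7`

Let `S = {1, e 0, …, e 6}` be an elementary abelian group of order 8 on which an element `f` acts by
`f * e i * f⁻¹ = e (i + 1)`, where `e i * e (i + 1) = e (i + 3)`.  In a central extension, the
preimage of `S` is abelian: the commutator pairing on `S` is invariant under `f`, and there is no
nonzero invariant alternating pairing.
-/

set_option autoImplicit false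

namespace Cfsg.Agent.Lib.Helper70

open scoped commutatorElement

theorem comap_commute_of_frob {Γ G : Type*} [Group Γ] [Group G] (σ : Γ →* G)
    (hσ : Function.Surjective σ) (hker : σ.ker ≤ Subgroup.center Γ) (S : Subgroup G) (e : ℕ → G)
    (f : G) (hS : ∀ s ∈ S, s = 1 ∨ ∃ i, s = e i) (hf : ∀ i, f * e i * f⁻¹ = e (i + 1))
    (h7 : ∀ i, e (i + 7) = e i) (hrel : ∀ i, e i * e (i + 1) = e (i + 3))
    (hcomm : ∀ i j, e i * e j = e j * e i) :
    ∀ x ∈ S.comap σ, ∀ y ∈ S.comap σ, x * y = y * x := by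
  obtain ⟨F, hF⟩ := hσ f
  choose E hE using fun i => hσ (e i)
  have hc : ∀ i j, ⁅E i, E j⁆ ∈ Subgroup.center Γ := by
    intro i j
    apply hker
    rw [MonoidHom.mem_ker, map_commutatorElement, hE, hE, commutatorElement_eq_one_iff_mul_comm]
    exact hcomm i j
  have P1 : ∀ i j, ⁅E (i + 1), E (j + 1)⁆ = ⁅E i, E j⁆ := by
    intro i j
    have h1 : σ (E (i + 1)) = σ (F * E i * F⁻¹) := by
      rw [map_mul, map_mul, map_inv, hF, hE, hE, hf]
    have h2 : σ (E (j + 1)) = σ (F * E j * F⁻¹) := by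
      rw [map_mul, map_mul, map_inv, hF, hE, hE, hf]
    rw [comm_congr_of_ker_central σ hker h1 h2, comm_conj_of_central (hc i j)]
  have P2 : ∀ i j, ⁅E j, E i⁆ = ⁅E i, E j⁆⁻¹ := fun i j => (commutatorElement_inv _ _).symm
  have P3 : ∀ i j, ⁅E i, E (j + 3)⁆ = ⁅E i, E j⁆ * ⁅E i, E (j + 1)⁆ := by
    intro i j
    have h2 : σ (E (j + 3)) = σ (E j * E (j + 1)) := by rw [map_mul, hE, hE, hE, hrel]
    rw [comm_congr_of_ker_central σ hker rfl h2, comm_mul_right_of_central (hc i (j + 1))]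
  have P3' : ∀ i j, ⁅E (j + 3), E i⁆ = ⁅E j, E i⁆ * ⁅E (j + 1), E i⁆ := by
    intro i j
    have h2 : σ (E (j + 3)) = σ (E j * E (j + 1)) := by rw [map_mul, hE, hE, hE, hrel]
    rw [comm_congr_of_ker_central σ hker h2 rfl, comm_mul_left_of_central (hc (j + 1) i)]
  have P4 : ∀ i j, ⁅E (i + 7), E j⁆ = ⁅E i, E j⁆ := by
    intro i j
    exact comm_congr_of_ker_central σ hker (by rw [hE, hE, h7]) rfl
  have P4' : ∀ i j, ⁅E i, E (j + 7)⁆ = ⁅E i, E j⁆ := by
    intro i j
    exact comm_congr_of_ker_central σ hker rfl (by rw [hE, hE, h7])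
  have P5 : ∀ i, ⁅E i, E i⁆ = 1 := fun i => commutatorElement_self _
  have h47 : ⁅E 4, E 7⁆ = ⁅E 0, E 3⁆ := by
    rw [P1 3 6, P1 2 5, P1 1 4, P1 0 3]
  have h04 : ⁅E 0, E 4⁆ = ⁅E 0, E 3⁆⁻¹ := by
    rw [P2 4 0, ← P4' 4 0, h47]
  have h03 : ⁅E 0, E 3⁆ = ⁅E 0, E 1⁆ := by
    have := P3 0 0
    rwa [P5, one_mul] at this
  have h01 : ⁅E 0, E 1⁆ = 1 := by
    have h1 : ⁅E 0, E 1⁆ = ⁅E 4, E 1⁆ * ⁅E 5, E 1⁆ := by
      rw [← P4 0 1]
      exact P3' 1 4
    have h41 : ⁅E 4, E 1⁆ = ⁅E 0, E 3⁆⁻¹ := by rw [P2 1 4, P1 0 3]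
    have h51 : ⁅E 5, E 1⁆ = ⁅E 0, E 3⁆ := by rw [P2 1 5, P1 0 4, h04, inv_inv]
    rw [h41, h51, inv_mul_cancel] at h1
    exact h1
  have h03' : ⁅E 0, E 3⁆ = 1 := by rw [h03, h01]
  have h04' : ⁅E 0, E 4⁆ = 1 := by rw [h04, h03', inv_one]
  have h02 : ⁅E 0, E 2⁆ = 1 := by
    have := P3 0 1
    rwa [h04', h01, one_mul, eq_comm] at this
  have h05 : ⁅E 0, E 5⁆ = 1 := by
    have := P3 0 2
    rwa [h02, h03', one_mul] at this
  have h06 : ⁅E 0, E 6⁆ = 1 := by
    have := P3 0 3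
    rwa [h03', h04', one_mul] at this
  have h0 : ∀ j, ⁅E 0, E j⁆ = 1 := by
    intro j
    induction j using Nat.strong_induction_on with
    | _ j ih =>
      by_cases hj : j < 7
      · interval_cases j
        · exact P5 0
        · exact h01
        · exact h02
        · exact h03'
        · exact h04'
        · exact h05
        · exact h06
      · have hj' : j = (j - 7) + 7 := by omega
        rw [hj', P4']
        exact ih (j - 7) (by omega)
  have hadd : ∀ i j, ⁅E i, E (i + j)⁆ = 1 := by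
    intro i
    induction i with
    | zero => intro j; rw [zero_add]; exact h0 j
    | succ i ih =>
      intro j
      have : i + 1 + j = (i + j) + 1 := by omega
      rw [this, P1]
      exact ih j
  have hall : ∀ i j, ⁅E i, E j⁆ = 1 := by
    intro i j
    rcases Nat.le_total i j with h | h
    · have := hadd i (j - i)
      rwa [Nat.add_sub_cancel' h] at this
    · have := hadd j (i - j)
      rw [Nat.add_sub_cancel' h] at this
      rw [P2 j i, this, inv_one]
  intro x hx y hy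
  rw [Subgroup.mem_comap] at hx hy
  rcases hS _ hx with h1 | ⟨i, hi⟩
  · have : x ∈ Subgroup.center Γ := hker (MonoidHom.mem_ker.mpr h1)
    exact (Subgroup.mem_center_iff.mp this y).symm
  rcases hS _ hy with h1 | ⟨j, hj⟩
  · have : y ∈ Subgroup.center Γ := hker (MonoidHom.mem_ker.mpr h1)
    exact Subgroup.mem_center_iff.mp this x
  rw [← commutatorElement_eq_one_iff_mul_comm,
    comm_congr_of_ker_central σ hker (hi.trans (hE i).symm) (hj.trans (hE j).symm)]
  exact hall i j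

end Cfsg.Agent.Lib.Helper70
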