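import Mathlib
import Cfsg.Prelude.Def_KGroupFacts
import Cfsg.Agent.Lib.Helper70.SchurTwoE
import Cfsg.Agent.Lib.Helper70.TabLocal
import Cfsg.Agent.Lib.Helper37.J2MQ2
import Cfsg.Agent.Lib.Helper37.J2MTHREE
import Cfsg.Agent.Lib.Helper51.J2MHQ
import Cfsg.Agent.Lib.Helper75.J2MRED
import Cfsg.Agent.Lib.Helper73.J2MFIVE

/-! Assembly of the abstract criterion for "Schur multiplier of order 2" in the shape of `J2`
(helper70, fallback for the piece J2M-ASM of S2040). -/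

set_option autoImplicit false

open scoped commutatorElement

universe u v

namespace Cfsg.Agent.Lib.Helper70.J2MAsmB

open Cfsg.Agent.Lib.Helper70

theorem mult_two_of_data {G : Type u} [Group G] [Finite G] (hG : Nat.card G = 604800)
    (hex : ∃ (Γ : Type u) (_ : Group Γ) (_ : Finite Γ) (σ : Γ →* G), Cfsg.IsStemExtension σ ∧
      Nonempty (σ.ker ≃* Multiplicative (ZMod 2)))
    (a3 b3 t3 : G) (ha3 : a3 * a3 * a3 = 1) (hb3 : b3 * b3 * b3 = 1)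
    (hca3 : ⁅a3, b3⁆ * a3 = a3 * ⁅a3, b3⁆) (hcb3 : ⁅a3, b3⁆ * b3 = b3 * ⁅a3, b3⁆)
    (hc13 : ⁅a3, b3⁆ ≠ 1) (hta3 : t3 * a3 * t3⁻¹ = a3⁻¹) (htb3 : t3 * b3 * t3⁻¹ = b3⁻¹)
    (a5 b5 t5 : G) (ha5 : a5 ^ 5 = 1) (hb5 : b5 ^ 5 = 1) (ha51 : a5 ≠ 1) (hb51 : b5 ≠ 1)
    (hab5 : a5 * b5 = b5 * a5) (hta5 : t5 * a5 * t5⁻¹ = a5) (htb5 : t5 * b5 * t5⁻¹ = b5⁻¹)
    (e : Fin 16 → G) (c x : G) (γ ρ τ : Fin 16 → Fin 16) (ν : Fin 16 → Fin 16 → Fin 16)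
    (p q : Fin 16)
    (he1 : ∀ i, e i = 1 → i = 0)
    (hmul : ∀ i j, e i * e j = e (i ^^^ j))
    (hc3 : c * c * c = 1)
    (hc : ∀ i, c * e i * c⁻¹ = e (γ i))
    (hfpf : ∀ i, i ^^^ γ i ^^^ γ (γ i) = 0)
    (hx2 : ∀ i, (x * x) * e i * (x * x)⁻¹ = e (ρ i))
    (hν : ∀ j i, (x * e j * x⁻¹) * e i * (x * e j * x⁻¹)⁻¹ = e (ν j i))
    (hxx : x * x = e p * (x * e q * x⁻¹))
    (hτ : ∀ j, c * (x * e j * x⁻¹) * c⁻¹ * (x * e j * x⁻¹)⁻¹ = e (τ j))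
    (hZ : ∀ i, (∃ j, ν j i ≠ i) ∨ (∃ k l, i = k ^^^ ν l k))
    (hZc : (Finset.univ.filter (fun i : Fin 16 => ∀ j, ν j i = i)).card ≤ 4)
    (i₀ i₁ : Fin 16)
    (h4a : ∃ k : G, e i₁ = k * e i₀ * k⁻¹) (h4b : ∃ k : G, e (i₀ ^^^ i₁) = k * e i₀ * k⁻¹)
    (hcls : ∀ i : Fin 16, i = 0 ∨ (∃ k : G, e i = k * e i₀ * k⁻¹) ∨
      ∃ i1 i2 i3 : Fin 16, i = i1 ^^^ i2 ^^^ i3 ∧ (∃ k : G, e i1 = k * e i₀ * k⁻¹) ∧
        (∃ k : G, e i2 = k * e i₀ * k⁻¹) ∧ (∃ k : G, e i3 = k * e i₀ * k⁻¹) ∧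
        (∃ k : G, e (i1 ^^^ i2) = k * e i₀ * k⁻¹) ∧ (∃ k : G, e (i1 ^^^ i3) = k * e i₀ * k⁻¹) ∧
        (∃ k : G, e (i2 ^^^ i3) = k * e i₀ * k⁻¹)) :
    Cfsg.HasCyclicSchurMultiplier G 2 := by
  have he00 : e 0 = 1 := by
    have h := hmul 0 0
    have h0 : (0 : Fin 16) ^^^ 0 = 0 := by decide
    rw [h0] at h
    exact mul_left_cancel (a := e 0) (by rw [h, mul_one])
  have hxs : ∀ i : Fin 16, i ^^^ i = 0 := by decide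
  have hxc : ∀ i j : Fin 16, i ^^^ j = j ^^^ i := by decide
  have ha₀ : e i₀ * e i₀ = 1 := by
    rw [hmul, hxs i₀, he00]
  refine hasCyclicSchurMultiplier_two_of_local hex ?_ (e i₀) ha₀ ?_ ?_
  · intro Γ _ _ σ hσ ℓ hℓ hne _
    haveI : Fact ℓ.Prime := ⟨hℓ⟩
    by_cases h3 : ℓ = 3
    · subst h3
      exact Cfsg.Agent.Lib.Helper37.J2MTHREE.three_local σ hσ.1 hσ.2.1
        (by rw [hG]; norm_num) a3 b3 t3 ha3 hb3 hca3 hcb3 hc13 hta3 htb3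
    by_cases h5 : ℓ = 5
    · subst h5
      exact Cfsg.Agent.Lib.Helper73.J2MFIVE.five_local σ hσ.1 hσ.2.1
        (by rw [hG]; norm_num) a5 b5 t5 ha5 hb5 ha51 hb51 hab5 hta5 htb5
    refine local_of_sq_not_dvd ℓ ?_ σ hσ.2.1
    rw [hG]
    intro hd
    have hp : ℓ ∣ 604800 := dvd_trans (dvd_pow_self ℓ (by norm_num)) hd
    have h604 : (604800 : ℕ) = 2 ^ 7 * 3 ^ 3 * 5 ^ 2 * 7 := by norm_num
    rw [h604] at hp
    have h7 : ℓ = 7 := by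
      rcases (Nat.Prime.dvd_mul hℓ).mp hp with hp | hp
      · rcases (Nat.Prime.dvd_mul hℓ).mp hp with hp | hp
        · rcases (Nat.Prime.dvd_mul hℓ).mp hp with hp | hp
          · exact absurd ((Nat.prime_dvd_prime_iff_eq hℓ Nat.prime_two).mp (hℓ.dvd_of_dvd_pow hp)) hne
          · exact absurd ((Nat.prime_dvd_prime_iff_eq hℓ Nat.prime_three).mp (hℓ.dvd_of_dvd_pow hp)) h3
        · exact absurd ((Nat.prime_dvd_prime_iff_eq hℓ Nat.prime_five).mp (hℓ.dvd_of_dvd_pow hp)) h5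
      · exact (Nat.prime_dvd_prime_iff_eq hℓ (by norm_num)).mp hp
    subst h7
    norm_num at hd
  · refine Cfsg.Agent.Lib.Helper75.J2MRED.htwo_of_no_ker_two (e i₀) ha₀ ?_
    intro Γ _ _ σ z hσ hz1 hzz hker hq0
    have h2 : ∀ ζ ∈ σ.ker, ζ * ζ = 1 := by
      intro ζ hζ
      rcases (hker ζ).mp hζ with h | h
      · rw [h, one_mul]
      · rw [h, hzz]
    have hq := Cfsg.Agent.Lib.Helper51.J2MHQ.hq_of_classes σ hσ.1 hσ.2.1 h2 (e i₀) ha₀ hq0 e hmul hcls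
    exact Cfsg.Agent.Lib.Helper37.J2MQ2.two_aux_q σ hσ z hz1 hzz hker (3 ^ 3 * 5 ^ 2 * 7)
      (by rw [hG]; norm_num) (by norm_num) e c x γ ρ τ ν p q he1 hmul hc3 hc hfpf hx2 hν hxx hτ hZ hZc hq
  · intro Γ _ _ σ hσ hexp
    refine exp_two_of_four_group (e i₀) (e i₀) (e i₁) ha₀ ?_ ⟨1, by simp⟩ h4a ?_ ?_ σ hσ hexp
    · rw [hmul, hmul, hxc]
    · rw [hmul]; exact h4b
    · exact Cfsg.Agent.Lib.Helper75.J2MRED.htwo_of_no_ker_two (e i₀) ha₀ (by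
        intro Γ _ _ σ z hσ hz1 hzz hker hq0
        have h2 : ∀ ζ ∈ σ.ker, ζ * ζ = 1 := by
          intro ζ hζ
          rcases (hker ζ).mp hζ with h | h
          · rw [h, one_mul]
          · rw [h, hzz]
        have hq := Cfsg.Agent.Lib.Helper51.J2MHQ.hq_of_classes σ hσ.1 hσ.2.1 h2 (e i₀) ha₀ hq0 e hmul hcls
        exact Cfsg.Agent.Lib.Helper37.J2MQ2.two_aux_q σ hσ z hz1 hzz hker (3 ^ 3 * 5 ^ 2 * 7)
          (by rw [hG]; norm_num) (by norm_num) e c x γ ρ τ ν p q he1 hmul hc3 hc hfpf hx2 hν hxx hτ hZ hZc hq)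

end Cfsg.Agent.Lib.Helper70.J2MAsmB
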