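import Cfsg.Agent.Lib.Helper7.J2Perm
import Cfsg.Agent.Lib.Helper70.J2MData

/-! Kernel checks for the S2040 tables (helper70): all checks are `Bool`-valued and evaluated by the
kernel on helper7's 9-bit packed tables. -/

set_option autoImplicit false
set_option maxRecDepth 1000000

namespace Cfsg.Agent.Lib.Helper70.J2M

open Equiv Cfsg.Agent.Lib.Helper7.Sims Cfsg.Agent.Lib.Helper7.J2P

/-- The `i`-th table of `E₁`. -/
def eT (i : ℕ) : ℕ := eL.getD i 0

/-- Equality of two chains of tables on `[0, 315)`. -/
def chEq (L1 L2 : List ℕ) : Bool :=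
  allLt (fun i => Nat.beq (evalChain ap9 L1 i) (evalChain ap9 L2 i)) 315

/-- The table sifts through helper7's stabiliser chain. -/
def inP (T : ℕ) : Bool := siftB ap9 315 (ap9 T) (bu Lvs) (fun x => x)

/-- The chain moves the point `k`. -/
def mvs (L : List ℕ) (k : ℕ) : Bool := !Nat.beq (evalChain ap9 L k) k

theorem chk_invE : allLt (fun i => invChk ap9 315 (eT i) (eT i)) 16 = true := by decide +kernel
theorem chk_inE : allLt (fun i => inP (eT i)) 16 = true := by decide +kernel
theorem chk_invC : invChk ap9 315 cT cI = true := by decide +kernel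
theorem chk_inC : inP cT = true := by decide +kernel
theorem chk_invX : invChk ap9 315 xT xT = true := by decide +kernel
theorem chk_inX : inP xT = true := by decide +kernel
theorem chk_invA3 : invChk ap9 315 a3T a3I = true := by decide +kernel
theorem chk_inA3 : inP a3T = true := by decide +kernel
theorem chk_invB3 : invChk ap9 315 b3T b3I = true := by decide +kernel
theorem chk_inB3 : inP b3T = true := by decide +kernel
theorem chk_invT : invChk ap9 315 tT tT = true := by decide +kernel
theorem chk_inT : inP tT = true := by decide +kernel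
theorem chk_invA5 : invChk ap9 315 a5T a5I = true := by decide +kernel
theorem chk_inA5 : inP a5T = true := by decide +kernel
theorem chk_invB5 : invChk ap9 315 b5T b5I = true := by decide +kernel
theorem chk_inB5 : inP b5T = true := by decide +kernel

theorem chk_e1 : allLt (fun i => Nat.beq i 0 || mvs [eT i] (if Nat.beq i 1 then 3 else 1)) 16 = true := by
  decide +kernel

theorem chk_mul : allLt (fun i => allLt (fun j =>
    chEq [eT i, eT j] [eT (Nat.xor i j % 16)]) 16) 16 = true := by decide +kernel

theorem chk_c3 : chEq [cT, cT, cT] [] = true := by decide +kernel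

theorem chk_c : allLt (fun i => chEq [cT, eT i, cI] [eT (gL.getD i 0 % 16)]) 16 = true := by
  decide +kernel

theorem chk_x2 : allLt (fun i => chEq [xT, xT, eT i, xT, xT] [eT (rL.getD i 0 % 16)]) 16 = true := by
  decide +kernel

theorem chk_nu : allLt (fun j => allLt (fun i =>
    chEq [xT, eT j, xT, eT i, xT, eT j, xT] [eT (nL.getD (16 * j + i) 0 % 16)]) 16) 16 = true := by
  decide +kernel

theorem chk_xx : chEq [xT, xT] [eT 0, xT, eT 0, xT] = true := by decide +kernel

theorem chk_tau : allLt (fun j =>
    chEq [cT, xT, eT j, xT, cI, xT, eT j, xT] [eT (tL.getD j 0 % 16)]) 16 = true := by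
  decide +kernel

theorem chk_a3 : chEq [a3T, a3T, a3T] [] = true := by decide +kernel
theorem chk_b3 : chEq [b3T, b3T, b3T] [] = true := by decide +kernel
theorem chk_ca3 : chEq [a3T, b3T, a3I, b3I, a3T] [a3T, a3T, b3T, a3I, b3I] = true := by decide +kernel
theorem chk_cb3 : chEq [a3T, b3T, a3I, b3I, b3T] [b3T, a3T, b3T, a3I, b3I] = true := by decide +kernel
theorem chk_c13 : mvs [a3T, b3T, a3I, b3I] 4 = true := by decide +kernel
theorem chk_ta3 : chEq [tT, a3T, tT] [a3I] = true := by decide +kernel
theorem chk_tb3 : chEq [tT, b3T, tT] [b3I] = true := by decide +kernel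

theorem chk_a5 : chEq [a5T, a5T, a5T, a5T, a5T] [] = true := by decide +kernel
theorem chk_b5 : chEq [b5T, b5T, b5T, b5T, b5T] [] = true := by decide +kernel
theorem chk_a51 : mvs [a5T] 1 = true := by decide +kernel
theorem chk_b51 : mvs [b5T] 0 = true := by decide +kernel
theorem chk_ab5 : chEq [a5T, b5T] [b5T, a5T] = true := by decide +kernel
theorem chk_ta5 : chEq [tT, a5T, tT] [a5T] = true := by decide +kernel
theorem chk_tb5 : chEq [tT, b5T, tT] [b5I] = true := by decide +kernel

end Cfsg.Agent.Lib.Helper70.J2M
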