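import Cfsg.Agent.Lib.Helper70.J2MChk

/-! The S2040 tables as elements of helper7's group `P` and their relations (helper70). -/

set_option autoImplicit false
set_option maxRecDepth 100000

open scoped commutatorElement

namespace Cfsg.Agent.Lib.Helper70.J2M

open Equiv Cfsg.Agent.Lib.Helper7.Sims Cfsg.Agent.Lib.Helper7.J2P

theorem evalChain_append (L1 L2 : List ℕ) (x : ℕ) :
    evalChain ap9 (L1 ++ L2) x = evalChain ap9 L1 (evalChain ap9 L2 x) := by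
  induction L1 with
  | nil => rfl
  | cons T Ts ih => show ap9 T (evalChain ap9 (Ts ++ L2) x) = ap9 T _; rw [ih]

/-- The element `g` of `P` acts as the chain of tables `L`. -/
def Acts (g : ↥P) (L : List ℕ) : Prop := ActsAs (g : Perm (Fin 315)) (evalChain ap9 L)

theorem Acts.mul {g h : ↥P} {L1 L2 : List ℕ} (hg : Acts g L1) (hh : Acts h L2) :
    Acts (g * h) (L1 ++ L2) := by
  intro i
  have := ActsAs.mul hg hh i
  rw [evalChain_append]
  exact this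

theorem Acts.one : Acts 1 [] := fun _ => rfl

theorem eq_of_acts {g h : ↥P} {L1 L2 : List ℕ} (hg : Acts g L1) (hh : Acts h L2)
    (hc : chEq L1 L2 = true) : g = h :=
  Subtype.ext (ActsAs.ext' hg hh (fun i hi => (nbeq_iff _ _).1 ((allLt_iff _ 315).1 hc i hi)))

theorem ne_one_of_acts {g : ↥P} {L : List ℕ} (hg : Acts g L) (k : ℕ) (hk : k < 315)
    (h : mvs L k = true) : g ≠ 1 := by
  intro h1
  have h2 := hg ⟨k, hk⟩
  rw [h1] at h2
  have h3 : evalChain ap9 L k = k := h2.symm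
  unfold mvs at h
  rw [h3, Nat.beq_refl] at h
  exact Bool.noConfusion h

theorem mem_P_of_inP {t : Perm (Fin 315)} {T : ℕ} (ht : ActsAs t (ap9 T)) (h : inP T = true) :
    t ∈ P := by
  rw [P_eq, ← hgen.2]
  exact mem_of_sift lvOK hS1 ht h

/-- The element of `P` given by mutually inverse tables. -/
def mkP (T T' : ℕ) (h : invChk ap9 315 T T' = true) (hm : inP T = true) : ↥P :=
  ⟨permOf ap9 315 T T' h, mem_P_of_inP (permOf_actsAs h) hm⟩

theorem mkP_acts (T T' : ℕ) (h : invChk ap9 315 T T' = true) (hm : inP T = true) :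
    Acts (mkP T T' h hm) [T] := fun _ => rfl

theorem mkP_inv_acts (T T' : ℕ) (h : invChk ap9 315 T T' = true) (hm : inP T = true) :
    Acts (mkP T T' h hm)⁻¹ [T'] := fun _ => rfl

theorem invE (i : Fin 16) : invChk ap9 315 (eT i.1) (eT i.1) = true :=
  (allLt_iff _ 16).1 chk_invE i.1 i.2

theorem inE (i : Fin 16) : inP (eT i.1) = true := (allLt_iff _ 16).1 chk_inE i.1 i.2

/-- The elements of `E₁`. -/
def e (i : Fin 16) : ↥P := mkP (eT i.1) (eT i.1) (invE i) (inE i)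
def c : ↥P := mkP cT cI chk_invC chk_inC
def x : ↥P := mkP xT xT chk_invX chk_inX
def a3 : ↥P := mkP a3T a3I chk_invA3 chk_inA3
def b3 : ↥P := mkP b3T b3I chk_invB3 chk_inB3
def t : ↥P := mkP tT tT chk_invT chk_inT
def a5 : ↥P := mkP a5T a5I chk_invA5 chk_inA5
def b5 : ↥P := mkP b5T b5I chk_invB5 chk_inB5

def γ (i : Fin 16) : Fin 16 := Fin.ofNat 16 (gL.getD i.1 0)
def ρ (i : Fin 16) : Fin 16 := Fin.ofNat 16 (rL.getD i.1 0)
def τ (i : Fin 16) : Fin 16 := Fin.ofNat 16 (tL.getD i.1 0)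
def ν (j i : Fin 16) : Fin 16 := Fin.ofNat 16 (nL.getD (16 * j.1 + i.1) 0)

theorem e_acts (i : Fin 16) : Acts (e i) [eT i.1] := mkP_acts _ _ _ _
theorem e_inv_acts (i : Fin 16) : Acts (e i)⁻¹ [eT i.1] := mkP_inv_acts _ _ _ _
theorem c_acts : Acts c [cT] := mkP_acts _ _ _ _
theorem c_inv_acts : Acts c⁻¹ [cI] := mkP_inv_acts _ _ _ _
theorem x_acts : Acts x [xT] := mkP_acts _ _ _ _
theorem x_inv_acts : Acts x⁻¹ [xT] := mkP_inv_acts _ _ _ _
theorem a3_acts : Acts a3 [a3T] := mkP_acts _ _ _ _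
theorem a3_inv_acts : Acts a3⁻¹ [a3I] := mkP_inv_acts _ _ _ _
theorem b3_acts : Acts b3 [b3T] := mkP_acts _ _ _ _
theorem b3_inv_acts : Acts b3⁻¹ [b3I] := mkP_inv_acts _ _ _ _
theorem t_acts : Acts t [tT] := mkP_acts _ _ _ _
theorem t_inv_acts : Acts t⁻¹ [tT] := mkP_inv_acts _ _ _ _
theorem a5_acts : Acts a5 [a5T] := mkP_acts _ _ _ _
theorem a5_inv_acts : Acts a5⁻¹ [a5I] := mkP_inv_acts _ _ _ _
theorem b5_acts : Acts b5 [b5T] := mkP_acts _ _ _ _
theorem b5_inv_acts : Acts b5⁻¹ [b5I] := mkP_inv_acts _ _ _ _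

theorem he1 : ∀ i, e i = 1 → i = 0 := by
  intro i hi
  by_contra h0
  have h := (allLt_iff _ 16).1 chk_e1 i.1 i.2
  have hne : Nat.beq i.1 0 = false := by
    cases hb : Nat.beq i.1 0
    · rfl
    · exact absurd (Fin.ext ((nbeq_iff _ _).1 hb)) h0
  rw [hne, Bool.false_or] at h
  refine ne_one_of_acts (e_acts i) _ ?_ h hi
  split <;> norm_num

theorem hmul : ∀ i j, e i * e j = e (i ^^^ j) := by
  intro i j
  have h := (allLt_iff _ 16).1 ((allLt_iff _ 16).1 chk_mul i.1 i.2) j.1 j.2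
  exact eq_of_acts ((e_acts i).mul (e_acts j)) (e_acts (i ^^^ j)) h

theorem e_inv (i : Fin 16) : (e i)⁻¹ = e i := by
  have h := hmul i i
  have h0 : i ^^^ i = 0 := by revert i; decide
  rw [h0] at h
  have h1 : e 0 = 1 := by
    have := hmul 0 0
    have h00 : (0 : Fin 16) ^^^ 0 = 0 := by decide
    rw [h00] at this
    exact mul_eq_left.mp this
  rw [h1] at h
  exact inv_eq_of_mul_eq_one_right h

theorem hc3 : c * c * c = 1 :=
  eq_of_acts ((c_acts.mul c_acts).mul c_acts) Acts.one chk_c3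

theorem hc : ∀ i, c * e i * c⁻¹ = e (γ i) := by
  intro i
  have h := (allLt_iff _ 16).1 chk_c i.1 i.2
  exact eq_of_acts ((c_acts.mul (e_acts i)).mul c_inv_acts) (e_acts (γ i)) h

theorem hfpf : ∀ i, i ^^^ γ i ^^^ γ (γ i) = 0 := by decide

theorem chk_xsq : chEq [xT, xT] [] = true := by decide +kernel

theorem x_sq : x * x = 1 := eq_of_acts (x_acts.mul x_acts) Acts.one chk_xsq

theorem x_inv : x⁻¹ = x := inv_eq_of_mul_eq_one_right x_sq

theorem hx2 : ∀ i, (x * x) * e i * (x * x)⁻¹ = e (ρ i) := by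
  intro i
  have h := (allLt_iff _ 16).1 chk_x2 i.1 i.2
  have key : x * x * e i * x * x = e (ρ i) :=
    eq_of_acts ((((x_acts.mul x_acts).mul (e_acts i)).mul x_acts).mul x_acts) (e_acts (ρ i)) h
  rw [mul_inv_rev, x_inv, ← mul_assoc]
  exact key

theorem conj_inv (j : Fin 16) : (x * e j * x⁻¹)⁻¹ = x * e j * x := by
  rw [mul_inv_rev, mul_inv_rev, inv_inv, e_inv, x_inv, mul_assoc]

theorem hν : ∀ j i, (x * e j * x⁻¹) * e i * (x * e j * x⁻¹)⁻¹ = e (ν j i) := by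
  intro j i
  have h := (allLt_iff _ 16).1 ((allLt_iff _ 16).1 chk_nu j.1 j.2) i.1 i.2
  have key : x * e j * x * e i * x * e j * x = e (ν j i) :=
    eq_of_acts ((((((x_acts.mul (e_acts j)).mul x_acts).mul (e_acts i)).mul x_acts).mul
      (e_acts j)).mul x_acts) (e_acts (ν j i)) h
  rw [conj_inv, x_inv]
  simp only [← mul_assoc]
  exact key

theorem hxx : x * x = e 0 * (x * e 0 * x⁻¹) := by
  have key : x * x = e 0 * x * e 0 * x :=
    eq_of_acts (x_acts.mul x_acts) ((((e_acts 0).mul x_acts).mul (e_acts 0)).mul x_acts) chk_xx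
  rw [x_inv]
  simp only [← mul_assoc]
  exact key

theorem hτ : ∀ j, c * (x * e j * x⁻¹) * c⁻¹ * (x * e j * x⁻¹)⁻¹ = e (τ j) := by
  intro j
  have h := (allLt_iff _ 16).1 chk_tau j.1 j.2
  have key : c * x * e j * x * c⁻¹ * x * e j * x = e (τ j) :=
    eq_of_acts (((((((c_acts.mul x_acts).mul (e_acts j)).mul x_acts).mul c_inv_acts).mul
      x_acts).mul (e_acts j)).mul x_acts) (e_acts (τ j)) h
  rw [conj_inv, x_inv]
  simp only [← mul_assoc]
  exact key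

theorem hZ : ∀ i, (∃ j, ν j i ≠ i) ∨ (∃ k l, i = k ^^^ ν l k) := by decide

theorem hZc : (Finset.univ.filter (fun i : Fin 16 => ∀ j, ν j i = i)).card ≤ 4 := by decide

/-! ### The prime 3 -/

theorem ha3 : a3 * a3 * a3 = 1 :=
  eq_of_acts ((a3_acts.mul a3_acts).mul a3_acts) Acts.one chk_a3

theorem hb3 : b3 * b3 * b3 = 1 :=
  eq_of_acts ((b3_acts.mul b3_acts).mul b3_acts) Acts.one chk_b3

theorem comm3_acts : Acts ⁅a3, b3⁆ [a3T, b3T, a3I, b3I] :=
  ((a3_acts.mul b3_acts).mul a3_inv_acts).mul b3_inv_acts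

theorem hca3 : ⁅a3, b3⁆ * a3 = a3 * ⁅a3, b3⁆ :=
  eq_of_acts (comm3_acts.mul a3_acts) (a3_acts.mul comm3_acts) chk_ca3

theorem hcb3 : ⁅a3, b3⁆ * b3 = b3 * ⁅a3, b3⁆ :=
  eq_of_acts (comm3_acts.mul b3_acts) (b3_acts.mul comm3_acts) chk_cb3

theorem hc13 : ⁅a3, b3⁆ ≠ 1 := ne_one_of_acts comm3_acts 4 (by norm_num) chk_c13

theorem hta3 : t * a3 * t⁻¹ = a3⁻¹ :=
  eq_of_acts ((t_acts.mul a3_acts).mul t_inv_acts) a3_inv_acts chk_ta3

theorem htb3 : t * b3 * t⁻¹ = b3⁻¹ :=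
  eq_of_acts ((t_acts.mul b3_acts).mul t_inv_acts) b3_inv_acts chk_tb3

/-! ### The prime 5 -/

theorem ha5 : a5 ^ 5 = 1 := by
  have h : a5 * a5 * a5 * a5 * a5 = 1 :=
    eq_of_acts ((((a5_acts.mul a5_acts).mul a5_acts).mul a5_acts).mul a5_acts) Acts.one chk_a5
  rw [← h]; simp only [pow_succ, pow_zero, one_mul]

theorem hb5 : b5 ^ 5 = 1 := by
  have h : b5 * b5 * b5 * b5 * b5 = 1 :=
    eq_of_acts ((((b5_acts.mul b5_acts).mul b5_acts).mul b5_acts).mul b5_acts) Acts.one chk_b5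
  rw [← h]; simp only [pow_succ, pow_zero, one_mul]

theorem ha51 : a5 ≠ 1 := ne_one_of_acts a5_acts 1 (by norm_num) chk_a51

theorem hb51 : b5 ≠ 1 := ne_one_of_acts b5_acts 0 (by norm_num) chk_b51

theorem hab5 : a5 * b5 = b5 * a5 :=
  eq_of_acts (a5_acts.mul b5_acts) (b5_acts.mul a5_acts) chk_ab5

theorem hta5 : t * a5 * t⁻¹ = a5 :=
  eq_of_acts ((t_acts.mul a5_acts).mul t_inv_acts) a5_acts chk_ta5

theorem htb5 : t * b5 * t⁻¹ = b5⁻¹ :=
  eq_of_acts ((t_acts.mul b5_acts).mul t_inv_acts) b5_inv_acts chk_tb5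

/-! ### Conjugacy inside `E₁` -/

/-- `e i` is conjugate to `e 4`. -/
def R (i : Fin 16) : Prop := ∃ k : ↥P, e i = k * e 4 * k⁻¹

theorem R_g {i : Fin 16} (h : R i) : R (γ i) := by
  obtain ⟨k, hk⟩ := h
  refine ⟨c * k, ?_⟩
  rw [← hc, hk]; group

theorem R_n (j : Fin 16) {i : Fin 16} (h : R i) : R (ν j i) := by
  obtain ⟨k, hk⟩ := h
  refine ⟨(x * e j * x⁻¹) * k, ?_⟩
  rw [← hν, hk]; group

theorem R4 : R 4 := ⟨1, by group⟩
theorem R9 : R 9 := R_g R4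
theorem R5 : R 5 := R_n 4 R4
theorem R6 : R 6 := R_n 8 R4
theorem R7 : R 7 := R_n 12 R4
theorem R13 : R 13 := R_g R9
theorem R10 : R 10 := R_n 4 R9
theorem R8 : R 8 := R_n 8 R9
theorem R11 : R 11 := R_n 12 R9
theorem R15 : R 15 := R_n 4 R13
theorem R14 : R 14 := R_n 8 R13
theorem R12 : R 12 := R_n 12 R13

theorem hcls : ∀ i : Fin 16, i = 0 ∨ (∃ k : ↥P, e i = k * e 4 * k⁻¹) ∨
    ∃ i1 i2 i3 : Fin 16, i = i1 ^^^ i2 ^^^ i3 ∧ (∃ k : ↥P, e i1 = k * e 4 * k⁻¹) ∧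
      (∃ k : ↥P, e i2 = k * e 4 * k⁻¹) ∧ (∃ k : ↥P, e i3 = k * e 4 * k⁻¹) ∧
      (∃ k : ↥P, e (i1 ^^^ i2) = k * e 4 * k⁻¹) ∧ (∃ k : ↥P, e (i1 ^^^ i3) = k * e 4 * k⁻¹) ∧
      (∃ k : ↥P, e (i2 ^^^ i3) = k * e 4 * k⁻¹) := by
  intro i
  fin_cases i
  · left; rfl
  · right; right; exact ⟨4, 8, 13, by decide, R4, R8, R13, R12, R9, R5⟩
  · right; right; exact ⟨4, 8, 14, by decide, R4, R8, R14, R12, R10, R6⟩
  · right; right; exact ⟨4, 8, 15, by decide, R4, R8, R15, R12, R11, R7⟩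
  · right; left; exact R4
  · right; left; exact R5
  · right; left; exact R6
  · right; left; exact R7
  · right; left; exact R8
  · right; left; exact R9
  · right; left; exact R10
  · right; left; exact R11
  · right; left; exact R12
  · right; left; exact R13
  · right; left; exact R14
  · right; left; exact R15

end Cfsg.Agent.Lib.Helper70.J2M
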