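import Cfsg.Agent.Lib.Helper70.J2MFin
import Cfsg.Agent.Lib.Helper70.J2MAsmB
import Cfsg.Agent.Lib.Helper61.J2MSTEM

/-! The Schur multiplier of helper7's permutation group `P` (the Hall–Janko group on 315 points) is
cyclic of order 2 (helper70, for S2040). -/

set_option autoImplicit false

namespace Cfsg.Agent.Lib.Helper70.J2M

open Cfsg.Agent.Lib.Helper7.J2P
open Cfsg.Agent.Lib.Helper70.J2MAsmB (mult_two_of_data)
open Cfsg.Agent.Lib.Helper61.J2MSTEM (exists_j2_cover)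

theorem j2P_mult : Cfsg.HasCyclicSchurMultiplier ↥P 2 := by
  haveI : Finite ↥P := Nat.finite_of_card_ne_zero (by rw [card_P]; norm_num)
  exact mult_two_of_data card_P exists_j2_cover a3 b3 t ha3 hb3 hca3 hcb3 hc13 hta3 htb3
    a5 b5 t ha5 hb5 ha51 hb51 hab5 hta5 htb5 e c x γ ρ τ ν 0 0 he1 hmul hc3 hc hfpf hx2 hν hxx hτ
    hZ hZc 4 8 R8 R12 hcls

end Cfsg.Agent.Lib.Helper70.J2M
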