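import Mathlib
import Cfsg.Agent.Lib.Helper21.DCovModel
import Cfsg.Agent.Lib.Helper89.TabMathieu
import Cfsg.Agent.Lib.Helper95.TabGroup
import Cfsg.Agent.Lib.Helper96.M12Out

set_option autoImplicit false

/-!
# A double cover of the Mathieu group `M₁₂` (helper70)

`M₁₂` (the stabiliser of the dodecad of squares) acts on the twelve points of its dodecad (`rho`), by
even permutations (`sign_rho`).  The pullback of the double cover of the alternating group of degree 12
(helper21, `CliffData.grp`) along `rho` is a stem extension of `M₁₂` with kernel of order 2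
(`m12Cover_stem`, `card_ker_m12CoverProj`): a four-group of `M₁₂` acting without fixed points on the dodecad has lifts
which do not commute.
-/

namespace Cfsg.Agent.Lib.Helper70

open Cfsg Cfsg.Agent.Lib.Helper9 Cfsg.Agent.Lib.Helper95 Cfsg.Agent.Lib.Helper89
open Cfsg.Agent.Lib.Helper21 Cfsg.Agent.Lib.Helper96

open scoped Pointwise commutatorElement

/-! ### The action on the dodecad -/

/-- The indices of the twelve points of the dodecad of squares. -/
def dodL : List ℕ := [0, 1, 2, 3, 4, 6, 8, 9, 12, 13, 16, 18]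

/-- The position of a point in `dodL` (0 for the other points). -/
def dodI : List ℕ := [0, 1, 2, 3, 4, 0, 5, 0, 6, 7, 0, 0, 8, 9, 0, 0, 10, 0, 11, 0, 0, 0, 0, 0]

/-- The `i`-th point of the dodecad. -/
def dodPt (i : Fin 12) : GolayPt := pt (dodL.getD i.val 0)

/-- The position of a point of the dodecad. -/
def dodIdx (p : GolayPt) : Fin 12 := ⟨dodI.getD (idx p) 0 % 12, Nat.mod_lt _ (by norm_num)⟩

theorem dodL_lt : ∀ i : Fin 12, dodL.getD i.val 0 < 24 := by decide

theorem dodIdx_dodPt (i : Fin 12) : dodIdx (dodPt i) = i := by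
  apply Fin.ext
  show dodI.getD (idx (pt (dodL.getD i.val 0))) 0 % 12 = i.val
  rw [idx_pt (dodL_lt i)]
  revert i
  decide

theorem mem_dod_iff (p : GolayPt) :
    p ∈ Spor.squareDodecad ↔ (340831 : ℕ).testBit (idx p) = true := by
  rw [squareDodecad_eq, mem_support₂_dec]

theorem dodPt_mem (i : Fin 12) : dodPt i ∈ Spor.squareDodecad := by
  rw [mem_dod_iff]
  unfold dodPt
  rw [idx_pt (dodL_lt i)]
  revert i
  decide

theorem dodPt_dodIdx {p : GolayPt} (hp : p ∈ Spor.squareDodecad) : dodPt (dodIdx p) = p := by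
  rw [mem_dod_iff] at hp
  have key : ∀ n, n < 24 → (340831 : ℕ).testBit n = true →
      dodL.getD (dodI.getD n 0 % 12) 0 = n := by decide
  show pt (dodL.getD (dodI.getD (idx p) 0 % 12) 0) = p
  rw [key (idx p) (idx_lt p) hp, pt_idx]

theorem apply_mem_dod {g : Equiv.Perm GolayPt} (hg : g ∈ Spor.M12) {p : GolayPt}
    (hp : p ∈ Spor.squareDodecad) : g p ∈ Spor.squareDodecad := by
  have h1 : g • Spor.squareDodecad = Spor.squareDodecad := hg.2
  have h2 : g • p ∈ g • Spor.squareDodecad := Finset.smul_mem_smul_finset hp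
  rw [h1] at h2
  exact h2

/-- The permutation of the twelve points of the dodecad induced by an element of `M₁₂`. -/
def rhoPerm (g : Spor.M12) : Equiv.Perm (Fin 12) where
  toFun i := dodIdx ((g : Equiv.Perm GolayPt) (dodPt i))
  invFun i := dodIdx ((g : Equiv.Perm GolayPt)⁻¹ (dodPt i))
  left_inv i := by
    show dodIdx ((g : Equiv.Perm GolayPt)⁻¹
      (dodPt (dodIdx ((g : Equiv.Perm GolayPt) (dodPt i))))) = i
    rw [dodPt_dodIdx (apply_mem_dod g.2 (dodPt_mem i)), Equiv.Perm.inv_def, Equiv.symm_apply_apply, dodIdx_dodPt]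
  right_inv i := by
    show dodIdx ((g : Equiv.Perm GolayPt)
      (dodPt (dodIdx ((g : Equiv.Perm GolayPt)⁻¹ (dodPt i))))) = i
    rw [dodPt_dodIdx (apply_mem_dod (inv_mem g.2) (dodPt_mem i)), Equiv.Perm.inv_def,
      Equiv.apply_symm_apply, dodIdx_dodPt]

/-- The action of `M₁₂` on the twelve points of its dodecad. -/
def rho : Spor.M12 →* Equiv.Perm (Fin 12) where
  toFun := rhoPerm
  map_one' := by
    refine Equiv.ext fun i => ?_
    show dodIdx (dodPt i) = i
    exact dodIdx_dodPt i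
  map_mul' g h := by
    refine Equiv.ext fun i => ?_
    show dodIdx ((g : Equiv.Perm GolayPt) ((h : Equiv.Perm GolayPt) (dodPt i))) =
      dodIdx ((g : Equiv.Perm GolayPt) (dodPt (dodIdx ((h : Equiv.Perm GolayPt) (dodPt i)))))
    rw [dodPt_dodIdx (apply_mem_dod h.2 (dodPt_mem i))]

/-- The action on the dodecad, on tables. -/
def rhoT (T : List ℕ) (i : Fin 12) : Fin 12 :=
  ⟨dodI.getD (T.getD (dodL.getD i.val 0) 0) 0 % 12, Nat.mod_lt _ (by norm_num)⟩

theorem rho_tperm {T : List ℕ} (hok : permOK T = true) (h : tperm T ∈ Spor.M12) (i : Fin 12) :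
    rho ⟨tperm T, h⟩ i = rhoT T i := by
  show dodIdx (tperm T (dodPt i)) = rhoT T i
  rw [tperm_apply hok]
  apply Fin.ext
  show dodI.getD (idx (pt (T.getD (idx (pt (dodL.getD i.val 0))) 0))) 0 % 12 =
    dodI.getD (T.getD (dodL.getD i.val 0) 0) 0 % 12
  rw [idx_pt (dodL_lt i), idx_pt (getD_lt_of_valid ((permOK_iff T).mp hok).1 _)]

/-! ### `M₁₂` acts by even permutations -/

theorem eps_of_odd (ε : Spor.M12 →* ℤˣ) (x : Spor.M12) (k : ℕ) (hx : x ^ (2 * k + 1) = 1) :
    ε x = 1 := by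
  have h1 : ε x ^ (2 * k + 1) = 1 := by rw [← map_pow, hx, map_one]
  have h2 : ε x ^ 2 = 1 := Int.units_sq (ε x)
  rw [pow_succ, pow_mul, h2, one_pow, one_mul] at h1
  exact h1

theorem o24m_pow : o24m ^ 11 = 1 :=
  eq_of_tables (hasTable_pow hasTable_o24m 11) hasTable_one (by decide +kernel)

theorem cubeTwist_pow : cubeTwist ^ 5 = 1 :=
  eq_of_tables (hasTable_pow hasTable_cubeTwist 5) hasTable_one (by decide +kernel)

/-- Every homomorphism from `M₁₂` to the group of signs is trivial. -/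
theorem eps_trivial (ε : Spor.M12 →* ℤˣ) (g : Spor.M12) : ε g = 1 := by
  have h1 : ε ⟨o24m, o24m_mem_M12⟩ = 1 := eps_of_odd ε _ 5 (Subtype.ext o24m_pow)
  have h2 : ε ⟨cubeTwist, cube_mem_M12⟩ = 1 := eps_of_odd ε _ 2 (Subtype.ext cubeTwist_pow)
  have h3 : ε ⟨od12, od12_mem_M12⟩ = 1 := by
    have h : ε (⟨o24m, o24m_mem_M12⟩ * ⟨od12, od12_mem_M12⟩) = 1 :=
      eps_of_odd ε _ 5 (Subtype.ext od12_rel2)
    rw [map_mul, h1, one_mul] at h
    exact h
  have key : ∀ x (_ : x ∈ Subgroup.closure ({o24m, cubeTwist, od12} : Set (Equiv.Perm GolayPt))),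
      ∀ hx' : x ∈ Spor.M12, ε ⟨x, hx'⟩ = 1 := by
    intro x hx
    induction hx using Subgroup.closure_induction with
    | mem x hx =>
      intro hx'
      rcases hx with rfl | rfl | rfl
      · exact h1
      · exact h2
      · exact h3
    | one =>
      intro _
      exact map_one ε
    | mul x y hx hy ihx ihy =>
      intro hxy
      have hx' : x ∈ Spor.M12 := closure_M12 ▸ hx
      have hy' : y ∈ Spor.M12 := closure_M12 ▸ hy
      have e : (⟨x * y, hxy⟩ : Spor.M12) = ⟨x, hx'⟩ * ⟨y, hy'⟩ := rfl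
      rw [e, map_mul, ihx hx', ihy hy', one_mul]
    | inv x hx ih =>
      intro hxi
      have hx' : x ∈ Spor.M12 := closure_M12 ▸ hx
      have e : (⟨x⁻¹, hxi⟩ : Spor.M12) = ⟨x, hx'⟩⁻¹ := rfl
      rw [e, map_inv, ih hx', inv_one]
  exact key g.1 (closure_M12.symm ▸ g.2) g.2

theorem sign_rho (g : Spor.M12) : Equiv.Perm.sign (rho g) = 1 :=
  eps_trivial (Equiv.Perm.sign.comp rho) g

/-! ### Clifford data: commutation of lifts -/

section cliff

variable {A : Type*} [Ring A] {n : ℕ} {E : Fin n → A} {S : Set A}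

theorem cliff_u_anti (h : CliffData E S) (i j k l : Fin n) (hik : i ≠ k) (hil : i ≠ l)
    (hjk : j ≠ k) (hjl : j ≠ l) : (E i - E j) * (E k - E l) = -((E k - E l) * (E i - E j)) := by
  simp only [sub_mul, mul_sub]
  rw [h.anti i k hik, h.anti i l hil, h.anti j k hjk, h.anti j l hjl]
  abel

/-- Lifts of double transpositions with disjoint supports commute. -/
theorem cliff_w_comm (h : CliffData E S) (i j k l a b c d : Fin n)
    (hd : ∀ x ∈ [i, j, k, l], ∀ y ∈ [a, b, c, d], x ≠ y) :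
    (E i - E j) * (E k - E l) * ((E a - E b) * (E c - E d)) =
      (E a - E b) * (E c - E d) * ((E i - E j) * (E k - E l)) := by
  have e1 := cliff_u_anti h k l a b (hd k (by simp) a (by simp)) (hd k (by simp) b (by simp))
    (hd l (by simp) a (by simp)) (hd l (by simp) b (by simp))
  have e2 := cliff_u_anti h i j a b (hd i (by simp) a (by simp)) (hd i (by simp) b (by simp))
    (hd j (by simp) a (by simp)) (hd j (by simp) b (by simp))
  have e3 := cliff_u_anti h k l c d (hd k (by simp) c (by simp)) (hd k (by simp) d (by simp))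
    (hd l (by simp) c (by simp)) (hd l (by simp) d (by simp))
  have e4 := cliff_u_anti h i j c d (hd i (by simp) c (by simp)) (hd i (by simp) d (by simp))
    (hd j (by simp) c (by simp)) (hd j (by simp) d (by simp))
  generalize E i - E j = u1 at e2 e4 ⊢
  generalize E k - E l = u2 at e1 e3 ⊢
  generalize E a - E b = v1 at e1 e2 ⊢
  generalize E c - E d = v2 at e3 e4 ⊢
  calc u1 * u2 * (v1 * v2) = u1 * (u2 * v1) * v2 := by simp only [mul_assoc]
    _ = u1 * (-(v1 * u2)) * v2 := by rw [e1]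
    _ = -((u1 * v1) * (u2 * v2)) := by simp only [mul_neg, neg_mul, mul_assoc]
    _ = -((-(v1 * u1)) * (-(v2 * u2))) := by rw [e2, e3]
    _ = -(v1 * (u1 * v2) * u2) := by simp only [mul_neg, neg_mul, neg_neg, mul_assoc]
    _ = -(v1 * (-(v2 * u1)) * u2) := by rw [e4]
    _ = v1 * v2 * (u1 * u2) := by simp only [mul_neg, neg_mul, neg_neg, mul_assoc]

theorem anti_mul_comm {a b x : A} (h1 : a * x = -(x * a)) (h2 : b * x = x * b) :
    a * b * x = -(x * (a * b)) := by
  rw [mul_assoc, h2, ← mul_assoc, h1, neg_mul, mul_assoc]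

theorem comm_mul_anti {a b x : A} (h1 : a * x = x * a) (h2 : b * x = -(x * b)) :
    a * b * x = -(x * (a * b)) := by
  rw [mul_assoc, h2, mul_neg, ← mul_assoc, h1, mul_assoc]

theorem comm_mul_comm {a b x : A} (h1 : a * x = x * a) (h2 : b * x = x * b) :
    a * b * x = x * (a * b) := by
  rw [mul_assoc, h2, ← mul_assoc, h1, mul_assoc]

theorem anti_anti_right {w x y : A} (h1 : w * x = -(x * w)) (h2 : w * y = -(y * w)) :
    w * (x * y) = x * y * w := by
  rw [← mul_assoc, h1, neg_mul, mul_assoc, h2, mul_neg, neg_neg, mul_assoc]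

theorem comm_anti_right {w x y : A} (h1 : w * x = x * w) (h2 : w * y = -(y * w)) :
    w * (x * y) = -(x * y * w) := by
  rw [← mul_assoc, h1, mul_assoc, h2, mul_neg, mul_assoc]

/-- Three blocks: the products anticommute. -/
theorem three_blocks {W1 W2 W3 X1 X2 X3 : A} (a1 : W1 * X1 = -(X1 * W1))
    (a2 : W2 * X2 = -(X2 * W2)) (a3 : W3 * X3 = -(X3 * W3)) (c12 : W1 * X2 = X2 * W1)
    (c13 : W1 * X3 = X3 * W1) (c21 : W2 * X1 = X1 * W2) (c23 : W2 * X3 = X3 * W2)
    (c31 : W3 * X1 = X1 * W3) (c32 : W3 * X2 = X2 * W3) :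
    W1 * W2 * W3 * (X1 * X2 * X3) = -(X1 * X2 * X3 * (W1 * W2 * W3)) := by
  have b1 : W1 * W2 * W3 * X1 = -(X1 * (W1 * W2 * W3)) := by
    have := anti_mul_comm (anti_mul_comm a1 c21) c31
    exact this
  have b2 : W1 * W2 * W3 * X2 = -(X2 * (W1 * W2 * W3)) := by
    have := anti_mul_comm (comm_mul_anti c12 a2) c32
    exact this
  have b3 : W1 * W2 * W3 * X3 = -(X3 * (W1 * W2 * W3)) := by
    have := comm_mul_anti (comm_mul_comm c13 c23) a3
    exact this
  exact comm_anti_right (anti_anti_right b1 b2) b3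

end cliff

/-! ### The double cover -/

/-- The ring of the Clifford model. -/
abbrev CA : Type := Module.End (ZMod 3) ((Fin 12 → ZMod 2) → ZMod 3)

theorem cliff12 : CliffData (dcE (n := 12)) (Set.range (dcR (n := 12)) ∪ {dcP}) := dc_cliffData 12

instance finite_CA : Finite CA :=
  Finite.of_injective (fun f : CA =>
    (f : ((Fin 12 → ZMod 2) → ZMod 3) → ((Fin 12 → ZMod 2) → ZMod 3))) DFunLike.coe_injective

/-- The double cover of `M₁₂`: the pullback of the double cover of the alternating group. -/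
def m12Cover : Subgroup (CAˣ × Spor.M12) :=
  cliff12.grp.comap (MonoidHom.prodMap (MonoidHom.id CAˣ) rho)

theorem mem_m12Cover (x : CAˣ × Spor.M12) : x ∈ m12Cover ↔ (x.1, rho x.2) ∈ cliff12.grp := Iff.rfl

/-- The projection of the double cover onto `M₁₂`. -/
def m12CoverProj : m12Cover →* Spor.M12 := (MonoidHom.snd CAˣ Spor.M12).comp m12Cover.subtype

theorem m12CoverProj_apply (x : m12Cover) : m12CoverProj x = (x : CAˣ × Spor.M12).2 := rfl

theorem finite_SporM12 : Finite ↥Spor.M12 :=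
  Nat.finite_of_card_ne_zero (by rw [card_SporM12]; norm_num)

instance finite_m12Cover : Finite m12Cover := by
  have := finite_SporM12
  infer_instance

theorem m12CoverProj_surjective : Function.Surjective m12CoverProj := by
  intro g
  have hg : rho g ∈ alternatingGroup (Fin 12) :=
    Equiv.Perm.mem_alternatingGroup.mpr (sign_rho g)
  obtain ⟨X, hX⟩ := cliff12.grp_surj (rho g) hg
  exact ⟨⟨(X, g), hX⟩, rfl⟩

theorem cliff_ker {X : CAˣ} (h : (X, (1 : Equiv.Perm (Fin 12))) ∈ cliff12.grp) :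
    X = 1 ∨ X = -1 := by
  obtain ⟨hg1, hg2, -⟩ := cliff12.grp_inv _ h
  have hX := cliff12.ker (X : CA) (fun m => hg1 m) (fun Y hY => hg2 Y hY)
  rcases hX with hX | hX | hX
  · exfalso
    have h10 : (1 : CA) = 0 := by rw [← Units.mul_inv X, hX, zero_mul]
    apply cliff12.one_ne
    rw [h10, neg_zero]
  · left
    exact Units.ext hX
  · right
    exact Units.ext (by rw [hX]; simp)

/-- The central involution of the double cover. -/
def m12z : CAˣ × Spor.M12 := ((-1 : CAˣ), 1)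

theorem mem_ker_m12CoverProj (x : m12Cover) (hx : x ∈ m12CoverProj.ker) :
    (x : CAˣ × Spor.M12) = 1 ∨ (x : CAˣ × Spor.M12) = m12z := by
  rw [MonoidHom.mem_ker, m12CoverProj_apply] at hx
  have h1 : ((x : CAˣ × Spor.M12).1, rho (x : CAˣ × Spor.M12).2) ∈ cliff12.grp := x.2
  rw [hx, map_one] at h1
  rcases cliff_ker h1 with h | h
  · left
    exact Prod.ext h hx
  · right
    exact Prod.ext h hx

theorem m12z_central (x : CAˣ × Spor.M12) : x * m12z = m12z * x := by
  refine Prod.ext (Units.ext ?_) ?_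
  · show ((x.1 : CAˣ) : CA) * ((-1 : CAˣ) : CA) = ((-1 : CAˣ) : CA) * ((x.1 : CAˣ) : CA)
    simp
  · show x.2 * 1 = 1 * x.2
    rw [mul_one, one_mul]

theorem m12z_ne_one : m12z ≠ 1 := by
  intro h
  have e : ((-1 : CAˣ) : CA) = 1 := congrArg (fun g : CAˣ × Spor.M12 => ((g.1 : CAˣ) : CA)) h
  exact cliff12.one_ne (by simpa using e.symm)

theorem m12z_sq : m12z * m12z = 1 := by
  refine Prod.ext (Units.ext ?_) ?_
  · show ((-1 : CAˣ) : CA) * ((-1 : CAˣ) : CA) = 1
    simp
  · show (1 : Spor.M12) * 1 = 1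
    rw [mul_one]

/-! ### A four-group acting without fixed points on the dodecad -/

def fA : List ℕ := [2, 4, 0, 8, 1, 22, 12, 14, 3, 16, 20, 17, 6, 18, 7, 21, 9, 11, 13, 23, 10, 15, 5, 19]

def fB : List ℕ := [12, 9, 6, 18, 16, 10, 2, 11, 13, 1, 5, 7, 0, 8, 17, 19, 4, 14, 3, 15, 22, 23, 20, 21]

theorem fA_in : inM12 fA = true := by decide +kernel

theorem fB_in : inM12 fB = true := by decide +kernel

theorem fAB_comm : compT fA fB = compT fB fA := by decide +kernel

theorem rho_fA : rho ⟨tperm fA, (inM12_sound fA fA_in).2⟩ =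
    Equiv.swap (0 : Fin 12) (2 : Fin 12) * Equiv.swap (8 : Fin 12) (5 : Fin 12) * (Equiv.swap (1 : Fin 12) (4 : Fin 12) * Equiv.swap (7 : Fin 12) (10 : Fin 12)) *
      (Equiv.swap (3 : Fin 12) (6 : Fin 12) * Equiv.swap (11 : Fin 12) (9 : Fin 12)) := by
  refine Equiv.ext fun i => ?_
  rw [rho_tperm (inM12_sound fA fA_in).1]
  revert i
  decide +kernel

theorem rho_fB : rho ⟨tperm fB, (inM12_sound fB fB_in).2⟩ =
    Equiv.swap (0 : Fin 12) (8 : Fin 12) * Equiv.swap (2 : Fin 12) (5 : Fin 12) * (Equiv.swap (1 : Fin 12) (7 : Fin 12) * Equiv.swap (4 : Fin 12) (10 : Fin 12)) *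
      (Equiv.swap (3 : Fin 12) (11 : Fin 12) * Equiv.swap (6 : Fin 12) (9 : Fin 12)) := by
  refine Equiv.ext fun i => ?_
  rw [rho_tperm (inM12_sound fB fB_in).1]
  revert i
  decide +kernel

/-- The lift of the first involution. -/
def liftA : CAˣ × Spor.M12 :=
  (cliff12.wUnit (0 : Fin 12) (2 : Fin 12) (8 : Fin 12) (5 : Fin 12) (by decide) (by decide) * cliff12.wUnit (1 : Fin 12) (4 : Fin 12) (7 : Fin 12) (10 : Fin 12) (by decide) (by decide) *
    cliff12.wUnit (3 : Fin 12) (6 : Fin 12) (11 : Fin 12) (9 : Fin 12) (by decide) (by decide), ⟨tperm fA, (inM12_sound fA fA_in).2⟩)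

/-- The lift of the second involution. -/
def liftB : CAˣ × Spor.M12 :=
  (cliff12.wUnit (0 : Fin 12) (8 : Fin 12) (2 : Fin 12) (5 : Fin 12) (by decide) (by decide) * cliff12.wUnit (1 : Fin 12) (7 : Fin 12) (4 : Fin 12) (10 : Fin 12) (by decide) (by decide) *
    cliff12.wUnit (3 : Fin 12) (11 : Fin 12) (6 : Fin 12) (9 : Fin 12) (by decide) (by decide), ⟨tperm fB, (inM12_sound fB fB_in).2⟩)

theorem liftA_mem : liftA ∈ m12Cover := by
  rw [mem_m12Cover]
  show (_, rho ⟨tperm fA, (inM12_sound fA fA_in).2⟩) ∈ cliff12.grp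
  rw [rho_fA]
  show ((_ * _ * _, _ * _ * _) : CAˣ × Equiv.Perm (Fin 12)) ∈ cliff12.grp
  rw [← Prod.mk_mul_mk, ← Prod.mk_mul_mk]
  exact mul_mem (mul_mem (cliff12.gen_mem (0 : Fin 12) (2 : Fin 12) (8 : Fin 12) (5 : Fin 12) (by decide) (by decide))
    (cliff12.gen_mem (1 : Fin 12) (4 : Fin 12) (7 : Fin 12) (10 : Fin 12) (by decide) (by decide)))
    (cliff12.gen_mem (3 : Fin 12) (6 : Fin 12) (11 : Fin 12) (9 : Fin 12) (by decide) (by decide))

theorem liftB_mem : liftB ∈ m12Cover := by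
  rw [mem_m12Cover]
  show (_, rho ⟨tperm fB, (inM12_sound fB fB_in).2⟩) ∈ cliff12.grp
  rw [rho_fB]
  show ((_ * _ * _, _ * _ * _) : CAˣ × Equiv.Perm (Fin 12)) ∈ cliff12.grp
  rw [← Prod.mk_mul_mk, ← Prod.mk_mul_mk]
  exact mul_mem (mul_mem (cliff12.gen_mem (0 : Fin 12) (8 : Fin 12) (2 : Fin 12) (5 : Fin 12) (by decide) (by decide))
    (cliff12.gen_mem (1 : Fin 12) (7 : Fin 12) (4 : Fin 12) (10 : Fin 12) (by decide) (by decide)))
    (cliff12.gen_mem (3 : Fin 12) (11 : Fin 12) (6 : Fin 12) (9 : Fin 12) (by decide) (by decide))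

theorem lift_anticomm : ((liftA.1 : CAˣ) : CA) * ((liftB.1 : CAˣ) : CA) =
    -(((liftB.1 : CAˣ) : CA) * ((liftA.1 : CAˣ) : CA)) := by
  have a1 := cliff12.w_anticomm (0 : Fin 12) (2 : Fin 12) (8 : Fin 12) (5 : Fin 12) (by decide) (by decide) (by decide) (by decide)
    (by decide) (by decide)
  have a2 := cliff12.w_anticomm (1 : Fin 12) (4 : Fin 12) (7 : Fin 12) (10 : Fin 12) (by decide) (by decide) (by decide) (by decide)
    (by decide) (by decide)
  have a3 := cliff12.w_anticomm (3 : Fin 12) (6 : Fin 12) (11 : Fin 12) (9 : Fin 12) (by decide) (by decide) (by decide) (by decide)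
    (by decide) (by decide)
  have c12 := cliff_w_comm cliff12 (0 : Fin 12) (2 : Fin 12) (8 : Fin 12) (5 : Fin 12) (1 : Fin 12) (7 : Fin 12) (4 : Fin 12) (10 : Fin 12) (by decide)
  have c13 := cliff_w_comm cliff12 (0 : Fin 12) (2 : Fin 12) (8 : Fin 12) (5 : Fin 12) (3 : Fin 12) (11 : Fin 12) (6 : Fin 12) (9 : Fin 12) (by decide)
  have c21 := cliff_w_comm cliff12 (1 : Fin 12) (4 : Fin 12) (7 : Fin 12) (10 : Fin 12) (0 : Fin 12) (8 : Fin 12) (2 : Fin 12) (5 : Fin 12) (by decide)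
  have c23 := cliff_w_comm cliff12 (1 : Fin 12) (4 : Fin 12) (7 : Fin 12) (10 : Fin 12) (3 : Fin 12) (11 : Fin 12) (6 : Fin 12) (9 : Fin 12) (by decide)
  have c31 := cliff_w_comm cliff12 (3 : Fin 12) (6 : Fin 12) (11 : Fin 12) (9 : Fin 12) (0 : Fin 12) (8 : Fin 12) (2 : Fin 12) (5 : Fin 12) (by decide)
  have c32 := cliff_w_comm cliff12 (3 : Fin 12) (6 : Fin 12) (11 : Fin 12) (9 : Fin 12) (1 : Fin 12) (7 : Fin 12) (4 : Fin 12) (10 : Fin 12) (by decide)
  exact three_blocks a1 a2 a3 c12 c13 c21 c23 c31 c32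

theorem m12z_eq_comm : m12z = liftA * liftB * liftA⁻¹ * liftB⁻¹ := by
  rw [eq_mul_inv_iff_mul_eq, eq_mul_inv_iff_mul_eq]
  refine Prod.ext (Units.ext ?_) ?_
  · show ((-1 : CAˣ) : CA) * ((liftB.1 : CAˣ) : CA) * ((liftA.1 : CAˣ) : CA) =
      ((liftA.1 : CAˣ) : CA) * ((liftB.1 : CAˣ) : CA)
    rw [lift_anticomm]
    simp
  · show (1 : Spor.M12) * ⟨tperm fB, (inM12_sound fB fB_in).2⟩ * ⟨tperm fA, (inM12_sound fA fA_in).2⟩ =
      ⟨tperm fA, (inM12_sound fA fA_in).2⟩ * ⟨tperm fB, (inM12_sound fB fB_in).2⟩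
    rw [one_mul]
    apply Subtype.ext
    show tperm fB * tperm fA = tperm fA * tperm fB
    rw [tperm_mul (inM12_sound fB fB_in).1 (inM12_sound fA fA_in).1,
      tperm_mul (inM12_sound fA fA_in).1 (inM12_sound fB fB_in).1, fAB_comm]

theorem m12z_mem : m12z ∈ m12Cover := by
  rw [m12z_eq_comm]
  exact mul_mem (mul_mem (mul_mem liftA_mem liftB_mem) (inv_mem liftA_mem)) (inv_mem liftB_mem)

/-- The double cover is a stem extension of `M₁₂`. -/
theorem m12Cover_stem : Cfsg.IsStemExtension m12CoverProj := by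
  refine ⟨m12CoverProj_surjective, ?_, ?_⟩
  · intro x hx
    rw [Subgroup.mem_center_iff]
    intro g
    apply Subtype.ext
    show (g : CAˣ × Spor.M12) * (x : CAˣ × Spor.M12) = (x : CAˣ × Spor.M12) * (g : CAˣ × Spor.M12)
    rcases mem_ker_m12CoverProj x hx with h | h
    · rw [h, mul_one, one_mul]
    · rw [h]
      exact m12z_central _
  · intro x hx
    rcases mem_ker_m12CoverProj x hx with h | h
    · have : x = 1 := Subtype.ext h
      rw [this]
      exact one_mem _
    · have : x = ⁅(⟨liftA, liftA_mem⟩ : m12Cover), ⟨liftB, liftB_mem⟩⁆ := by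
        apply Subtype.ext
        rw [h, m12z_eq_comm]
        rfl
      rw [this]
      exact Subgroup.commutator_mem_commutator (Subgroup.mem_top _) (Subgroup.mem_top _)

theorem card_ker_m12CoverProj : Nat.card m12CoverProj.ker = 2 := by
  rw [Nat.card_eq_two_iff]
  have hzk : (⟨m12z, m12z_mem⟩ : m12Cover) ∈ m12CoverProj.ker := by
    rw [MonoidHom.mem_ker]
    rfl
  refine ⟨1, ⟨⟨m12z, m12z_mem⟩, hzk⟩, ?_, ?_⟩
  · intro h
    apply m12z_ne_one
    have := congrArg (fun k : m12CoverProj.ker => ((k : m12Cover) : CAˣ × Spor.M12)) h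
    exact this.symm
  · rw [Set.eq_univ_iff_forall]
    intro x
    rcases mem_ker_m12CoverProj x.1 x.2 with h | h
    · left
      exact Subtype.ext (Subtype.ext h)
    · right
      exact Subtype.ext (Subtype.ext h)

/-- `M₁₂` has a stem extension with kernel of order 2. -/
theorem exists_m12_cover : ∃ (Γ : Type) (_ : Group Γ) (_ : Finite Γ) (σ : Γ →* ↥Spor.M12),
    Cfsg.IsStemExtension σ ∧ Nonempty (σ.ker ≃* Multiplicative (ZMod 2)) := by
  have hcard := card_ker_m12CoverProj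
  have hcyc : IsCyclic m12CoverProj.ker := isCyclic_of_prime_card (p := 2) hcard
  have e : m12CoverProj.ker ≃* Multiplicative (ZMod 2) := by
    have e' := (zmodCyclicMulEquiv hcyc).symm
    rw [hcard] at e'
    exact e'
  exact ⟨m12Cover, inferInstance, inferInstance, m12CoverProj, m12Cover_stem, ⟨e⟩⟩

end Cfsg.Agent.Lib.Helper70
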