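import Mathlib
import Cfsg.Agent.Lib.Helper70.SchurCE3

set_option autoImplicit false

namespace Cfsg.Agent.Lib.Helper70

universe u

theorem exists_linearMap_range_eq_ker {V M ι : Type*} [AddCommGroup V] [AddCommGroup M] [Fintype ι]
    [Module.Free ℤ M] [Module.Finite ℤ M] (α : V →ₗ[ℤ] M) [Finite (M ⧸ LinearMap.range α)]
    (v : ι → V) (hv : Function.Surjective (Fintype.linearCombination ℤ v)) :
    ∃ (d : ℕ) (_ : d = Fintype.card ι - Module.finrank ℤ M) (ψ : (Fin d → ℤ) →ₗ[ℤ] V),
      LinearMap.range ψ = LinearMap.ker α := by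
  classical
  have hrange : LinearMap.range (α ∘ₗ Fintype.linearCombination ℤ v) = LinearMap.range α :=
    LinearMap.range_comp_of_range_eq_top _ (LinearMap.range_eq_top.mpr hv)
  have h1 : Module.finrank ℤ (LinearMap.range α) = Module.finrank ℤ M := by
    have h := Submodule.finrank_quotient_add_finrank (LinearMap.range α)
    have h0 : Module.finrank ℤ (M ⧸ LinearMap.range α) = 0 := by
      rw [Module.finrank_eq_zero_iff_isTorsion]
      intro x
      refine ⟨⟨(Nat.card (M ⧸ LinearMap.range α) : ℤ), ?_⟩, ?_⟩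
      · rw [mem_nonZeroDivisors_iff_ne_zero]
        exact_mod_cast Nat.card_pos.ne'
      · show ((Nat.card (M ⧸ LinearMap.range α) : ℤ)) • x = 0
        rw [natCast_zsmul]
        exact card_nsmul_eq_zero'
    omega
  have h2 : Module.finrank ℤ (LinearMap.range (α ∘ₗ Fintype.linearCombination ℤ v)) +
      Module.finrank ℤ (LinearMap.ker (α ∘ₗ Fintype.linearCombination ℤ v)) = Fintype.card ι := by
    have h := Submodule.finrank_quotient_add_finrank (LinearMap.ker (α ∘ₗ Fintype.linearCombination ℤ v))
    rw [(α ∘ₗ Fintype.linearCombination ℤ v).quotKerEquivRange.finrank_eq, Module.finrank_fintype_fun_eq_card] at h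
    exact h
  have h3 : Module.finrank ℤ (LinearMap.ker (α ∘ₗ Fintype.linearCombination ℤ v)) =
      Fintype.card ι - Module.finrank ℤ M := by
    rw [hrange, h1] at h2
    omega
  refine ⟨_, h3, (Fintype.linearCombination ℤ v ∘ₗ
    (LinearMap.ker (α ∘ₗ Fintype.linearCombination ℤ v)).subtype) ∘ₗ
    ((Module.finBasis ℤ (LinearMap.ker (α ∘ₗ Fintype.linearCombination ℤ v))).equivFun.symm :
      _ ≃ₗ[ℤ] _).toLinearMap, ?_⟩
  rw [LinearMap.range_comp_of_range_eq_top _ (LinearEquiv.range _), LinearMap.range_comp,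
    Submodule.range_subtype, LinearMap.ker_comp, Submodule.map_comap_eq_of_surjective hv]

theorem mem_closure_single (d : ℕ) (c : Fin d → ℤ) :
    Multiplicative.ofAdd c ∈ Subgroup.closure
      (Set.range fun i : Fin d => Multiplicative.ofAdd (Pi.single i (1 : ℤ) : Fin d → ℤ)) := by
  classical
  have h : c = ∑ i, c i • (Pi.single i (1 : ℤ) : Fin d → ℤ) := by
    funext j
    simp [Finset.sum_apply, Pi.single_apply]
  rw [h, ofAdd_sum]
  apply Subgroup.prod_mem
  intro i _
  rw [ofAdd_zsmul]
  exact Subgroup.zpow_mem _ (Subgroup.subset_closure (Set.mem_range_self i)) _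

instance fg_multiplicative_pi_int (d : ℕ) : Group.FG (Multiplicative (Fin d → ℤ)) := by
  classical
  rw [Group.fg_iff]
  refine ⟨Set.range fun i : Fin d => Multiplicative.ofAdd (Pi.single i (1 : ℤ) : Fin d → ℤ), ?_,
    Set.finite_range _⟩
  rw [eq_top_iff]
  intro x _
  exact mem_closure_single d x.toAdd

theorem rank_multiplicative_pi_int_le (d : ℕ) : Group.rank (Multiplicative (Fin d → ℤ)) ≤ d := by
  classical
  have hS : Subgroup.closure ((Finset.univ.image
      (fun i : Fin d => Multiplicative.ofAdd (Pi.single i (1 : ℤ) : Fin d → ℤ)) :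
        Finset (Multiplicative (Fin d → ℤ))) : Set (Multiplicative (Fin d → ℤ))) = ⊤ := by
    rw [eq_top_iff]
    intro x _
    rw [Finset.coe_image, Finset.coe_univ, Set.image_univ]
    exact mem_closure_single d x.toAdd
  refine (Group.rank_le hS).trans ?_
  exact Finset.card_image_le.trans (by simp)

section Pres

variable {F G : Type u} [Group F] [Group G] (p : F →* G)

theorem CE.ker_proj_eq_map : (CE.proj p).ker = Subgroup.map (CE.mk p) p.ker := by
  ext e
  obtain ⟨f, rfl⟩ := QuotientGroup.mk'_surjective (FR p) e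
  rw [MonoidHom.mem_ker]
  show p f = 1 ↔ _
  constructor
  · intro h
    exact ⟨f, h, rfl⟩
  · rintro ⟨f', hf', h⟩
    have h1 : CE.proj p (CE.mk p f') = CE.proj p (CE.mk p f) := congrArg _ h
    exact h1.symm.trans hf'

theorem CE.ker_proj_eq_closure (S : Set F) (hS : p.ker = Subgroup.normalClosure S) :
    (CE.proj p).ker = Subgroup.closure ((CE.mk p) '' S) := by
  have hle : Subgroup.closure ((CE.mk p) '' S) ≤ (CE.proj p).ker := by
    rw [Subgroup.closure_le]
    rintro _ ⟨s, hs, rfl⟩
    have : s ∈ p.ker := hS ▸ Subgroup.subset_normalClosure hs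
    exact this
  apply le_antisymm
  · rw [CE.ker_proj_eq_map, congrArg (Subgroup.map (CE.mk p)) hS,
      Subgroup.map_normalClosure _ _ (QuotientGroup.mk'_surjective _)]
    have : (Subgroup.closure ((CE.mk p) '' S)).Normal :=
      normal_of_le_center _ (hle.trans (CE.ker_proj_le_center p))
    exact Subgroup.normalClosure_le_normal Subgroup.subset_closure
  · exact hle

theorem CE.exists_hom_range_eq_mult [Finite G] (hp : Function.Surjective p)
    [Module.Free ℤ (Additive (Abelianization F))] [Module.Finite ℤ (Additive (Abelianization F))]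
    (rels : Finset F) (hrels : p.ker = Subgroup.normalClosure (rels : Set F)) :
    ∃ (d : ℕ) (_ : d = rels.card - Module.finrank ℤ (Additive (Abelianization F)))
      (Θ : Multiplicative (Fin d → ℤ) →* CE p), Θ.range = CE.mult p := by
  classical
  let _ : CommGroup (CE.proj p).ker :=
    { (inferInstance : Group (CE.proj p).ker) with
      mul_comm := fun a b => Subtype.ext (Subgroup.mem_center_iff.mp (CE.ker_proj_le_center p b.2) a) }
  have hx : ∀ r : rels, CE.mk p (r : F) ∈ (CE.proj p).ker := by
    intro r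
    have : (r : F) ∈ p.ker := by rw [hrels]; exact Subgroup.subset_normalClosure r.2
    exact this
  let v : rels → Additive (CE.proj p).ker := fun r => Additive.ofMul ⟨CE.mk p r, hx r⟩
  have hv : Function.Surjective (Fintype.linearCombination ℤ v) := by
    have key : ∀ e ∈ Subgroup.closure ((CE.mk p) '' (rels : Set F)),
        ∃ (he : e ∈ (CE.proj p).ker) (c : rels → ℤ),
        Fintype.linearCombination ℤ v c = Additive.ofMul ⟨e, he⟩ := by
      intro e he
      induction he using Subgroup.closure_induction with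
      | mem x hx' =>
        obtain ⟨r, hr, rfl⟩ := hx'
        refine ⟨hx ⟨r, hr⟩, Pi.single ⟨r, hr⟩ 1, ?_⟩
        rw [Fintype.linearCombination_apply_single, one_smul]
      | one => exact ⟨Subgroup.one_mem _, 0, by rw [map_zero]; rfl⟩
      | mul x y _ _ ihx ihy =>
        obtain ⟨hx1, c1, h1⟩ := ihx
        obtain ⟨hy1, c2, h2⟩ := ihy
        refine ⟨Subgroup.mul_mem _ hx1 hy1, c1 + c2, ?_⟩
        rw [map_add, h1, h2]; rfl
      | inv x _ ihx =>
        obtain ⟨hx1, c1, h1⟩ := ihx
        refine ⟨Subgroup.inv_mem _ hx1, -c1, ?_⟩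
        rw [map_neg, h1]; rfl
    intro k
    have hk : (k.toMul : CE p) ∈ Subgroup.closure ((CE.mk p) '' (rels : Set F)) := by
      rw [← CE.ker_proj_eq_closure p _ hrels]; exact k.toMul.2
    obtain ⟨he, c, hc⟩ := key _ hk
    exact ⟨c, hc⟩
  let α : Additive (CE.proj p).ker →ₗ[ℤ] Additive (Abelianization F) :=
    (MonoidHom.toAdditive ((CE.abMap p).comp (CE.proj p).ker.subtype)).toIntLinearMap
  have hfin : Finite (Additive (Abelianization F) ⧸ LinearMap.range α) := by
    choose s hs using hp
    apply Finite.of_surjective (fun g : G => (Submodule.Quotient.mk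
      (Additive.ofMul (Abelianization.of (s g))) : Additive (Abelianization F) ⧸ LinearMap.range α))
    intro y
    obtain ⟨a, rfl⟩ := Submodule.Quotient.mk_surjective _ y
    obtain ⟨w, hw⟩ := QuotientGroup.mk_surjective a.toMul
    refine ⟨p w, ?_⟩
    rw [Submodule.Quotient.eq]
    have hmem : CE.mk p (s (p w) * w⁻¹) ∈ (CE.proj p).ker := by
      show p (s (p w) * w⁻¹) = 1
      rw [map_mul, hs, map_inv, mul_inv_cancel]
    refine ⟨Additive.ofMul ⟨CE.mk p (s (p w) * w⁻¹), hmem⟩, ?_⟩
    show Additive.ofMul (Abelianization.of (s (p w) * w⁻¹)) =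
      Additive.ofMul (Abelianization.of (s (p w))) - a
    have ha : a = Additive.ofMul (Abelianization.of w) := by
      rw [show Abelianization.of w = Additive.toMul a from hw]
      rfl
    rw [map_mul, map_inv, ha, ← div_eq_mul_inv]
    rfl
  obtain ⟨d, hd, ψ, hψ⟩ := exists_linearMap_range_eq_ker α v hv
  rw [Fintype.card_coe] at hd
  refine ⟨d, hd, (CE.proj p).ker.subtype.comp (AddMonoidHom.toMultiplicativeLeft ψ.toAddMonoidHom), ?_⟩
  ext e
  constructor
  · rintro ⟨c, rfl⟩
    have h1 : ψ c.toAdd ∈ LinearMap.ker α := hψ ▸ LinearMap.mem_range_self ψ _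
    refine ⟨(ψ c.toAdd).toMul.2, ?_⟩
    rw [← CE.ker_abMap]
    exact h1
  · rintro ⟨he1, he2⟩
    have h1 : Additive.ofMul (⟨e, he1⟩ : (CE.proj p).ker) ∈ LinearMap.ker α := by
      rw [← CE.ker_abMap] at he2
      exact he2
    rw [← hψ] at h1
    obtain ⟨c, hc⟩ := h1
    refine ⟨Multiplicative.ofAdd c, ?_⟩
    show ((ψ c).toMul : CE p) = e
    rw [hc]
    rfl

end Pres

end Cfsg.Agent.Lib.Helper70
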