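import Mathlib
import Cfsg.Agent.Lib.Helper70.SchurCE3

set_option autoImplicit false

open scoped commutatorElement

namespace Cfsg.Agent.Lib.Helper70

universe u v w

/-- The abelianization of a free group is a free `ℤ`-module. -/
theorem free_abelianization_of_isFreeGroup (H : Type u) [Group H] [IsFreeGroup H] :
    Module.Free ℤ (Additive (Abelianization H)) :=
  Module.Free.of_equiv
    (MulEquiv.toAdditive (IsFreeGroup.toFreeGroup H).abelianizationCongr).toIntLinearEquiv.symm

/-- The abelianization of a finitely generated group is a finite `ℤ`-module. -/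
theorem finite_abelianization_of_fg (H : Type u) [Group H] [Group.FG H] :
    Module.Finite ℤ (Additive (Abelianization H)) := by
  have : Group.FG (Abelianization H) := QuotientGroup.fg _
  exact Module.Finite.iff_addGroup_fg.mpr inferInstance

/-- If `cor ∘ tr` is the `m`-th power map with `m` prime to `p`, the `p`-primary component of `X` is a
direct factor of `Y`. -/
theorem exists_direct_factor {X : Type u} {Y : Type v} [CommGroup X] [CommGroup Y] [Finite X]
    (tr : X →* Y) (cor : Y →* X) (m p : ℕ) [Fact p.Prime] (hmp : Nat.Coprime m p)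
    (h : ∀ x, cor (tr x) = x ^ m) :
    ∃ C D : Subgroup Y, C ⊓ D = ⊥ ∧ C ⊔ D = ⊤ ∧ Nonempty (CommGroup.primaryComponent X p ≃* C) := by
  classical
  have hp : p.Prime := Fact.out
  obtain ⟨s, c, hc, hN⟩ := Nat.exists_eq_pow_mul_and_not_dvd (Nat.card_pos (α := X)).ne' p hp.ne_one
  have hcp : Nat.Coprime (m * c) p :=
    Nat.Coprime.mul_left hmp ((Nat.Prime.coprime_iff_not_dvd hp).mpr hc).symm
  have key : ∀ x ∈ CommGroup.primaryComponent X p, x ^ (m * c) = 1 → x = 1 := by
    intro x hx hx1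
    obtain ⟨n, hn⟩ := hx
    have h1 : orderOf x ∣ m * c := orderOf_dvd_of_pow_eq_one hx1
    have h1' : orderOf x ∣ p ^ n := orderOf_dvd_of_pow_eq_one hn
    have h2 : orderOf x = 1 :=
      Nat.eq_one_of_dvd_coprimes (Nat.Coprime.pow_right n hcp) h1 h1'
    exact orderOf_eq_one_iff.mp h2
  have hmem : ∀ y, (cor y) ^ c ∈ CommGroup.primaryComponent X p := by
    intro y
    have h1 : ((cor y) ^ c) ^ (p ^ s) = 1 := by
      rw [← pow_mul, mul_comm, ← hN]
      exact pow_card_eq_one'
    exact ⟨s, h1⟩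
  have hθmem : ∀ x : CommGroup.primaryComponent X p, (x : X) ^ (m * c) ∈ CommGroup.primaryComponent X p := by
    intro x
    have := hmem (tr x)
    rw [h, ← pow_mul] at this
    exact this
  have hθinj : Function.Injective
      (fun x : CommGroup.primaryComponent X p => (⟨(x : X) ^ (m * c), hθmem x⟩ : CommGroup.primaryComponent X p)) := by
    intro x x' hxx
    have h1 : (x : X) ^ (m * c) = (x' : X) ^ (m * c) := congrArg Subtype.val hxx
    have h2 : ((x : X) * (x' : X)⁻¹) ^ (m * c) = 1 := by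
      rw [mul_pow, inv_pow, h1, mul_inv_cancel]
    have h3 := key _ (Subgroup.mul_mem _ x.2 (Subgroup.inv_mem _ x'.2)) h2
    exact Subtype.ext (mul_inv_eq_one.mp h3)
  have hθsurj := Finite.injective_iff_surjective.mp hθinj
  refine ⟨(tr.comp (CommGroup.primaryComponent X p).subtype).range, ((powMonoidHom c).comp cor).ker,
    ?_, ?_, ?_⟩
  · rw [eq_bot_iff]
    rintro y ⟨⟨x, rfl⟩, hy⟩
    have h1 : (cor (tr (x : X))) ^ c = 1 := hy
    rw [h, ← pow_mul] at h1
    have h2 := key _ x.2 h1
    rw [Subgroup.mem_bot]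
    show tr (x : X) = 1
    rw [h2, map_one]
  · rw [eq_top_iff]
    intro y _
    obtain ⟨x, hx⟩ := hθsurj ⟨(cor y) ^ c, hmem y⟩
    have hx' : (x : X) ^ (m * c) = (cor y) ^ c := congrArg Subtype.val hx
    have hy : y = tr (x : X) * ((tr (x : X))⁻¹ * y) := by group
    rw [hy]
    apply Subgroup.mul_mem_sup
    · exact ⟨x, rfl⟩
    · show ((cor ((tr (x : X))⁻¹ * y)) ^ c) = 1
      rw [map_mul, map_inv, h, mul_pow, inv_pow, ← pow_mul, hx', inv_mul_cancel]
  · have hinj : Function.Injective (tr.comp (CommGroup.primaryComponent X p).subtype) := by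
      rw [injective_iff_map_eq_one]
      intro x hx
      have h1 : tr (x : X) = 1 := hx
      have h2 : (x : X) ^ (m * c) = 1 := by
        rw [pow_mul, ← h, h1, map_one, one_pow]
      exact Subtype.ext (key _ x.2 h2)
    exact ⟨MonoidHom.ofInjective hinj⟩

/-! ### Transfer and corestriction between `F / [F, R]` and `H / [H, R]` -/

section Transfer

variable {F : Type u} {G : Type v} [Group F] [Group G] (p : F →* G) (U : Subgroup G)

instance CE.kerProjCommGroup : CommGroup (CE.proj p).ker :=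
  { (inferInstance : Group (CE.proj p).ker) with
    mul_comm := fun a b => Subtype.ext (Subgroup.mem_center_iff.mp (CE.ker_proj_le_center p b.2) a) }

theorem ker_le_comap : p.ker ≤ U.comap p := fun x hx => by
  rw [Subgroup.mem_comap, MonoidHom.mem_ker.mp hx]; exact U.one_mem

theorem conj_mem_ker (f : F) (r : p.ker) : f⁻¹ * (r : F) * f ∈ p.ker := by
  rw [MonoidHom.mem_ker, map_mul, map_mul, map_inv, MonoidHom.mem_ker.mp r.2, mul_one, inv_mul_cancel]

theorem map_commutator_le_commutator {A : Type u} {B : Type v} [Group A] [Group B] (f : A →* B) :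
    (commutator A).map f ≤ commutator B := by
  rw [commutator_def, commutator_def, Subgroup.map_commutator]
  exact Subgroup.commutator_mono le_top le_top

/-- The map `H / [H, R] → F / [F, R]` for `H` the preimage of `U`. -/
def CE.incl : CE (p.subgroupComap U) →* CE p :=
  QuotientGroup.lift _ ((CE.mk p).comp (U.comap p).subtype) (by
    rw [Subgroup.commutator_le]
    intro h _ r hr
    rw [MonoidHom.mem_ker, map_commutatorElement]
    show ⁅CE.mk p (h : F), CE.mk p (r : F)⁆ = 1
    rw [← map_commutatorElement]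
    apply (QuotientGroup.eq_one_iff _).mpr
    apply Subgroup.commutator_mem_commutator (Subgroup.mem_top _)
    have : p.subgroupComap U r = 1 := hr
    exact congrArg Subtype.val this)

theorem CE.incl_mk (h : U.comap p) : CE.incl p U (CE.mk _ h) = CE.mk p (h : F) := rfl

theorem CE.proj_incl (x : CE (p.subgroupComap U)) :
    CE.proj p (CE.incl p U x) = (CE.proj (p.subgroupComap U) x : G) := by
  obtain ⟨h, rfl⟩ := QuotientGroup.mk'_surjective _ x
  rfl

theorem CE.incl_mem_ker {x : CE (p.subgroupComap U)} (hx : x ∈ (CE.proj (p.subgroupComap U)).ker) :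
    CE.incl p U x ∈ (CE.proj p).ker := by
  rw [MonoidHom.mem_ker, CE.proj_incl, MonoidHom.mem_ker.mp hx]; rfl

theorem CE.incl_mem_mult {x : CE (p.subgroupComap U)} (hx : x ∈ CE.mult (p.subgroupComap U)) :
    CE.incl p U x ∈ CE.mult p :=
  ⟨CE.incl_mem_ker p U hx.1, map_commutator_le_commutator (CE.incl p U) (Subgroup.mem_map_of_mem _ hx.2)⟩

/-- `incl` on the kernels of the projections. -/
def CE.inclK : (CE.proj (p.subgroupComap U)).ker →* (CE.proj p).ker :=
  ((CE.incl p U).comp (Subgroup.subtype _)).codRestrict _ (fun x => CE.incl_mem_ker p U x.2)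

/-- Corestriction `M(U) → M(G)`. -/
def CE.cor : CE.mult (p.subgroupComap U) →* CE.mult p :=
  ((CE.incl p U).comp (Subgroup.subtype _)).codRestrict _ (fun x => CE.incl_mem_mult p U x.2)

theorem CE.coe_cor (x : CE.mult (p.subgroupComap U)) : (CE.cor p U x : CE p) = CE.incl p U x := rfl

/-- `r ↦ f⁻¹ r f` as a map `R → R / [H, R]`. -/
def CE.conjK (f : F) : p.ker →* (CE.proj (p.subgroupComap U)).ker where
  toFun r := ⟨CE.mk (p.subgroupComap U) ⟨f⁻¹ * (r : F) * f, ker_le_comap p U (conj_mem_ker p f r)⟩,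
    MonoidHom.mem_ker.mpr (Subtype.ext (conj_mem_ker p f r))⟩
  map_one' := by
    apply Subtype.ext
    show CE.mk (p.subgroupComap U) _ = 1
    have : (⟨f⁻¹ * ((1 : p.ker) : F) * f, ker_le_comap p U (conj_mem_ker p f 1)⟩ : U.comap p) = 1 := by
      apply Subtype.ext
      show f⁻¹ * 1 * f = 1
      group
    rw [this, map_one]
  map_mul' r s := by
    apply Subtype.ext
    show CE.mk (p.subgroupComap U) _ = CE.mk (p.subgroupComap U) _ * CE.mk (p.subgroupComap U) _
    rw [← map_mul]
    congr 1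
    apply Subtype.ext
    show f⁻¹ * ((r : F) * (s : F)) * f = (f⁻¹ * (r : F) * f) * (f⁻¹ * (s : F) * f)
    group

theorem CE.coe_conjK (f : F) (r : p.ker) :
    (CE.conjK p U f r : CE (p.subgroupComap U)) =
      CE.mk (p.subgroupComap U) ⟨f⁻¹ * (r : F) * f, ker_le_comap p U (conj_mem_ker p f r)⟩ := rfl

theorem CE.conjK_mul_right (f h : F) (hh : h ∈ U.comap p) : CE.conjK p U (f * h) = CE.conjK p U f := by
  ext r
  rw [CE.coe_conjK, CE.coe_conjK]
  have h1 : (⟨(f * h)⁻¹ * (r : F) * (f * h), ker_le_comap p U (conj_mem_ker p (f * h) r)⟩ : U.comap p) =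
      (⟨h, hh⟩ : U.comap p)⁻¹ * ⟨f⁻¹ * (r : F) * f, ker_le_comap p U (conj_mem_ker p f r)⟩ * ⟨h, hh⟩ := by
    apply Subtype.ext
    show (f * h)⁻¹ * (r : F) * (f * h) = h⁻¹ * (f⁻¹ * (r : F) * f) * h
    group
  rw [h1, map_mul, map_mul, map_inv]
  have h2 := Subgroup.mem_center_iff.mp (CE.ker_proj_le_center _ (CE.conjK p U f r).2)
    (CE.mk (p.subgroupComap U) ⟨h, hh⟩)
  rw [CE.coe_conjK] at h2
  rw [mul_assoc, ← h2, inv_mul_cancel_left]

theorem CE.conjK_eq_of_coset (f f' : F) (h : (f : F ⧸ U.comap p) = f') :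
    CE.conjK p U f = CE.conjK p U f' := by
  have h1 : f⁻¹ * f' ∈ U.comap p := QuotientGroup.eq.mp h
  have h2 : f' = f * (f⁻¹ * f') := by group
  rw [h2, CE.conjK_mul_right p U f _ h1]

theorem CE.conjK_conj (f g : F) (r : p.ker) (hr : g * (r : F) * g⁻¹ ∈ p.ker) :
    CE.conjK p U f ⟨g * (r : F) * g⁻¹, hr⟩ = CE.conjK p U (g⁻¹ * f) r := by
  apply Subtype.ext
  rw [CE.coe_conjK, CE.coe_conjK]
  congr 1
  apply Subtype.ext
  show f⁻¹ * (g * (r : F) * g⁻¹) * f = (g⁻¹ * f)⁻¹ * (r : F) * (g⁻¹ * f)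
  group

variable [(U.comap p).FiniteIndex]

/-- The pre-transfer `R → R / [H, R]`. -/
noncomputable def CE.nu : p.ker →* (CE.proj (p.subgroupComap U)).ker :=
  let _ := (U.comap p).fintypeQuotientOfFiniteIndex
  ∏ q : F ⧸ U.comap p, CE.conjK p U (Quotient.out q)

theorem CE.nu_apply (r : p.ker) :
    CE.nu p U r =
      let _ := (U.comap p).fintypeQuotientOfFiniteIndex
      ∏ q : F ⧸ U.comap p, CE.conjK p U (Quotient.out q) r := by
  unfold CE.nu
  exact MonoidHom.finsetProd_apply _ _ _

theorem CE.nu_conj (g : F) (r : p.ker) (hr : g * (r : F) * g⁻¹ ∈ p.ker) :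
    CE.nu p U ⟨g * (r : F) * g⁻¹, hr⟩ = CE.nu p U r := by
  rw [CE.nu_apply, CE.nu_apply]
  let _ := (U.comap p).fintypeQuotientOfFiniteIndex
  show ∏ q : F ⧸ U.comap p, CE.conjK p U (Quotient.out q) ⟨g * (r : F) * g⁻¹, hr⟩ =
    ∏ q : F ⧸ U.comap p, CE.conjK p U (Quotient.out q) r
  refine Fintype.prod_equiv (MulAction.toPerm g⁻¹) _ _ (fun q => ?_)
  rw [CE.conjK_conj]
  congr 1
  apply CE.conjK_eq_of_coset
  rw [MulAction.toPerm_apply, QuotientGroup.out_eq']
  conv_rhs => rw [← QuotientGroup.out_eq' q]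
  rfl

theorem CE.nu_eq_one_of_mem_FR (r : p.ker) (hr : (r : F) ∈ FR p) : CE.nu p U r = 1 := by
  have h1 : FR p ≤ (CE.nu p U).ker.map p.ker.subtype := by
    rw [Subgroup.commutator_le]
    intro g _ s hs
    have hs' : g * s * g⁻¹ ∈ p.ker := (MonoidHom.normal_ker p).conj_mem s hs g
    refine ⟨(⟨g * s * g⁻¹, hs'⟩ : p.ker) * (⟨s, hs⟩ : p.ker)⁻¹, ?_, ?_⟩
    · show _ ∈ (CE.nu p U).ker
      rw [MonoidHom.mem_ker, map_mul, map_inv]
      have := CE.nu_conj p U g ⟨s, hs⟩ hs'
      rw [this, mul_inv_cancel]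
    · show g * s * g⁻¹ * s⁻¹ = ⁅g, s⁆
      rw [commutatorElement_def]
  obtain ⟨y, hy, hyr⟩ := h1 hr
  have : y = r := Subtype.ext hyr
  rw [← this]
  exact hy

theorem CE.nu_eq_of_mk_eq (r s : p.ker) (h : CE.mk p (r : F) = CE.mk p (s : F)) :
    CE.nu p U r = CE.nu p U s := by
  have h1 : ((r⁻¹ * s : p.ker) : F) ∈ FR p := QuotientGroup.eq.mp h
  have h2 := CE.nu_eq_one_of_mem_FR p U _ h1
  rw [map_mul, map_inv] at h2
  exact inv_mul_eq_one.mp h2

theorem CE.inclK_nu (r : p.ker) :
    CE.inclK p U (CE.nu p U r) =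
      (⟨CE.mk p (r : F), MonoidHom.mem_ker.mpr r.2⟩ : (CE.proj p).ker) ^ (U.comap p).index := by
  rw [CE.nu_apply]
  let _ := (U.comap p).fintypeQuotientOfFiniteIndex
  show CE.inclK p U (∏ q : F ⧸ U.comap p, CE.conjK p U (Quotient.out q) r) = _
  rw [map_prod]
  have h1 : ∀ q : F ⧸ U.comap p, CE.inclK p U (CE.conjK p U (Quotient.out q) r) =
      (⟨CE.mk p (r : F), MonoidHom.mem_ker.mpr r.2⟩ : (CE.proj p).ker) := by
    intro q
    apply Subtype.ext
    show CE.mk p ((Quotient.out q)⁻¹ * (r : F) * (Quotient.out q)) = CE.mk p (r : F)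
    rw [map_mul, map_mul, map_inv]
    have hc : CE.mk p (r : F) ∈ Subgroup.center (CE p) :=
      CE.ker_proj_le_center p (MonoidHom.mem_ker.mpr r.2)
    have h2 := Subgroup.mem_center_iff.mp hc (CE.mk p (Quotient.out q))
    rw [mul_assoc, ← h2, inv_mul_cancel_left]
  rw [Finset.prod_congr rfl (fun q _ => h1 q), Finset.prod_const, Finset.card_univ,
    Subgroup.index_eq_card, Nat.card_eq_fintype_card]

theorem CE.nu_mem_commutator (r : p.ker) (hr : (r : F) ∈ commutator F) :
    (CE.nu p U r : CE (p.subgroupComap U)) ∈ commutator (CE (p.subgroupComap U)) := by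
  let ϕ : (U.comap p) →* Abelianization (CE (p.subgroupComap U)) :=
    Abelianization.of.comp (CE.mk (p.subgroupComap U))
  have h1 : MonoidHom.transfer ϕ (r : F) = 1 :=
    MonoidHom.mem_ker.mp (Abelianization.commutator_subset_ker _ hr)
  let T : (U.comap p).LeftTransversal :=
    ⟨Set.range Quotient.out, Subgroup.isComplement_range_left QuotientGroup.out_eq'⟩
  have hT : ∀ q : F ⧸ U.comap p, (T.2.leftQuotientEquiv q : F) = Quotient.out q :=
    fun q => Subgroup.IsComplement.leftQuotientEquiv_apply QuotientGroup.out_eq' q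
  have hfix : ∀ q : F ⧸ U.comap p, (r : F)⁻¹ • q = q := by
    intro q
    induction q using QuotientGroup.induction_on with
    | H f =>
      show ((((r : F)⁻¹ * f : F)) : F ⧸ U.comap p) = f
      apply QuotientGroup.eq.mpr
      have : ((r : F)⁻¹ * f)⁻¹ * f = f⁻¹ * (r : F) * f := by group
      rw [this]
      exact ker_le_comap p U (conj_mem_ker p f r)
  rw [MonoidHom.transfer_def ϕ T] at h1
  unfold Subgroup.leftTransversals.diff at h1
  have h2 : Abelianization.of (CE.nu p U r : CE (p.subgroupComap U)) = 1 := by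
    rw [← h1, CE.nu_apply]
    let _ := (U.comap p).fintypeQuotientOfFiniteIndex
    show (Abelianization.of.comp (Subgroup.subtype _))
      (∏ q : F ⧸ U.comap p, CE.conjK p U (Quotient.out q) r) = _
    rw [map_prod]
    refine Finset.prod_congr rfl (fun q _ => ?_)
    show Abelianization.of (CE.mk (p.subgroupComap U) _) = Abelianization.of (CE.mk (p.subgroupComap U) _)
    congr 2
    apply Subtype.ext
    show (Quotient.out q)⁻¹ * (r : F) * (Quotient.out q) =
      (T.2.leftQuotientEquiv q : F)⁻¹ * (((r : F) • T).2.leftQuotientEquiv q : F)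
    rw [Subgroup.smul_apply_eq_smul_apply_inv_smul, hfix, hT, smul_eq_mul, mul_assoc]
  have h3 : (CE.nu p U r : CE (p.subgroupComap U)) ∈ (Abelianization.of (G := CE (p.subgroupComap U))).ker :=
    MonoidHom.mem_ker.mpr h2
  rwa [Abelianization.ker_of] at h3

omit [(U.comap p).FiniteIndex] in
theorem CE.exists_lift_of_mem_mult (x : CE p) (hx : x ∈ CE.mult p) :
    ∃ c : p.ker, (c : F) ∈ commutator F ∧ CE.mk p (c : F) = x := by
  have h1 : x ∈ (commutator F).map (CE.mk p) := by rw [CE.map_mk_commutator]; exact hx.2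
  obtain ⟨c, hc, rfl⟩ := h1
  exact ⟨⟨c, MonoidHom.mem_ker.mpr (MonoidHom.mem_ker.mp hx.1)⟩, hc, rfl⟩

/-- The transfer `M(G) → M(U)` as a function. -/
noncomputable def CE.trFun (x : CE.mult p) : CE.mult (p.subgroupComap U) :=
  ⟨CE.nu p U (Classical.choose (CE.exists_lift_of_mem_mult p x x.2)),
    ⟨(CE.nu p U _).2, CE.nu_mem_commutator p U _
      (Classical.choose_spec (CE.exists_lift_of_mem_mult p x x.2)).1⟩⟩

theorem CE.coe_trFun (x : CE.mult p) (c : p.ker) (hc : CE.mk p (c : F) = x) :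
    (CE.trFun p U x : CE (p.subgroupComap U)) = CE.nu p U c := by
  show ((CE.nu p U (Classical.choose (CE.exists_lift_of_mem_mult p x x.2)) :
    (CE.proj (p.subgroupComap U)).ker) : CE (p.subgroupComap U)) = _
  rw [CE.nu_eq_of_mk_eq p U _ c
    ((Classical.choose_spec (CE.exists_lift_of_mem_mult p x x.2)).2.trans hc.symm)]

/-- The transfer `M(G) → M(U)`. -/
noncomputable def CE.tr : CE.mult p →* CE.mult (p.subgroupComap U) where
  toFun := CE.trFun p U
  map_one' := by
    apply Subtype.ext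
    rw [CE.coe_trFun p U 1 1 (by rw [Subgroup.coe_one, map_one]; rfl), map_one]
    rfl
  map_mul' x y := by
    obtain ⟨c, -, hc⟩ := CE.exists_lift_of_mem_mult p x x.2
    obtain ⟨d, -, hd⟩ := CE.exists_lift_of_mem_mult p y y.2
    apply Subtype.ext
    rw [CE.coe_trFun p U (x * y) (c * d) (by rw [Subgroup.coe_mul, map_mul, hc, hd]; rfl)]
    show _ = (CE.trFun p U x : CE (p.subgroupComap U)) * (CE.trFun p U y : CE (p.subgroupComap U))
    rw [CE.coe_trFun p U x c hc, CE.coe_trFun p U y d hd, map_mul]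
    rfl

theorem CE.cor_tr (x : CE.mult p) : CE.cor p U (CE.tr p U x) = x ^ (U.comap p).index := by
  obtain ⟨c, -, hc⟩ := CE.exists_lift_of_mem_mult p x x.2
  apply Subtype.ext
  rw [CE.coe_cor]
  show CE.incl p U (CE.trFun p U x : CE (p.subgroupComap U)) = _
  rw [CE.coe_trFun p U x c hc]
  have h1 := congrArg Subtype.val (CE.inclK_nu p U c)
  have h2 : ((CE.inclK p U (CE.nu p U c) : (CE.proj p).ker) : CE p) = CE.incl p U (CE.nu p U c) := rfl
  rw [← h2, h1, Subgroup.coe_pow, Subgroup.coe_pow]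
  exact congrArg (fun y => y ^ (U.comap p).index) hc

end Transfer

/-- The `p`-primary part of the multiplier of `G` is a direct factor of the multiplier of a subgroup of index
prime to `p`. -/
theorem exists_direct_factor_of_index_coprime {G : Type u} [Group G] [Finite G] (p : ℕ) [Fact p.Prime]
    (U : Subgroup G) (hU : Nat.Coprime U.index p) {A : Type v} {B : Type w} [CommGroup A] [CommGroup B]
    (hA : Cfsg.HasSchurMultiplier G A) (hB : Cfsg.HasSchurMultiplier U B) :
    ∃ C D : Subgroup B, C ⊓ D = ⊥ ∧ C ⊔ D = ⊤ ∧ Nonempty (CommGroup.primaryComponent A p ≃* C) := by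
  classical
  let π : FreeGroup G →* G := FreeGroup.lift id
  have hπ : Function.Surjective π := fun g => ⟨FreeGroup.of g, by simp [π]⟩
  have hidx : (U.comap π).index = U.index := Subgroup.index_comap_of_surjective U hπ
  have hfi : (U.comap π).FiniteIndex := ⟨by rw [hidx]; exact Subgroup.index_ne_zero_of_finite⟩
  have hπH : Function.Surjective (π.subgroupComap U) :=
    MonoidHom.subgroupComap_surjective_of_surjective π U hπ
  have : Group.FG (FreeGroup G) := inferInstance
  have : Group.FG (U.comap π) := Subgroup.fg_of_index_ne_zero _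
  have := free_abelianization_of_isFreeGroup (U.comap π)
  have := finite_abelianization_of_fg (U.comap π)
  obtain ⟨eA⟩ := CE.nonempty_equiv_mult π hπ hA
  obtain ⟨eB⟩ := CE.nonempty_equiv_mult (π.subgroupComap U) hπH hB
  have : Finite (CE.mult π) := CE.finite_mult π hπ
  have : Finite A := Finite.of_equiv _ eA.symm.toEquiv
  refine exists_direct_factor
    ((eB.symm.toMonoidHom.comp (CE.tr π U)).comp eA.toMonoidHom)
    ((eA.symm.toMonoidHom.comp (CE.cor π U)).comp eB.toMonoidHom) U.index p hU ?_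
  intro x
  show eA.symm (CE.cor π U (eB (eB.symm (CE.tr π U (eA x))))) = x ^ U.index
  rw [MulEquiv.apply_symm_apply, CE.cor_tr, hidx, map_pow, MulEquiv.symm_apply_apply]

end Cfsg.Agent.Lib.Helper70
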