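import Mathlib
import Cfsg.Agent.S3967
import Cfsg.Agent.Lib.Helper70.SchurLocal

set_option autoImplicit false

/-!
# Concrete metacyclic groups (helper70)

A group generated by `a`, `b` with `a ^ m = 1`, `b ^ n = a ^ t`, `b a b⁻¹ = a ^ r` and of order at least
`m n` is isomorphic to the presented metacyclic group, so its Schur multiplier is given by `S3967`.
-/

namespace Cfsg.Agent.Lib.Helper70

open Cfsg.Agent.S3967

universe u

theorem card_pres_le (m n r t : ℕ) (hm : 0 < m) (hn : 0 < n) :
    Nat.card (PresentedGroup (rels m n r t)) ≤ m * n := by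
  let α : PresentedGroup (rels m n r t) := PresentedGroup.of true
  let β : PresentedGroup (rels m n r t) := PresentedGroup.of false
  have h1 : α ^ m = 1 := pres_rel1 m n r t
  have h2 : β ^ n = α ^ t := pres_rel2 m n r t
  have h3 : β * α * β⁻¹ = α ^ r := pres_rel3 m n r t
  let H : Subgroup (PresentedGroup (rels m n r t)) := Subgroup.zpowers α
  have hfo : IsOfFinOrder α := isOfFinOrder_iff_pow_eq_one.mpr ⟨m, hm, h1⟩
  have hHfin : Finite H := by
    have := (finite_zpowers (a := α)).mpr hfo
    exact this.to_subtype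
  -- conjugation by β maps H into H
  have hβ : ∀ h ∈ H, β * h * β⁻¹ ∈ H := by
    rintro _ ⟨k, rfl⟩
    have : β * α ^ k * β⁻¹ = (β * α * β⁻¹) ^ k := by
      rw [← MulAut.conj_apply, map_zpow, MulAut.conj_apply]
    rw [this, h3]
    exact Subgroup.zpow_mem _ (Subgroup.pow_mem _ (Subgroup.mem_zpowers α) r) k
  have hβj : ∀ (j : ℕ), ∀ h ∈ H, β ^ j * h * (β ^ j)⁻¹ ∈ H := by
    intro j
    induction j with
    | zero => intro h hh; simpa using hh
    | succ j ih =>
      intro h hh
      have : β ^ (j + 1) * h * (β ^ (j + 1))⁻¹ = β * (β ^ j * h * (β ^ j)⁻¹) * β⁻¹ := by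
        rw [pow_succ']; group
      rw [this]
      exact hβ _ (ih h hh)
  have hβ' : ∀ h ∈ H, β⁻¹ * h * β ∈ H := by
    intro h hh
    obtain ⟨n', rfl⟩ : ∃ n', n = n' + 1 := ⟨n - 1, by omega⟩
    have hcomm : (α ^ t)⁻¹ * h * α ^ t = h := by
      obtain ⟨k, rfl⟩ := hh
      rw [← zpow_natCast α t, ← zpow_neg, ← zpow_add, ← zpow_add]
      congr 1; ring
    have : β⁻¹ * h * β = β ^ n' * h * (β ^ n')⁻¹ := by
      have hb : β⁻¹ = β ^ n' * (α ^ t)⁻¹ := by
        rw [← h2, pow_succ]; group
      have hb2 : β = α ^ t * (β ^ n')⁻¹ := by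
        rw [← h2, pow_succ']; group
      calc β⁻¹ * h * β = (β ^ n' * (α ^ t)⁻¹) * h * (α ^ t * (β ^ n')⁻¹) := by rw [← hb, ← hb2]
        _ = β ^ n' * ((α ^ t)⁻¹ * h * α ^ t) * (β ^ n')⁻¹ := by group
        _ = β ^ n' * h * (β ^ n')⁻¹ := by rw [hcomm]
    rw [this]
    exact hβj n' h hh
  have hnorm : H.Normal := by
    constructor
    intro h hh g
    have key : g ∈ (Subgroup.normalizer (H : Set (PresentedGroup (rels m n r t)))) := by
      apply PresentedGroup.generated_by
      intro j
      rw [Subgroup.mem_normalizer_iff]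
      cases j with
      | true =>
        intro x
        constructor
        · intro hx
          exact H.mul_mem (H.mul_mem (Subgroup.mem_zpowers α) hx) (H.inv_mem (Subgroup.mem_zpowers α))
        · intro hx
          have : x = α⁻¹ * (α * x * α⁻¹) * α := by group
          rw [this]
          exact H.mul_mem (H.mul_mem (H.inv_mem (Subgroup.mem_zpowers α)) hx) (Subgroup.mem_zpowers α)
      | false =>
        intro x
        constructor
        · exact hβ x
        · intro hx
          have : x = β⁻¹ * (β * x * β⁻¹) * β := by group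
          rw [this]
          exact hβ' _ hx
    exact (Subgroup.mem_normalizer_iff.mp key h).mp hh
  have htop : Subgroup.zpowers (QuotientGroup.mk' H β) = ⊤ := by
    rw [eq_top_iff]
    rintro x -
    obtain ⟨g, rfl⟩ := QuotientGroup.mk'_surjective H x
    have : g ∈ (Subgroup.zpowers (QuotientGroup.mk' H β)).comap (QuotientGroup.mk' H) := by
      apply PresentedGroup.generated_by
      intro j
      cases j with
      | true =>
        rw [Subgroup.mem_comap]
        have : QuotientGroup.mk' H (PresentedGroup.of true) = 1 :=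
          (QuotientGroup.eq_one_iff _).mpr (Subgroup.mem_zpowers α)
        rw [this]
        exact Subgroup.one_mem _
      | false => exact Subgroup.mem_zpowers _
    exact this
  have hfo2 : IsOfFinOrder (QuotientGroup.mk' H β) := by
    refine isOfFinOrder_iff_pow_eq_one.mpr ⟨n, hn, ?_⟩
    rw [← map_pow, h2]
    exact (QuotientGroup.eq_one_iff _).mpr (Subgroup.pow_mem _ (Subgroup.mem_zpowers α) t)
  have : Finite (PresentedGroup (rels m n r t)) := finite_pres m n r t hm hn
  have hc1 : Nat.card H ≤ m := by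
    rw [Nat.card_zpowers]
    exact Nat.le_of_dvd hm (orderOf_dvd_of_pow_eq_one h1)
  have hc2 : Nat.card (PresentedGroup (rels m n r t) ⧸ H) ≤ n := by
    have e : Nat.card (PresentedGroup (rels m n r t) ⧸ H) =
        Nat.card (Subgroup.zpowers (QuotientGroup.mk' H β)) := by
      rw [htop, Subgroup.card_top]
    rw [e, Nat.card_zpowers]
    refine Nat.le_of_dvd hn (orderOf_dvd_of_pow_eq_one ?_)
    rw [← map_pow, h2]
    exact (QuotientGroup.eq_one_iff _).mpr (Subgroup.pow_mem _ (Subgroup.mem_zpowers α) t)
  rw [Subgroup.card_eq_card_quotient_mul_card_subgroup H, mul_comm m n]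
  exact Nat.mul_le_mul hc2 hc1

/-- A finite group generated by `a`, `b` with the metacyclic relations and of order at least `m n` has the
Schur multiplier of the presented metacyclic group. -/
theorem hasCyclicSchurMultiplier_of_metacyclic {H : Type u} [Group H] [Finite H] (a b : H)
    (m n r l : ℕ) (hm : 0 < m) (hn : 0 < n) (hr : 0 < r) (hrn : r ^ n ≡ 1 [MOD m])
    (h1 : a ^ m = 1) (h2 : b ^ n = a ^ (m * l / Nat.gcd m (r - 1))) (h3 : b * a * b⁻¹ = a ^ r)
    (hgen : Subgroup.closure {a, b} = ⊤) (hcard : m * n ≤ Nat.card H) :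
    Cfsg.HasCyclicSchurMultiplier H
      (Nat.gcd l (Nat.gcd m (r - 1) * Nat.gcd m (∑ i ∈ Finset.range n, r ^ i) / m)) := by
  have hrel : ∀ ρ ∈ rels m n r (m * l / Nat.gcd m (r - 1)),
      FreeGroup.lift (fun x : Bool => if x then a else b) ρ = 1 := by
    intro ρ hρ
    rcases hρ with rfl | rfl | rfl
    · simp [h1]
    · simp [h2]
    · simp [h3]
  let f : PresentedGroup (rels m n r (m * l / Nat.gcd m (r - 1))) →* H := PresentedGroup.toGroup hrel
  have hfa : f (PresentedGroup.of true) = a := by
    simp [f, PresentedGroup.toGroup.of]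
  have hfb : f (PresentedGroup.of false) = b := by
    simp [f, PresentedGroup.toGroup.of]
  have hsurj : Function.Surjective f := by
    rw [← MonoidHom.range_eq_top, eq_top_iff, ← hgen, Subgroup.closure_le]
    rintro x (rfl | rfl)
    · exact ⟨_, hfa⟩
    · exact ⟨_, hfb⟩
  have : Finite (PresentedGroup (rels m n r (m * l / Nat.gcd m (r - 1)))) :=
    finite_pres m n r _ hm hn
  have hbij : Function.Bijective f :=
    hsurj.bijective_of_nat_card_le ((card_pres_le m n r _ hm hn).trans hcard)
  exact hasSchurMultiplier_of_mulEquiv (MulEquiv.ofBijective f hbij)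
    (Cfsg.Agent.S3967.result m n r l hm hn hr hrn)

end Cfsg.Agent.Lib.Helper70
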