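import Mathlib
import Cfsg.Agent.Lib.Helper70.SchurCE3

set_option autoImplicit false

namespace Cfsg.Agent.Lib.Helper70

universe u v

section Monomial

variable {Δ : Type u} {Q : Type v} [Group Δ] [Group Q] (τ : Δ →* Q)

/-- Extension by zero (outside `ker τ`) of a character of the centre. -/
noncomputable def extChar (lam : Subgroup.center Δ →* ℂˣ) (d : Δ) : ℂ :=
  open Classical in
  if h : d ∈ Subgroup.center Δ then (if d ∈ τ.ker then ((lam ⟨d, h⟩ : ℂˣ) : ℂ) else 0) else 0

theorem extChar_of_mem (hτc : τ.ker ≤ Subgroup.center Δ) (lam : Subgroup.center Δ →* ℂˣ) {d : Δ}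
    (hd : d ∈ τ.ker) : extChar τ lam d = ((lam ⟨d, hτc hd⟩ : ℂˣ) : ℂ) := by
  unfold extChar
  rw [dif_pos (hτc hd), if_pos hd]

theorem extChar_of_not_mem (lam : Subgroup.center Δ →* ℂˣ) {d : Δ}
    (hd : d ∉ τ.ker) : extChar τ lam d = 0 := by
  unfold extChar
  split_ifs <;> rfl

theorem extChar_one (lam : Subgroup.center Δ →* ℂˣ) : extChar τ lam 1 = 1 := by
  unfold extChar
  rw [dif_pos (Subgroup.one_mem _), if_pos (Subgroup.one_mem _)]
  have : (⟨1, Subgroup.one_mem _⟩ : Subgroup.center Δ) = 1 := rfl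
  rw [this, map_one]
  rfl

theorem extChar_mul (hτc : τ.ker ≤ Subgroup.center Δ) (lam : Subgroup.center Δ →* ℂˣ) {a : Δ} (b : Δ)
    (ha : a ∈ τ.ker) : extChar τ lam (a * b) = extChar τ lam a * extChar τ lam b := by
  by_cases hb : b ∈ τ.ker
  · rw [extChar_of_mem τ hτc lam ha, extChar_of_mem τ hτc lam hb,
      extChar_of_mem τ hτc lam (Subgroup.mul_mem _ ha hb), ← Units.val_mul, ← map_mul]
    rfl
  · have hab : a * b ∉ τ.ker := by
      intro h
      apply hb
      have := Subgroup.mul_mem _ (Subgroup.inv_mem _ ha) h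
      simpa using this
    rw [extChar_of_not_mem τ lam hb, extChar_of_not_mem τ lam hab, mul_zero]

variable {n : ℕ}

/-- The monomial matrix of `d` with respect to the transversal `t`. -/
noncomputable def monoMat (lam : Subgroup.center Δ →* ℂˣ) (t : Fin n → Δ) (d : Δ) :
    Matrix (Fin n) (Fin n) ℂ :=
  Matrix.of fun i j => extChar τ lam (t i * d * (t j)⁻¹)

theorem monoMat_one (lam : Subgroup.center Δ →* ℂˣ) (t : Fin n → Δ)
    (ht : Function.Injective (fun i => τ (t i))) : monoMat τ lam t 1 = 1 := by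
  ext i j
  rw [Matrix.one_apply]
  show extChar τ lam (t i * 1 * (t j)⁻¹) = _
  split_ifs with h
  · subst h
    rw [mul_one, mul_inv_cancel, extChar_one]
  · apply extChar_of_not_mem
    intro hk
    apply h
    apply ht
    have : τ (t i * 1 * (t j)⁻¹) = 1 := hk
    rw [mul_one, map_mul, map_inv, mul_inv_eq_one] at this
    exact this

theorem monoMat_mul (hτc : τ.ker ≤ Subgroup.center Δ) (lam : Subgroup.center Δ →* ℂˣ) (t : Fin n → Δ)
    (ht : Function.Bijective (fun i => τ (t i))) (d d' : Δ) :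
    monoMat τ lam t (d * d') = monoMat τ lam t d * monoMat τ lam t d' := by
  ext i k
  rw [Matrix.mul_apply]
  obtain ⟨j₀, hj₀⟩ := ht.2 (τ (t i) * τ d)
  have hj₀' : τ (t j₀) = τ (t i) * τ d := hj₀
  rw [Finset.sum_eq_single j₀]
  · show extChar τ lam (t i * (d * d') * (t k)⁻¹) =
      extChar τ lam (t i * d * (t j₀)⁻¹) * extChar τ lam (t j₀ * d' * (t k)⁻¹)
    have ha : t i * d * (t j₀)⁻¹ ∈ τ.ker := by
      rw [MonoidHom.mem_ker, map_mul, map_mul, map_inv, hj₀', mul_inv_cancel]
    rw [← extChar_mul τ hτc lam _ ha]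
    congr 1
    group
  · intro j _ hj
    have : t i * d * (t j)⁻¹ ∉ τ.ker := by
      intro hk
      apply hj
      apply ht.1
      have h1 : τ (t i * d * (t j)⁻¹) = 1 := hk
      rw [map_mul, map_mul, map_inv, mul_inv_eq_one] at h1
      show τ (t j) = τ (t j₀)
      rw [hj₀', h1]
    show extChar τ lam (t i * d * (t j)⁻¹) * _ = 0
    rw [extChar_of_not_mem τ lam this, zero_mul]
  · intro h
    exact absurd (Finset.mem_univ _) h

theorem monoMat_central (hτc : τ.ker ≤ Subgroup.center Δ) (lam : Subgroup.center Δ →* ℂˣ) (t : Fin n → Δ)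
    (ht : Function.Injective (fun i => τ (t i))) {z : Δ} (hz : z ∈ τ.ker) :
    monoMat τ lam t z = Matrix.scalar (Fin n) ((lam ⟨z, hτc hz⟩ : ℂˣ) : ℂ) := by
  ext i j
  show extChar τ lam (t i * z * (t j)⁻¹) = _
  have hcomm : t i * z * (t j)⁻¹ = z * (t i * 1 * (t j)⁻¹) := by
    have := (Subgroup.mem_center_iff.mp (hτc hz)) (t i)
    rw [mul_one, ← mul_assoc, this]
  rw [hcomm, extChar_mul τ hτc lam _ hz, extChar_of_mem τ hτc lam hz]
  have h1 := congrFun (congrFun (monoMat_one τ lam t ht) i) j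
  have h2 : extChar τ lam (t i * 1 * (t j)⁻¹) = (1 : Matrix (Fin n) (Fin n) ℂ) i j := h1
  rw [h2, Matrix.scalar_apply, Matrix.diagonal_apply, Matrix.one_apply]
  split_ifs <;> simp

/-- The monomial (induced) representation of `Δ` attached to a character of the centre and a transversal. -/
noncomputable def monoRep (hτc : τ.ker ≤ Subgroup.center Δ) (lam : Subgroup.center Δ →* ℂˣ) (t : Fin n → Δ)
    (ht : Function.Bijective (fun i => τ (t i))) : Δ →* GL (Fin n) ℂ :=
  MonoidHom.toHomUnits
    { toFun := monoMat τ lam t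
      map_one' := monoMat_one τ lam t ht.1
      map_mul' := monoMat_mul τ hτc lam t ht }

theorem monoRep_central (hτc : τ.ker ≤ Subgroup.center Δ) (lam : Subgroup.center Δ →* ℂˣ) (t : Fin n → Δ)
    (ht : Function.Bijective (fun i => τ (t i))) {z : Δ} (hz : z ∈ τ.ker) :
    monoRep τ hτc lam t ht z = Matrix.GeneralLinearGroup.scalar (Fin n) (lam ⟨z, hτc hz⟩) := by
  apply Units.ext
  rw [Matrix.GeneralLinearGroup.coe_scalar]
  exact monoMat_central τ hτc lam t ht.1 hz

/-- For a central extension `τ : Δ → Q` of a finite group and a character `lam` of the centre of `Δ`,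
there is a linear representation of `Δ` of positive degree in which `ker τ` acts by the scalars `lam`. -/
theorem exists_rep_of_central_character [Finite Q] (hτs : Function.Surjective τ)
    (hτc : τ.ker ≤ Subgroup.center Δ) (lam : Subgroup.center Δ →* ℂˣ) :
    ∃ (n : ℕ) (R : Δ →* GL (Fin n) ℂ), 0 < n ∧ ∀ z (hz : z ∈ τ.ker),
      R z = Matrix.GeneralLinearGroup.scalar (Fin n) (lam ⟨z, hτc hz⟩) := by
  obtain ⟨n, ⟨e⟩⟩ := Finite.exists_equiv_fin Q
  have hn : 0 < n := by
    rcases Nat.eq_zero_or_pos n with h | h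
    · subst h
      exact (e 1).elim0
    · exact h
  choose s hs using hτs
  have ht : Function.Bijective (fun i => τ (s (e.symm i))) := by
    have : (fun i => τ (s (e.symm i))) = e.symm := by
      funext i
      exact hs _
    rw [this]
    exact e.symm.bijective
  exact ⟨n, monoRep τ hτc lam (fun i => s (e.symm i)) ht, hn,
    fun z hz => monoRep_central τ hτc lam _ ht hz⟩

end Monomial

end Cfsg.Agent.Lib.Helper70
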