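import Mathlib
import Cfsg.Agent.Lib.Helper70.SchurCE3

set_option autoImplicit false

namespace Cfsg.Agent.Lib.Helper70

universe u v

section MonomialK

variable {Δ : Type u} {Q : Type v} [Group Δ] [Group Q] (τ : Δ →* Q)

/-- Extension by zero of a character of `ker τ`. -/
noncomputable def extK (lam : τ.ker →* ℂˣ) (d : Δ) : ℂ :=
  open Classical in if h : d ∈ τ.ker then ((lam ⟨d, h⟩ : ℂˣ) : ℂ) else 0

theorem extK_of_mem (lam : τ.ker →* ℂˣ) {d : Δ} (hd : d ∈ τ.ker) :
    extK τ lam d = ((lam ⟨d, hd⟩ : ℂˣ) : ℂ) := by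
  unfold extK
  rw [dif_pos hd]

theorem extK_of_not_mem (lam : τ.ker →* ℂˣ) {d : Δ} (hd : d ∉ τ.ker) : extK τ lam d = 0 := by
  unfold extK
  rw [dif_neg hd]

theorem extK_ne_zero (lam : τ.ker →* ℂˣ) {d : Δ} (hd : d ∈ τ.ker) : extK τ lam d ≠ 0 := by
  rw [extK_of_mem τ lam hd]
  exact Units.ne_zero _

theorem extK_one (lam : τ.ker →* ℂˣ) : extK τ lam 1 = 1 := by
  rw [extK_of_mem τ lam (Subgroup.one_mem _)]
  have : (⟨1, Subgroup.one_mem _⟩ : τ.ker) = 1 := rfl
  rw [this, map_one]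
  rfl

theorem extK_mul (lam : τ.ker →* ℂˣ) {a : Δ} (b : Δ) (ha : a ∈ τ.ker) :
    extK τ lam (a * b) = extK τ lam a * extK τ lam b := by
  by_cases hb : b ∈ τ.ker
  · rw [extK_of_mem τ lam ha, extK_of_mem τ lam hb, extK_of_mem τ lam (Subgroup.mul_mem _ ha hb),
      ← Units.val_mul, ← map_mul]
    rfl
  · have hab : a * b ∉ τ.ker := by
      intro h
      apply hb
      have := Subgroup.mul_mem _ (Subgroup.inv_mem _ ha) h
      simpa using this
    rw [extK_of_not_mem τ lam hb, extK_of_not_mem τ lam hab, mul_zero]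

variable {n : ℕ}

/-- The monomial matrix of `d` with respect to the transversal `t`. -/
noncomputable def monoMatK (lam : τ.ker →* ℂˣ) (t : Fin n → Δ) (d : Δ) : Matrix (Fin n) (Fin n) ℂ :=
  Matrix.of fun i j => extK τ lam (t i * d * (t j)⁻¹)

theorem monoMatK_apply (lam : τ.ker →* ℂˣ) (t : Fin n → Δ) (d : Δ) (i j : Fin n) :
    monoMatK τ lam t d i j = extK τ lam (t i * d * (t j)⁻¹) := rfl

theorem monoMatK_one (lam : τ.ker →* ℂˣ) (t : Fin n → Δ)
    (ht : Function.Injective (fun i => τ (t i))) : monoMatK τ lam t 1 = 1 := by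
  ext i j
  rw [Matrix.one_apply, monoMatK_apply]
  split_ifs with h
  · subst h
    rw [mul_one, mul_inv_cancel, extK_one]
  · apply extK_of_not_mem
    intro hk
    apply h
    apply ht
    have : τ (t i * 1 * (t j)⁻¹) = 1 := hk
    rw [mul_one, map_mul, map_inv, mul_inv_eq_one] at this
    exact this

theorem monoMatK_mul (lam : τ.ker →* ℂˣ) (t : Fin n → Δ)
    (ht : Function.Bijective (fun i => τ (t i))) (d d' : Δ) :
    monoMatK τ lam t (d * d') = monoMatK τ lam t d * monoMatK τ lam t d' := by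
  ext i k
  rw [Matrix.mul_apply]
  obtain ⟨j₀, hj₀⟩ := ht.2 (τ (t i) * τ d)
  have hj₀' : τ (t j₀) = τ (t i) * τ d := hj₀
  rw [Finset.sum_eq_single j₀]
  · rw [monoMatK_apply, monoMatK_apply, monoMatK_apply]
    have ha : t i * d * (t j₀)⁻¹ ∈ τ.ker := by
      rw [MonoidHom.mem_ker, map_mul, map_mul, map_inv, hj₀', mul_inv_cancel]
    rw [← extK_mul τ lam _ ha]
    congr 1
    group
  · intro j _ hj
    have : t i * d * (t j)⁻¹ ∉ τ.ker := by
      intro hk
      apply hj
      apply ht.1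
      have h1 : τ (t i * d * (t j)⁻¹) = 1 := hk
      rw [map_mul, map_mul, map_inv, mul_inv_eq_one] at h1
      show τ (t j) = τ (t j₀)
      rw [hj₀', h1]
    rw [monoMatK_apply, extK_of_not_mem τ lam this, zero_mul]
  · intro h
    exact absurd (Finset.mem_univ _) h

theorem monoMatK_central (hτc : τ.ker ≤ Subgroup.center Δ) (lam : τ.ker →* ℂˣ) (t : Fin n → Δ)
    (ht : Function.Injective (fun i => τ (t i))) {z : Δ} (hz : z ∈ τ.ker) :
    monoMatK τ lam t z = ((lam ⟨z, hz⟩ : ℂˣ) : ℂ) • (1 : Matrix (Fin n) (Fin n) ℂ) := by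
  ext i j
  rw [monoMatK_apply]
  have hcomm : t i * z * (t j)⁻¹ = z * (t i * 1 * (t j)⁻¹) := by
    have := (Subgroup.mem_center_iff.mp (hτc hz)) (t i)
    rw [mul_one, ← mul_assoc, this]
  rw [hcomm, extK_mul τ lam _ hz, extK_of_mem τ lam hz, ← monoMatK_apply, monoMatK_one τ lam t ht]
  rfl

/-- The monomial representation as a monoid homomorphism into matrices. -/
noncomputable def monoHomK (lam : τ.ker →* ℂˣ) (t : Fin n → Δ)
    (ht : Function.Bijective (fun i => τ (t i))) : Δ →* Matrix (Fin n) (Fin n) ℂ where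
  toFun := monoMatK τ lam t
  map_one' := monoMatK_one τ lam t ht.1
  map_mul' := monoMatK_mul τ lam t ht

/-- The algebra generated by the monomial representation has dimension `n = |Q|`. -/
theorem finrank_range_lift_monoHomK (hτc : τ.ker ≤ Subgroup.center Δ) (lam : τ.ker →* ℂˣ) (t : Fin n → Δ)
    (ht : Function.Bijective (fun i => τ (t i))) :
    Module.finrank ℂ (MonoidAlgebra.lift ℂ (Matrix (Fin n) (Fin n) ℂ) Δ (monoHomK τ lam t ht)).range = n := by
  classical
  obtain ⟨i₀, hi₀⟩ := ht.2 1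
  have hi₀' : t i₀ ∈ τ.ker := hi₀
  have hLinj : Function.Injective
      (Fintype.linearCombination ℂ (fun j : Fin n => monoMatK τ lam t (t j))) := by
    rw [injective_iff_map_eq_zero]
    intro c hc
    funext j'
    have h1 := congrFun (congrFun hc i₀) j'
    rw [Fintype.linearCombination_apply, Matrix.sum_apply] at h1
    rw [Finset.sum_eq_single j'] at h1
    · rw [Matrix.smul_apply, monoMatK_apply, mul_inv_cancel_right, smul_eq_mul] at h1
      rcases mul_eq_zero.mp h1 with h | h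
      · exact h
      · exact absurd h (extK_ne_zero τ lam hi₀')
    · intro j _ hj
      rw [Matrix.smul_apply, monoMatK_apply]
      have : t i₀ * t j * (t j')⁻¹ ∉ τ.ker := by
        intro hk
        apply hj
        apply ht.1
        have h2 : τ (t i₀ * t j * (t j')⁻¹) = 1 := hk
        rw [map_mul, map_mul, map_inv, MonoidHom.mem_ker.mp hi₀', one_mul, mul_inv_eq_one] at h2
        exact h2
      rw [extK_of_not_mem τ lam this, smul_zero]
    · intro h
      exact absurd (Finset.mem_univ _) h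
  have hrange : LinearMap.range (Fintype.linearCombination ℂ (fun j : Fin n => monoMatK τ lam t (t j))) =
      Subalgebra.toSubmodule
        (MonoidAlgebra.lift ℂ (Matrix (Fin n) (Fin n) ℂ) Δ (monoHomK τ lam t ht)).range := by
    apply le_antisymm
    · rintro _ ⟨c, rfl⟩
      rw [Fintype.linearCombination_apply]
      apply Submodule.sum_mem
      intro j _
      apply Submodule.smul_mem
      refine ⟨MonoidAlgebra.single (t j) 1, ?_⟩
      show MonoidAlgebra.lift ℂ (Matrix (Fin n) (Fin n) ℂ) Δ (monoHomK τ lam t ht)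
        (MonoidAlgebra.single (t j) 1) = _
      rw [MonoidAlgebra.lift_single, one_smul]
      rfl
    · rintro _ ⟨x, rfl⟩
      show MonoidAlgebra.lift ℂ (Matrix (Fin n) (Fin n) ℂ) Δ (monoHomK τ lam t ht) x ∈ _
      rw [MonoidAlgebra.lift_apply]
      apply Submodule.sum_mem
      intro a _
      apply Submodule.smul_mem
      obtain ⟨j, hj⟩ := ht.2 (τ a)
      have hj' : τ (t j) = τ a := hj
      have hk : (t j)⁻¹ * a ∈ τ.ker := by
        rw [MonoidHom.mem_ker, map_mul, map_inv, hj', inv_mul_cancel]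
      refine ⟨Pi.single j ((lam ⟨(t j)⁻¹ * a, hk⟩ : ℂˣ) : ℂ), ?_⟩
      rw [Fintype.linearCombination_apply_single]
      show _ = monoMatK τ lam t a
      have ha : a = t j * ((t j)⁻¹ * a) := by group
      conv_rhs => rw [ha, monoMatK_mul τ lam t ht, monoMatK_central τ hτc lam t ht.1 hk]
      rw [Matrix.mul_smul, mul_one]
  rw [← Subalgebra.finrank_toSubmodule, ← hrange, LinearMap.finrank_range_of_inj hLinj,
    Module.finrank_fin_fun]

/-- Wedderburn decomposition of the algebra generated by the monomial representation: representations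
`ρ i` of degrees `d i` with `∑ (d i)² = n`, in each of which `ker τ` acts through the scalars `lam`. -/
theorem exists_blocks [Finite Δ] (hτc : τ.ker ≤ Subgroup.center Δ) (lam : τ.ker →* ℂˣ) (t : Fin n → Δ)
    (ht : Function.Bijective (fun i => τ (t i))) :
    ∃ (N : ℕ) (d : Fin N → ℕ) (ρ : ∀ i, Δ →* GL (Fin (d i)) ℂ), n = ∑ i, d i ^ 2 ∧
      ∀ i z (hz : z ∈ τ.ker), ((ρ i z : GL (Fin (d i)) ℂ) : Matrix (Fin (d i)) (Fin (d i)) ℂ) =
        ((lam ⟨z, hz⟩ : ℂˣ) : ℂ) • (1 : Matrix (Fin (d i)) (Fin (d i)) ℂ) := by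
  classical
  have hne : NeZero ((Nat.card Δ : ℕ) : ℂ) := ⟨Nat.cast_ne_zero.mpr Nat.card_pos.ne'⟩
  have hss : IsSemisimpleRing
      (MonoidAlgebra.lift ℂ (Matrix (Fin n) (Fin n) ℂ) Δ (monoHomK τ lam t ht)).range :=
    RingHom.isSemisimpleRing_of_surjective
      ((MonoidAlgebra.lift ℂ (Matrix (Fin n) (Fin n) ℂ) Δ (monoHomK τ lam t ht)).rangeRestrict :
        MonoidAlgebra ℂ Δ →+* _)
      (MonoidAlgebra.lift ℂ (Matrix (Fin n) (Fin n) ℂ) Δ (monoHomK τ lam t ht)).rangeRestrict_surjective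
  obtain ⟨N, d, hd, ⟨E⟩⟩ := IsSemisimpleRing.exists_algEquiv_pi_matrix_of_isAlgClosed ℂ
    (MonoidAlgebra.lift ℂ (Matrix (Fin n) (Fin n) ℂ) Δ (monoHomK τ lam t ht)).range
  refine ⟨N, d, fun i => MonoidHom.toHomUnits
    (((Pi.evalAlgHom ℂ (fun i => Matrix (Fin (d i)) (Fin (d i)) ℂ) i).comp (E.toAlgHom.comp
      (MonoidAlgebra.lift ℂ (Matrix (Fin n) (Fin n) ℂ) Δ (monoHomK τ lam t ht)).rangeRestrict)).toMonoidHom.comp
      (MonoidAlgebra.of ℂ Δ)), ?_, ?_⟩
  · have h1 := finrank_range_lift_monoHomK τ hτc lam t ht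
    rw [E.toLinearEquiv.finrank_eq, Module.finrank_pi_fintype] at h1
    rw [← h1]
    apply Finset.sum_congr rfl
    intro i _
    rw [Module.finrank_matrix, Fintype.card_fin, Module.finrank_self, mul_one, sq]
  · intro i z hz
    show E ((MonoidAlgebra.lift ℂ (Matrix (Fin n) (Fin n) ℂ) Δ (monoHomK τ lam t ht)).rangeRestrict
      (MonoidAlgebra.of ℂ Δ z)) i = _
    have h2 : (MonoidAlgebra.lift ℂ (Matrix (Fin n) (Fin n) ℂ) Δ (monoHomK τ lam t ht)).rangeRestrict
        (MonoidAlgebra.of ℂ Δ z) = algebraMap ℂ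
          (MonoidAlgebra.lift ℂ (Matrix (Fin n) (Fin n) ℂ) Δ (monoHomK τ lam t ht)).range
          ((lam ⟨z, hz⟩ : ℂˣ) : ℂ) := by
      apply Subtype.ext
      show MonoidAlgebra.lift ℂ (Matrix (Fin n) (Fin n) ℂ) Δ (monoHomK τ lam t ht)
        (MonoidAlgebra.of ℂ Δ z) = algebraMap ℂ (Matrix (Fin n) (Fin n) ℂ) _
      rw [MonoidAlgebra.lift_of]
      show monoMatK τ lam t z = _
      rw [monoMatK_central τ hτc lam t ht.1 hz, Algebra.algebraMap_eq_smul_one]
    rw [h2, AlgEquiv.commutes, Algebra.algebraMap_eq_smul_one]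
    rfl

end MonomialK

end Cfsg.Agent.Lib.Helper70
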