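import Mathlib
import Cfsg.Agent.Lib.Helper70.TabLocal2
import Cfsg.Agent.Lib.Helper70.SchurTwoE

set_option autoImplicit false

/-!
# Local analysis of central extensions of permutation groups on the 24 points, on tables, III (helper70)

Table versions of the lemmas of `SchurTwoE`: a subgroup `V` inverted by an involution `s` such that all
`s * v` only have lifts squaring to one has abelian preimage (`TabExt.abelian_of_inverting`), the main
theorem at the prime 2 for such `V` (`TabExt.two_local_ab`), lifting a four-group (`TabExt.lift_four`).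
-/

namespace Cfsg.Agent.Lib.Helper70

open Cfsg Cfsg.Agent.Lib.Helper9 Cfsg.Agent.Lib.Helper95 Cfsg.Agent.Lib.Helper89

open scoped commutatorElement

section

variable {Γ : Type*} [Group Γ] {σ : Γ →* Equiv.Perm GolayPt} {inH : List ℕ → Bool}

theorem TabExt.abelian_of_inverting (C : TabExt σ inH) {gV LV : List (List ℕ)} (DV : TgData gV LV)
    {sT : List ℕ} (hs : inH sT = true) (hq : ∀ a ∈ LV, QOne σ (tperm (compT sT a))) :
    ∀ g h : Γ, σ g ∈ tgGrp gV → σ h ∈ tgGrp gV → g * h = h * g := by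
  obtain ⟨hsok, hsr⟩ := C.range sT hs
  apply Helper70.abelian_of_inverting (tgGrp gV) hsr
  intro v hv
  obtain ⟨a, ha, rfl⟩ := DV.exists_elem hv
  rw [tperm_mul hsok (DV.ok a ha)]
  exact hq a ha

/-- The main theorem at the prime 2 for a subgroup with abelian preimage, on tables. -/
theorem TabExt.two_local_ab (C : TabExt σ inH) (h2 : ∀ ζ ∈ σ.ker, ζ * ζ = 1)
    {gV gD LV LD : List (List ℕ)} (DV : TgData gV LV) (DD : TgData gD LD) {yT : List ℕ}
    (hy : inH yT = true) (hy3 : compT yT (compT yT yT) = idT) (hgV : gV.all inH = true)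
    (hVab : ∀ g h : Γ, σ g ∈ tgGrp gV → σ h ∈ tgGrp gV → g * h = h * g)
    (hyV : LV.all (fun a => LV.contains (conjT yT a)) = true)
    (hfix : LV.all (fun a => a == idT || conjT yT a != a) = true)
    (hDV : LD.all (fun d => LV.all (fun a => LV.contains (conjT d a))) = true)
    (hDy : LD.all (fun d => conjT d yT == yT || conjT d yT == invT yT) = true)
    (D₁ : Subgroup Γ) (hD₁ : D₁.map σ = tgGrp gD) (hD₁k : ∀ g ∈ D₁, g ∈ σ.ker → g = 1) :
    ∀ a ∈ ⁅(tgGrp (gV ++ gD)).comap σ, (tgGrp (gV ++ gD)).comap σ⁆, a ∈ σ.ker → a = 1 := by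
  obtain ⟨hyok, hyr⟩ := C.range yT hy
  rw [tgGrp_append]
  exact Helper70.two_local_ab C.central h2 (tgGrp gV) (tgGrp gD) (tperm yT)
    (tgGrp_le _ (fun g hg => (C.range g (List.all_eq_true.mp hgV g hg)).2)) hyr hVab
    (tab_y3 hyok hy3) (tab_yV DV hyok hyV) (tab_fix DV hyok hfix) (tab_DV DV DD hDV)
    (tab_Dy DD hyok hDy) D₁ hD₁ hD₁k

/-- Lift of a four-group, on tables. -/
theorem TabExt.lift_four (C : TabExt σ inH) {sT tT : List ℕ} {LD : List (List ℕ)}
    (DD : TgData [sT, tT] LD) (hnd : LD.Nodup) (hlen : 4 ≤ LD.length) (hs : inH sT = true)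
    (ht : inH tT = true) (qs : QOne σ (tperm sT)) (qt : QOne σ (tperm tT))
    (qst : QOne σ (tperm (compT sT tT))) :
    ∃ D₁ : Subgroup Γ, D₁.map σ = tgGrp [sT, tT] ∧ ∀ g ∈ D₁, g ∈ σ.ker → g = 1 := by
  obtain ⟨hsok, hsr⟩ := C.range sT hs
  obtain ⟨htok, htr⟩ := C.range tT ht
  have hcard := DD.card hnd
  rw [tgGrp_pair] at hcard ⊢
  apply exists_lift_four hsr htr qs qt
  · rw [tperm_mul hsok htok]
    exact qst
  · rw [hcard]; exact hlen

end

end Cfsg.Agent.Lib.Helper70
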