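import Cfsg.Agent.Lib.Helper22.W2Defs

/-!
# Project W2 (S4707, architect helper22): piece MU1

In the valency-3, triangle-free graph on 10 points with the stabilizer of `x` transitive on the
6 non-neighbours, every non-neighbour `γ ≠ x` of `x` has exactly one common neighbour with `x`.
-/

set_option autoImplicit false

namespace Cfsg.Agent.Lib.Helper70.W2

open Cfsg Cfsg.Agent.Lib.Helper22.W2
open scoped ComplexConjugate

universe u

section perm

variable {α : Type*} [Fintype α] [DecidableEq α]

/-- PIECE MU1 -/
theorem mu1 (hα : Fintype.card α = 10) (G : Subgroup (Equiv.Perm α)) (hnb : Nb G)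
    (hsymm : ∀ x y : α, adj G x y → adj G y x)
    (hsmul : ∀ (g : G) (x y : α), adj G x y → adj G (g • x) (g • y))
    (hlam : ∀ x y y' : α, adj G x y → adj G x y' → ¬ adj G y y')
    (x γ : α) (h1 : γ ≠ x) (h2 : ¬ adj G x γ) : ∃! y : α, adj G x y ∧ adj G y γ := by
  classical
  let N : α → Finset α := fun a => Finset.univ.filter (fun y => adj G a y)
  have hNmem : ∀ a y, y ∈ N a ↔ adj G a y := by intro a y; simp [N]
  have hNcard : ∀ a, (N a).card = 3 := by
    intro a
    have h := (hnb a).1
    rw [Nat.card_eq_fintype_card, Fintype.card_subtype] at h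
    exact h
  have hirr : ∀ a, ¬ adj G a a := fun a h => h.1 rfl
  let M : Finset α := Finset.univ.filter (fun c => c ≠ x ∧ ¬ adj G x c)
  have hMmem : ∀ c, c ∈ M ↔ (c ≠ x ∧ ¬ adj G x c) := by intro c; simp [M]
  have hMcard : M.card = 6 := by
    have hdisj : Disjoint (insert x (N x)) M := by
      rw [Finset.disjoint_left]
      intro c hc hcM
      rw [hMmem] at hcM
      rcases Finset.mem_insert.mp hc with rfl | hc
      · exact hcM.1 rfl
      · exact hcM.2 ((hNmem x c).mp hc)
    have hunion : insert x (N x) ∪ M = Finset.univ := by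
      ext c
      simp only [Finset.mem_union, Finset.mem_insert, Finset.mem_univ, iff_true, hNmem, hMmem]
      by_cases hc : c = x
      · exact Or.inl (Or.inl hc)
      · by_cases hc2 : adj G x c
        · exact Or.inl (Or.inr hc2)
        · exact Or.inr ⟨hc, hc2⟩
    have hcard := Finset.card_union_of_disjoint hdisj
    rw [hunion, Finset.card_univ, hα,
      Finset.card_insert_of_notMem (by rw [hNmem]; exact hirr x), hNcard] at hcard
    omega
  let c : α → ℕ := fun d => ((N x).filter (fun y => adj G y d)).card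
  have hcle : ∀ d d', d ∈ M → d' ∈ M → c d ≤ c d' := by
    intro d d' hd hd'
    rw [hMmem] at hd hd'
    obtain ⟨h, hx, hdd⟩ := (hnb x).2.2 d d' hd.1 hd'.1 hd.2 hd'.2
    apply Finset.card_le_card_of_injOn (fun y => h • y)
    · intro y hy
      simp only [Finset.coe_filter, Set.mem_setOf_eq, hNmem] at hy ⊢
      refine ⟨?_, ?_⟩
      · have := hsmul h x y hy.1
        rwa [hx] at this
      · have := hsmul h y d hy.2
        rwa [hdd] at this
    · intro y _ y' _ hyy
      exact MulAction.injective h hyy
  have hγM : γ ∈ M := (hMmem γ).mpr ⟨h1, h2⟩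
  have hceq : ∀ d ∈ M, c d = c γ := by
    intro d hd
    exact le_antisymm (hcle d γ hd hγM) (hcle γ d hγM hd)
  have hsum : ∑ d ∈ M, c d = 6 := by
    have hswap : ∑ d ∈ M, c d = ∑ y ∈ N x, (M.filter (fun d => adj G y d)).card := by
      simp only [c, Finset.card_filter]
      rw [Finset.sum_comm]
    rw [hswap]
    have hy2 : ∀ y ∈ N x, (M.filter (fun d => adj G y d)).card = 2 := by
      intro y hy
      rw [hNmem] at hy
      have hEq : M.filter (fun d => adj G y d) = (N y).erase x := by
        ext d
        simp only [Finset.mem_filter, Finset.mem_erase, hNmem, hMmem]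
        constructor
        · rintro ⟨⟨hdx, _⟩, hyd⟩
          exact ⟨hdx, hyd⟩
        · rintro ⟨hdx, hyd⟩
          exact ⟨⟨hdx, fun hxd => hlam x y d hy hxd hyd⟩, hyd⟩
      rw [hEq, Finset.card_erase_of_mem ((hNmem y x).mpr (hsymm x y hy)), hNcard]
    rw [Finset.sum_congr rfl hy2, Finset.sum_const, hNcard]
    rfl
  have hc1 : c γ = 1 := by
    have h6 : ∑ d ∈ M, c d = ∑ d ∈ M, c γ := Finset.sum_congr rfl hceq
    rw [hsum, Finset.sum_const, hMcard, smul_eq_mul] at h6
    omega
  obtain ⟨y, hy⟩ := Finset.card_eq_one.mp hc1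
  refine ⟨y, ?_, ?_⟩
  · have hmem : y ∈ (N x).filter (fun y => adj G y γ) := by
      rw [hy]; exact Finset.mem_singleton_self y
    rw [Finset.mem_filter, hNmem] at hmem
    exact hmem
  · intro y' hy'
    have hmem : y' ∈ (N x).filter (fun y => adj G y γ) := by
      rw [Finset.mem_filter, hNmem]; exact hy'
    rw [hy] at hmem
    exact Finset.mem_singleton.mp hmem

end perm

end Cfsg.Agent.Lib.Helper70.W2
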