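import Cfsg.Agent.Lib.Helper22.W2Defs
import Cfsg.Agent.S0219

/-!
# Project W2 (S4707, architect helper22): piece SIMPLE60 (backup copy by helper70)

A group of order 60 in which every nontrivial normal subgroup has order divisible by 10 and a
Sylow 5-subgroup has a normalizer of order 10 is simple.
-/

set_option autoImplicit false

namespace Cfsg.Agent.Lib.Helper70.W2

open Cfsg Cfsg.Agent.Lib.Helper22.W2
open scoped ComplexConjugate
open scoped commutatorElement

universe u

section abstract

variable {G : Type u} [Group G] [Fintype G]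

theorem SIMPLE60_comm_mem {K : Type*} [Group K] (M : Subgroup K) (hM : M.index = 2) (a b : K) :
    ⁅a, b⁆ ∈ M := by
  rw [commutatorElement_def, Subgroup.mul_mem_iff_of_index_two hM,
    Subgroup.mul_mem_iff_of_index_two hM, Subgroup.mul_mem_iff_of_index_two hM,
    Subgroup.inv_mem_iff, Subgroup.inv_mem_iff]
  tauto

/-- PIECE SIMPLE60 -/
theorem simple60 (hcard : Nat.card G = 60)
    (hnd : ∀ K : Subgroup G, K.Normal → K ≠ ⊥ → 10 ∣ Nat.card K) (P : Sylow 5 G)
    (hN : Nat.card (Subgroup.normalizer ((P : Subgroup G) : Set G)) = 10) :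
    IsSimpleGroup G := by
  classical
  haveI : Fact (Nat.Prime 5) := ⟨by norm_num⟩
  haveI : Nontrivial G := by
    apply Finite.one_lt_card_iff_nontrivial.mp
    rw [hcard]; norm_num
  have hPcard : Nat.card (P : Subgroup G) = 5 := by
    obtain ⟨n, hn⟩ := IsPGroup.iff_card.mp P.2
    have h1 := (P : Subgroup G).index_mul_card
    have h2 := P.not_dvd_index
    rw [hn, hcard] at h1
    rcases n with _ | _ | n
    · exfalso; apply h2; simp at h1; rw [h1]; norm_num
    · simpa using hn
    · exfalso
      have : 25 ∣ 60 := ⟨(P : Subgroup G).index * 5 ^ n, by rw [← h1]; ring⟩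
      omega
  have hPN : (P : Subgroup G) ≤ Subgroup.normalizer ((P : Subgroup G) : Set G) :=
    Subgroup.le_normalizer
  have hrel : (P : Subgroup G).relIndex (Subgroup.normalizer ((P : Subgroup G) : Set G)) = 2 := by
    have h1 := ((P : Subgroup G).subgroupOf
      (Subgroup.normalizer ((P : Subgroup G) : Set G))).index_mul_card
    rw [Nat.card_congr (Subgroup.subgroupOfEquivOfLe hPN).toEquiv, hPcard, hN] at h1
    change (P : Subgroup G).relIndex _ * 5 = 10 at h1
    omega
  have key : ∀ K : Subgroup G, K.Normal → K ≠ ⊥ → (P : Subgroup G) ≤ K ∧ K.index ∣ 2 := by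
    intro K hK hne
    haveI := hK
    have h10 := hnd K hK hne
    have hidx := K.index_mul_card
    rw [hcard] at hidx
    have hidx6 : K.index ∣ 6 := by
      obtain ⟨c, hc⟩ := h10
      rw [hc] at hidx
      exact ⟨c, by nlinarith⟩
    have hPK : (P : Subgroup G) ≤ K := by
      intro g hg
      rw [← QuotientGroup.eq_one_iff]
      have ho1 : orderOf (g : G) ∣ 5 := by
        have h := orderOf_dvd_natCard (⟨g, hg⟩ : (P : Subgroup G))
        rw [hPcard, Subgroup.orderOf_mk] at h
        exact h
      have ho2 : orderOf (QuotientGroup.mk g : G ⧸ K) ∣ 5 :=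
        (orderOf_map_dvd (QuotientGroup.mk' K) g).trans ho1
      have ho3 : orderOf (QuotientGroup.mk g : G ⧸ K) ∣ 6 := by
        have h := orderOf_dvd_natCard (QuotientGroup.mk g : G ⧸ K)
        rw [← Subgroup.index_eq_card] at h
        exact h.trans hidx6
      have h56 : orderOf (QuotientGroup.mk g : G ⧸ K) ∣ Nat.gcd 5 6 := Nat.dvd_gcd ho2 ho3
      exact orderOf_eq_one_iff.mp (Nat.dvd_one.mp (by simpa using h56))
    refine ⟨hPK, ?_⟩
    have hF : Subgroup.normalizer ((P : Subgroup G) : Set G) ⊔ K = ⊤ :=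
      Sylow.normalizer_sup_eq_top' P hPK
    have h1 := Subgroup.relIndex_sup_right
      (H := Subgroup.normalizer ((P : Subgroup G) : Set G)) (K := K)
    rw [hF, Subgroup.relIndex_top_right] at h1
    rw [h1, ← hrel]
    exact Subgroup.relIndex_dvd_of_le_left _ hPK
  refine ⟨fun K hK => ?_⟩
  by_contra hcon
  rw [not_or] at hcon
  obtain ⟨hne, hnt⟩ := hcon
  haveI := hK
  obtain ⟨hPK, hidx⟩ := key K hK hne
  have hidx2 : K.index = 2 := by
    have h1 : K.index ≠ 1 := fun h => hnt (Subgroup.index_eq_one.mp h)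
    have h0 : K.index ≠ 0 := Subgroup.index_ne_zero_of_finite
    have h2 := Nat.le_of_dvd (by norm_num) hidx
    omega
  have hK30 : Nat.card K = 30 := by
    have h := K.index_mul_card
    rw [hcard, hidx2] at h
    omega
  obtain ⟨M, hM⟩ : ∃ M : Subgroup K, M.index = 2 := by
    let T : Sylow 2 K := default
    have hT : Nat.card (T : Subgroup K) = 2 := by
      obtain ⟨n, hn⟩ := IsPGroup.iff_card.mp T.2
      have h1 := (T : Subgroup K).index_mul_card
      have h2 := T.not_dvd_index
      rw [hn, hK30] at h1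
      rcases n with _ | _ | n
      · exfalso; apply h2; simp at h1; rw [h1]; norm_num
      · simpa using hn
      · exfalso
        have : 4 ∣ 30 := ⟨(T : Subgroup K).index * 2 ^ n, by rw [← h1]; ring⟩
        omega
    haveI : Fact (Nat.Prime 2) := ⟨Nat.prime_two⟩
    exact Cfsg.Agent.S0219.result (by rw [hK30]; decide) T (isCyclic_of_prime_card hT)
  have hMcard : Nat.card M = 15 := by
    have h := M.index_mul_card
    rw [hM, hK30] at h
    omega
  have hDle : ⁅K, K⁆ ≤ M.map K.subtype := by
    rw [Subgroup.commutator_le]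
    intro a ha b hb
    refine ⟨⁅(⟨a, ha⟩ : K), ⟨b, hb⟩⁆, SIMPLE60_comm_mem M hM _ _, ?_⟩
    simp [commutatorElement_def]
  have hMmap : Nat.card (M.map K.subtype) = 15 := by
    rw [← hMcard]
    exact Nat.card_congr (M.equivMapOfInjective K.subtype K.subtype_injective).symm.toEquiv
  have hDdvd : Nat.card (⁅K, K⁆ : Subgroup G) ∣ 15 := hMmap ▸ Subgroup.card_dvd_of_le hDle
  have hDbot : (⁅K, K⁆ : Subgroup G) = ⊥ := by
    by_contra hD
    obtain ⟨_, hDi⟩ := key ⁅K, K⁆ inferInstance hD
    have h1 := (⁅K, K⁆ : Subgroup G).index_mul_card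
    rw [hcard] at h1
    have h2 := Nat.le_of_dvd (by norm_num) hDi
    have h3 := Nat.le_of_dvd (by norm_num) hDdvd
    nlinarith
  have hcomm : ∀ a ∈ K, ∀ b ∈ K, a * b = b * a := by
    intro a ha b hb
    have h : ⁅a, b⁆ ∈ (⁅K, K⁆ : Subgroup G) := Subgroup.commutator_mem_commutator ha hb
    rw [hDbot, Subgroup.mem_bot, commutatorElement_eq_one_iff_mul_comm] at h
    exact h
  have hKN : K ≤ Subgroup.normalizer ((P : Subgroup G) : Set G) := by
    intro k hk
    rw [Subgroup.mem_normalizer_iff]
    intro h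
    constructor
    · intro hh
      have e : k * h * k⁻¹ = h := by
        rw [hcomm k hk h (hPK hh), mul_assoc, mul_inv_cancel, mul_one]
      rw [e]; exact hh
    · intro hh
      have hc := hcomm k⁻¹ (K.inv_mem hk) (k * h * k⁻¹) (hPK hh)
      have e : h = k⁻¹ * (k * h * k⁻¹) * k := by group
      rw [e, hc, inv_mul_cancel_right]
      exact hh
  have hdvd := Subgroup.card_dvd_of_le hKN
  rw [hK30, hN] at hdvd
  omega

end abstract

end Cfsg.Agent.Lib.Helper70.W2
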